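import Mathlib

set_option autoImplicit false

/-! # Linear systems over `ZMod 2` with bit-packed rows

A small verified elimination: rows are natural numbers read as bit vectors; a row `m` is *valid*
for `x : ℕ → ZMod 2` when the sum of the `x i` over the bits `i` of `m` vanishes.  If a list of
valid rows passes `check n`, then `x i = 0` for all `i < n`. -/

namespace Cfsg.Agent.Lib.Helper7.SE

/-- dot product over `ZMod 2` of the first `n` bits of `m` with `x` -/
def dot (x : ℕ → ZMod 2) (n m : ℕ) : ZMod 2 :=
  ∑ i ∈ Finset.range n, if m.testBit i = true then x i else 0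

theorem dot_zero (x : ℕ → ZMod 2) (n : ℕ) : dot x n 0 = 0 := by
  unfold dot
  apply Finset.sum_eq_zero
  intro i _
  rw [Nat.zero_testBit]
  rfl

theorem dot_xor (x : ℕ → ZMod 2) (n a b : ℕ) :
    dot x n (a ^^^ b) = dot x n a + dot x n b := by
  unfold dot
  rw [← Finset.sum_add_distrib]
  apply Finset.sum_congr rfl
  intro i _
  rw [Nat.testBit_xor]
  rcases Bool.eq_false_or_eq_true (a.testBit i) with ha | ha <;>
    rcases Bool.eq_false_or_eq_true (b.testBit i) with hb | hb <;> rw [ha, hb]
  · have h : (true ^^ true) = false := rfl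
    rw [h]
    simp only [if_true]
    exact (CharTwo.add_self_eq_zero (x i)).symm
  · have h : (true ^^ false) = true := rfl
    rw [h]
    simp
  · have h : (false ^^ true) = true := rfl
    rw [h]
    simp
  · have h : (false ^^ false) = false := rfl
    rw [h]
    simp

theorem dot_two_pow (x : ℕ → ZMod 2) {n k : ℕ} (hk : k < n) : dot x n (2 ^ k) = x k := by
  unfold dot
  rw [Finset.sum_eq_single k]
  · rw [Nat.testBit_two_pow]
    simp
  · intro i _ hik
    rw [Nat.testBit_two_pow]
    have : ¬ k = i := fun h => hik h.symm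
    simp [this]
  · intro h
    exact absurd (Finset.mem_range.mpr hk) h

/-- `p` is the highest bit of `R` -/
def isLead (R p : ℕ) : Bool := R.testBit p && (R >>> (p + 1) == 0)

/-- a row whose highest bit is `i`, all lower unknowns being zero, gives `x i` -/
theorem dot_lead (x : ℕ → ZMod 2) {n R i : ℕ} (hl : isLead R i = true) (hin : i < n)
    (hlow : ∀ j < i, x j = 0) : dot x n R = x i := by
  unfold isLead at hl
  rw [Bool.and_eq_true] at hl
  have hlt : R < 2 ^ (i + 1) := by
    have h := eq_of_beq hl.2
    rw [Nat.shiftRight_eq_div_pow] at h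
    exact (Nat.div_eq_zero_iff.mp h).resolve_left (by positivity)
  unfold dot
  rw [Finset.sum_eq_single i]
  · rw [hl.1]
    simp
  · intro j _ hji
    rcases lt_or_gt_of_ne hji with h | h
    · rw [hlow j h]
      simp
    · have hlt' : R < 2 ^ j := by
        have h2 : 2 ^ (i + 1) ≤ 2 ^ j := Nat.pow_le_pow_right (by norm_num) (by omega)
        omega
      rw [Nat.testBit_lt_two_pow hlt']
      simp
  · intro h
    exact absurd (Finset.mem_range.mpr hin) h

/-- reduce `m` by the rows of `acc` (pairs of a bit and a row), in order -/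
def red (acc : List (ℕ × ℕ)) (m : ℕ) : ℕ :=
  acc.foldl (fun m pr => if m.testBit pr.1 = true then m ^^^ pr.2 else m) m

theorem dot_red (x : ℕ → ZMod 2) (n : ℕ) (acc : List (ℕ × ℕ))
    (h : ∀ pr ∈ acc, dot x n pr.2 = 0) (m : ℕ) : dot x n (red acc m) = dot x n m := by
  induction acc generalizing m with
  | nil => rfl
  | cons R acc ih =>
    have h1 : red (R :: acc) m = red acc (if m.testBit R.1 = true then m ^^^ R.2 else m) := rfl
    rw [h1, ih (fun R' hR' => h R' (List.mem_cons_of_mem _ hR'))]
    split_ifs
    · rw [dot_xor, h R List.mem_cons_self, add_zero]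
    · rfl

/-- insert a reduced row with its bit into the fully reduced list -/
def gjStep (accP : List (ℕ × ℕ)) (p m : ℕ) : List (ℕ × ℕ) :=
  (p, m) :: accP.map (fun pr => (pr.1, if pr.2.testBit p = true then pr.2 ^^^ m else pr.2))

theorem gjStep_valid (x : ℕ → ZMod 2) (n : ℕ) (accP : List (ℕ × ℕ))
    (h : ∀ pr ∈ accP, dot x n pr.2 = 0) (p m : ℕ) (hm : dot x n m = 0) :
    ∀ pr ∈ gjStep accP p m, dot x n pr.2 = 0 := by
  unfold gjStep
  intro R hR
  rcases List.mem_cons.mp hR with rfl | hR
  · exact hm
  · obtain ⟨R', hR', rfl⟩ := List.mem_map.mp hR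
    show dot x n (if R'.2.testBit p = true then R'.2 ^^^ m else R'.2) = 0
    split_ifs
    · rw [dot_xor, h R' hR', hm, add_zero]
    · exact h R' hR'

/-- process the rows `(flag, bit, row)`: unflagged rows are stored as they are, flagged rows
are reduced first -/
def run : List (Bool × ℕ × ℕ) → List (ℕ × ℕ) → List (ℕ × ℕ) → List (ℕ × ℕ) × List (ℕ × ℕ)
  | [], accS, accP => (accS, accP)
  | (false, p, m) :: rest, accS, accP => run rest ((p, m) :: accS) accP
  | (true, p, m) :: rest, accS, accP => run rest accS (gjStep accP p (red accP (red accS m)))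

theorem run_valid (x : ℕ → ZMod 2) (n : ℕ) (rows : List (Bool × ℕ × ℕ))
    (hrows : ∀ r ∈ rows, dot x n r.2.2 = 0) (accS accP : List (ℕ × ℕ))
    (hS : ∀ pr ∈ accS, dot x n pr.2 = 0) (hP : ∀ pr ∈ accP, dot x n pr.2 = 0) :
    (∀ pr ∈ (run rows accS accP).1, dot x n pr.2 = 0) ∧
      (∀ pr ∈ (run rows accS accP).2, dot x n pr.2 = 0) := by
  induction rows generalizing accS accP with
  | nil => exact ⟨hS, hP⟩
  | cons r rest ih =>
    obtain ⟨f, p, m⟩ := r
    have hm : dot x n m = 0 := hrows (f, p, m) List.mem_cons_self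
    have hrest : ∀ r ∈ rest, dot x n r.2.2 = 0 :=
      fun r hr => hrows r (List.mem_cons_of_mem _ hr)
    cases f with
    | false =>
      have h1 : run ((false, p, m) :: rest) accS accP = run rest ((p, m) :: accS) accP := rfl
      rw [h1]
      apply ih hrest
      · intro R hR
        rcases List.mem_cons.mp hR with rfl | hR
        · exact hm
        · exact hS R hR
      · exact hP
    | true =>
      have h1 : run ((true, p, m) :: rest) accS accP
          = run rest accS (gjStep accP p (red accP (red accS m))) := rfl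
      rw [h1]
      apply ih hrest _ _ hS
      apply gjStep_valid x n accP hP
      rw [dot_red x n accP hP, dot_red x n accS hS, hm]

/-- the set of the bits of the rows, as a bit mask -/
def cover (acc : List (ℕ × ℕ)) (s : ℕ) : ℕ :=
  acc.foldl (fun s pr => s ||| 2 ^ pr.1) s

theorem cover_spec (acc : List (ℕ × ℕ)) (s i : ℕ) (h : (cover acc s).testBit i = true) :
    s.testBit i = true ∨ ∃ pr ∈ acc, pr.1 = i := by
  induction acc generalizing s with
  | nil => exact Or.inl h
  | cons R acc ih =>
    have h1 : cover (R :: acc) s = cover acc (s ||| 2 ^ R.1) := rfl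
    rw [h1] at h
    rcases ih _ h with h2 | ⟨R', hR', h3⟩
    · rw [Nat.testBit_or, Bool.or_eq_true, Nat.testBit_two_pow] at h2
      rcases h2 with h2 | h2
      · exact Or.inl h2
      · exact Or.inr ⟨R, List.mem_cons_self, of_decide_eq_true h2⟩
    · exact Or.inr ⟨R', List.mem_cons_of_mem _ hR', h3⟩

/-- the check: after processing, every stored row has its bit as highest bit, and these bits
cover `0, …, n - 1` -/
def check (n : ℕ) (rows : List (Bool × ℕ × ℕ)) : Bool :=
  ((run rows [] []).1.all fun pr => isLead pr.2 pr.1) &&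
    ((run rows [] []).2.all fun pr => isLead pr.2 pr.1) &&
    (cover (run rows [] []).2 (cover (run rows [] []).1 0) == 2 ^ n - 1)

theorem elim_sound (x : ℕ → ZMod 2) (n : ℕ) (rows : List (Bool × ℕ × ℕ))
    (hrows : ∀ r ∈ rows, dot x n r.2.2 = 0) (hc : check n rows = true) : ∀ i < n, x i = 0 := by
  obtain ⟨hS, hP⟩ := run_valid x n rows hrows [] [] (fun _ h => by cases h) (fun _ h => by cases h)
  unfold check at hc
  rw [Bool.and_eq_true, Bool.and_eq_true] at hc
  obtain ⟨⟨hl1, hl2⟩, hc⟩ := hc
  have hc' := eq_of_beq hc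
  intro i
  induction i using Nat.strong_induction_on with
  | _ i ih =>
    intro hin
    have hb : (cover (run rows [] []).2 (cover (run rows [] []).1 0)).testBit i = true := by
      rw [hc', Nat.testBit_two_pow_sub_one]
      exact decide_eq_true hin
    have hex : ∃ R, dot x n R = 0 ∧ isLead R i = true := by
      rcases cover_spec _ _ i hb with h | ⟨R, hR, hl⟩
      · rcases cover_spec _ _ i h with h | ⟨R, hR, hl⟩
        · rw [Nat.zero_testBit] at h
          cases h
        · exact ⟨R.2, hS R hR, hl ▸ List.all_eq_true.mp hl1 R hR⟩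
      · exact ⟨R.2, hP R hR, hl ▸ List.all_eq_true.mp hl2 R hR⟩
    obtain ⟨R, hv, hl⟩ := hex
    rw [dot_lead x hl hin (fun j hj => ih j hj (by omega))] at hv
    exact hv

end Cfsg.Agent.Lib.Helper7.SE
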