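import Mathlib
import Cfsg.Agent.Lib.Helper7.SignElim

set_option autoImplicit false

/-! # Coset tables up to a central involution

Let `S` be a subgroup of a group `Y`, `z` a central involution outside `S`, and `y 0, y 1, y 2`
elements of `Y`.  Suppose a coset table on `n` points is known to be right "modulo `z`": the
product of a coset representative with a generator lies in the expected coset of `S`, or in
that coset times `z`.  Each relator that holds in `Y` gives a linear equation over `ZMod 2`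
between the unknown signs; when the resulting system forces all the signs to vanish (checked by
`SE.check`), the table is exactly right, and the subgroup generated by the `y i` is contained
in the union of the `n` cosets. -/

namespace Cfsg.Agent.Lib.Helper7.CS

open Cfsg.Agent.Lib.Helper7

section Words

variable {Y : Type*} [Group Y]

/-- letter `2 j` is `y j`, letter `2 j + 1` its inverse -/
def letY (y : ℕ → Y) (l : ℕ) : Y := if l % 2 = 0 then y (l / 2) else (y (l / 2))⁻¹

/-- product of the letters of a word -/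
def evY (y : ℕ → Y) (w : List ℕ) : Y := (w.map (letY y)).prod

theorem evY_nil (y : ℕ → Y) : evY y [] = 1 := rfl

theorem evY_cons (y : ℕ → Y) (l : ℕ) (w : List ℕ) : evY y (l :: w) = letY y l * evY y w := by
  unfold evY
  rw [List.map_cons, List.prod_cons]

theorem evY_append (y : ℕ → Y) (u w : List ℕ) : evY y (u ++ w) = evY y u * evY y w := by
  unfold evY
  rw [List.map_append, List.prod_append]

theorem letY_even (y : ℕ → Y) (j : ℕ) : letY y (2 * j) = y j := by
  unfold letY
  rw [if_pos (by omega)]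
  congr 1
  omega

theorem letY_odd (y : ℕ → Y) (j : ℕ) : letY y (2 * j + 1) = (y j)⁻¹ := by
  unfold letY
  rw [if_neg (by omega)]
  congr 2
  omega

/-- the word of the path from the root to `c` in the tree given by `par`, `plet`
(with fuel) -/
def tw (par plet : ℕ → ℕ) : ℕ → ℕ → List ℕ
  | 0, _ => []
  | k + 1, c => if c = 0 then [] else tw par plet k (par c) ++ [plet c]

theorem tw_stable (par plet : ℕ → ℕ) (n : ℕ) (hpar : ∀ c, 0 < c → c < n → par c < c) :
    ∀ c, c < n → ∀ k, c ≤ k → tw par plet k c = tw par plet c c := by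
  intro c
  induction c using Nat.strong_induction_on with
  | _ c ih =>
    intro hc k hk
    rcases Nat.eq_zero_or_pos c with rfl | hpos
    · cases k with
      | zero => rfl
      | succ k => simp [tw]
    · obtain ⟨k', rfl⟩ : ∃ k', k = k' + 1 := ⟨k - 1, by omega⟩
      obtain ⟨c', rfl⟩ : ∃ c', c = c' + 1 := ⟨c - 1, by omega⟩
      have hp := hpar (c' + 1) hpos hc
      have h1 : tw par plet (k' + 1) (c' + 1)
          = tw par plet k' (par (c' + 1)) ++ [plet (c' + 1)] := by simp [tw]
      have h2 : tw par plet (c' + 1) (c' + 1)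
          = tw par plet c' (par (c' + 1)) ++ [plet (c' + 1)] := by simp [tw]
      rw [h1, h2, ih (par (c' + 1)) hp (by omega) k' (by omega),
        ih (par (c' + 1)) hp (by omega) c' (by omega)]

/-- the coset representatives -/
def rho (y : ℕ → Y) (par plet : ℕ → ℕ) (c : ℕ) : Y := evY y (tw par plet c c)

theorem rho_zero (y : ℕ → Y) (par plet : ℕ → ℕ) : rho y par plet 0 = 1 := rfl

theorem rho_succ (y : ℕ → Y) (par plet : ℕ → ℕ) (n : ℕ)
    (hpar : ∀ c, 0 < c → c < n → par c < c) (c : ℕ) (h0 : 0 < c) (hc : c < n) :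
    rho y par plet c = rho y par plet (par c) * letY y (plet c) := by
  obtain ⟨c', rfl⟩ : ∃ c', c = c' + 1 := ⟨c - 1, by omega⟩
  have hp := hpar (c' + 1) h0 hc
  unfold rho
  have h2 : tw par plet (c' + 1) (c' + 1)
      = tw par plet c' (par (c' + 1)) ++ [plet (c' + 1)] := by simp [tw]
  rw [h2, tw_stable par plet n hpar (par (c' + 1)) (by omega) c' (by omega), evY_append,
    evY_cons, evY_nil, mul_one]

end Words

section Signs

variable {Y : Type*} [Group Y]

/-- `1` or `z` -/
def zp (z : Y) (b : ZMod 2) : Y := if b = 0 then 1 else z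

/-- `u` lies in `S` (for `b = 0`) or in `S z` (for `b = 1`) -/
def M (S : Subgroup Y) (z : Y) (b : ZMod 2) (u : Y) : Prop := u * zp z b ∈ S

theorem zmod2_cases (a : ZMod 2) : a = 0 ∨ a = 1 := by
  fin_cases a
  · exact Or.inl rfl
  · exact Or.inr rfl

variable (S : Subgroup Y) (z : Y)

theorem zp_add (hz2 : z * z = 1) (a b : ZMod 2) : zp z (a + b) = zp z a * zp z b := by
  have h11 : (1 : ZMod 2) + 1 = 0 := by decide
  have h10 : (1 : ZMod 2) ≠ 0 := by decide
  rcases zmod2_cases a with rfl | rfl <;> rcases zmod2_cases b with rfl | rfl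
  · simp [zp]
  · simp [zp]
  · simp [zp]
  · rw [h11]
    simp [zp, h10, hz2]

theorem zp_comm (hzc : ∀ u : Y, u * z = z * u) (b : ZMod 2) (u : Y) :
    u * zp z b = zp z b * u := by
  unfold zp
  split_ifs
  · rw [mul_one, one_mul]
  · exact hzc u

theorem zp_mul_self (hz2 : z * z = 1) (b : ZMod 2) : zp z b * zp z b = 1 := by
  unfold zp
  split_ifs
  · rw [mul_one]
  · exact hz2

theorem M_zero_iff (u : Y) : M S z 0 u ↔ u ∈ S := by
  unfold M zp
  rw [if_pos rfl, mul_one]

theorem M_mul (hz2 : z * z = 1) (hzc : ∀ u : Y, u * z = z * u) {a b : ZMod 2} {u v : Y}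
    (hu : M S z a u) (hv : M S z b v) : M S z (a + b) (u * v) := by
  unfold M at *
  have h : u * v * zp z (a + b) = (u * zp z a) * (v * zp z b) := by
    rw [zp_add z hz2, mul_assoc u v, ← mul_assoc v, zp_comm z hzc a v, mul_assoc (zp z a),
      ← mul_assoc u]
  rw [h]
  exact S.mul_mem hu hv

theorem M_inv (hz2 : z * z = 1) (hzc : ∀ u : Y, u * z = z * u) {b : ZMod 2} {u : Y}
    (hu : M S z b u) : M S z b u⁻¹ := by
  unfold M at *
  have h : u⁻¹ * zp z b = (u * zp z b)⁻¹ := by
    rw [mul_inv_rev, zp_comm z hzc b u⁻¹]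
    congr 1
    exact (inv_eq_of_mul_eq_one_left (zp_mul_self z hz2 b)).symm
  rw [h]
  exact S.inv_mem hu

theorem M_unique (hz2 : z * z = 1) (hzc : ∀ u : Y, u * z = z * u) (hzS : z ∉ S) {a b : ZMod 2}
    {u : Y} (hu : M S z a u) (hv : M S z b u) : a = b := by
  have h1 : M S z (a + b) (u⁻¹ * u) := M_mul S z hz2 hzc (M_inv S z hz2 hzc hu) hv
  rw [inv_mul_cancel] at h1
  unfold M at h1
  rw [one_mul] at h1
  by_contra hne
  have hab : a + b ≠ 0 := by
    intro h
    apply hne
    rcases zmod2_cases a with rfl | rfl <;> rcases zmod2_cases b with rfl | rfl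
    · rfl
    · exact absurd h (by decide)
    · exact absurd h (by decide)
    · rfl
  unfold zp at h1
  rw [if_neg hab] at h1
  exact hzS h1

end Signs

section Table

variable {Y : Type*} [Group Y] (S : Subgroup Y) (z : Y) (y : ℕ → Y)
variable (n : ℕ) (nx : ℕ → ℕ → ℕ) (par plet : ℕ → ℕ)

/-- end point of the path of a word from a coset -/
def endC (nx : ℕ → ℕ → ℕ) : List ℕ → ℕ → ℕ
  | [], c => c
  | l :: w, c => endC nx w (nx c l)

/-- the edge (`3 c + j`, generator `j` at coset `c`) traversed by letter `l` at coset `c` -/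
def edgeOf (nx : ℕ → ℕ → ℕ) (c l : ℕ) : ℕ :=
  if l % 2 = 0 then 3 * c + l / 2 else 3 * nx c l + l / 2

/-- bit mask of the unknown edges traversed an odd number of times -/
def wm (nx : ℕ → ℕ → ℕ) (vt : ℕ → ℕ) : List ℕ → ℕ → ℕ → ℕ
  | [], _, m => m
  | l :: w, c, m =>
    wm nx vt w (nx c l)
      (match vt (edgeOf nx c l) with
        | 0 => m
        | k + 1 => m ^^^ 2 ^ k)

/-- the sign of generator `j` at coset `c` -/
noncomputable def eps (c j : ℕ) : ZMod 2 :=
  open Classical in
  if h : ∃ b, M S z b (rho y par plet c * y j * (rho y par plet (nx c (2 * j)))⁻¹)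
  then Classical.choose h else 0

/-- the sign of letter `l` at coset `c` -/
noncomputable def eL (c l : ℕ) : ZMod 2 :=
  if l % 2 = 0 then eps S z y nx par plet c (l / 2) else eps S z y nx par plet (nx c l) (l / 2)

/-- the sum of the signs along a path -/
noncomputable def sumE : List ℕ → ℕ → ZMod 2
  | [], _ => 0
  | l :: w, c => eL S z y nx par plet c l + sumE w (nx c l)

/-- hypotheses on the table -/
structure Hyp : Prop where
  hz2 : z * z = 1
  hzc : ∀ u : Y, u * z = z * u
  hzS : z ∉ S
  hy0 : y 0 ∈ S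
  hy1 : y 1 ∈ S
  hn : 0 < n
  htab : ∀ c < n, ∀ j < 3, nx c (2 * j) < n ∧ nx c (2 * j + 1) < n ∧
    nx (nx c (2 * j)) (2 * j + 1) = c ∧ nx (nx c (2 * j + 1)) (2 * j) = c
  htree : ∀ c, 0 < c → c < n → par c < c ∧ plet c < 6 ∧ nx (par c) (plet c) = c
  hP : ∀ c < n, ∀ j < 3,
    ∃ b, M S z b (rho y par plet c * y j * (rho y par plet (nx c (2 * j)))⁻¹)

variable {S z y n nx par plet}

theorem Hyp.hpar (H : Hyp S z y n nx par plet) : ∀ c, 0 < c → c < n → par c < c :=
  fun c h0 hc => (H.htree c h0 hc).1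

theorem Hyp.eps_spec (H : Hyp S z y n nx par plet) {c j : ℕ} (hc : c < n) (hj : j < 3) :
    M S z (eps S z y nx par plet c j)
      (rho y par plet c * y j * (rho y par plet (nx c (2 * j)))⁻¹) := by
  unfold eps
  rw [dif_pos (H.hP c hc j hj)]
  exact Classical.choose_spec (H.hP c hc j hj)

theorem letter_cases {l : ℕ} (hl : l < 6) : ∃ j < 3, l = 2 * j ∨ l = 2 * j + 1 :=
  ⟨l / 2, by omega, by omega⟩

theorem Hyp.nx_lt (H : Hyp S z y n nx par plet) {c l : ℕ} (hc : c < n) (hl : l < 6) :
    nx c l < n := by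
  obtain ⟨j, hj, rfl | rfl⟩ := letter_cases hl
  · exact (H.htab c hc j hj).1
  · exact (H.htab c hc j hj).2.1

/-- one step of a path -/
theorem Hyp.step (H : Hyp S z y n nx par plet) {c l : ℕ} (hc : c < n) (hl : l < 6) :
    M S z (eL S z y nx par plet c l)
      (rho y par plet c * letY y l * (rho y par plet (nx c l))⁻¹) := by
  obtain ⟨j, hj, rfl | rfl⟩ := letter_cases hl
  · have h1 : eL S z y nx par plet c (2 * j) = eps S z y nx par plet c j := by
      unfold eL
      rw [if_pos (by omega)]
      congr 1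
      omega
    rw [h1, letY_even]
    exact H.eps_spec hc hj
  · have hc' : nx c (2 * j + 1) < n := (H.htab c hc j hj).2.1
    have hback : nx (nx c (2 * j + 1)) (2 * j) = c := (H.htab c hc j hj).2.2.2
    have h1 : eL S z y nx par plet c (2 * j + 1)
        = eps S z y nx par plet (nx c (2 * j + 1)) j := by
      unfold eL
      rw [if_neg (by omega)]
      congr 1
      omega
    rw [h1, letY_odd]
    have h2 := H.eps_spec hc' hj
    rw [hback] at h2
    have h3 := M_inv S z H.hz2 H.hzc h2
    have h4 : (rho y par plet (nx c (2 * j + 1)) * y j * (rho y par plet c)⁻¹)⁻¹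
        = rho y par plet c * (y j)⁻¹ * (rho y par plet (nx c (2 * j + 1)))⁻¹ := by group
    rw [h4] at h3
    exact h3

theorem Hyp.endC_lt (H : Hyp S z y n nx par plet) (w : List ℕ) (hw : ∀ l ∈ w, l < 6) :
    ∀ c, c < n → endC nx w c < n := by
  induction w with
  | nil => exact fun c hc => hc
  | cons l w ih =>
    intro c hc
    exact ih (fun l' hl' => hw l' (List.mem_cons_of_mem _ hl')) _
      (H.nx_lt hc (hw l List.mem_cons_self))

/-- the sign of a path -/
theorem Hyp.path (H : Hyp S z y n nx par plet) (w : List ℕ) (hw : ∀ l ∈ w, l < 6) :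
    ∀ c, c < n → M S z (sumE S z y nx par plet w c)
      (rho y par plet c * evY y w * (rho y par plet (endC nx w c))⁻¹) := by
  induction w with
  | nil =>
    intro c _
    have h : rho y par plet c * evY y [] * (rho y par plet (endC nx [] c))⁻¹ = 1 := by
      rw [evY_nil, mul_one]
      exact mul_inv_cancel _
    rw [h]
    exact (M_zero_iff S z 1).mpr S.one_mem
  | cons l w ih =>
    intro c hc
    have hl : l < 6 := hw l List.mem_cons_self
    have h1 := H.step hc hl
    have h2 := ih (fun l' hl' => hw l' (List.mem_cons_of_mem _ hl')) (nx c l) (H.nx_lt hc hl)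
    have h3 := M_mul S z H.hz2 H.hzc h1 h2
    have h4 : rho y par plet c * letY y l * (rho y par plet (nx c l))⁻¹ *
        (rho y par plet (nx c l) * evY y w * (rho y par plet (endC nx w (nx c l)))⁻¹)
        = rho y par plet c * evY y (l :: w) * (rho y par plet (endC nx (l :: w) c))⁻¹ := by
      rw [evY_cons]
      show _ = rho y par plet c * (letY y l * evY y w) *
        (rho y par plet (endC nx w (nx c l)))⁻¹
      group
    rw [h4] at h3
    exact h3

/-- a relator that holds in `Y` gives an equation -/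
theorem Hyp.relator (H : Hyp S z y n nx par plet) (r : List ℕ) (hr : ∀ l ∈ r, l < 6)
    (hr1 : evY y r = 1) {c : ℕ} (hc : c < n) (hend : endC nx r c = c) :
    sumE S z y nx par plet r c = 0 := by
  have h1 := H.path r hr c hc
  rw [hr1, hend, mul_one, mul_inv_cancel] at h1
  exact M_unique S z H.hz2 H.hzc H.hzS h1 ((M_zero_iff S z 1).mpr S.one_mem)

/-- the justification of an edge that carries no unknown -/
def ZeroJ (nx : ℕ → ℕ → ℕ) (par plet : ℕ → ℕ) (c j : ℕ) : Prop :=
  (c = 0 ∧ j < 2 ∧ nx 0 (2 * j) = 0) ∨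
    (0 < nx c (2 * j) ∧ par (nx c (2 * j)) = c ∧ plet (nx c (2 * j)) = 2 * j) ∨
    (0 < c ∧ par c = nx c (2 * j) ∧ plet c = 2 * j + 1)

theorem Hyp.eps_zero (H : Hyp S z y n nx par plet) {c j : ℕ} (hc : c < n) (hj : j < 3)
    (hZ : ZeroJ nx par plet c j) : eps S z y nx par plet c j = 0 := by
  have h1 := H.eps_spec hc hj
  refine M_unique S z H.hz2 H.hzc H.hzS h1 ((M_zero_iff S z _).mpr ?_)
  rcases hZ with ⟨rfl, hj2, h0⟩ | ⟨hpos, hp, hl⟩ | ⟨hpos, hp, hl⟩
  · rw [h0, rho_zero, one_mul, inv_one, mul_one]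
    rcases Nat.lt_succ_iff.mp hj2 with hj1
    interval_cases j
    · exact H.hy0
    · exact H.hy1
  · have hc' : nx c (2 * j) < n := (H.htab c hc j hj).1
    have h2 := rho_succ y par plet n H.hpar (nx c (2 * j)) hpos hc'
    rw [hp, hl, letY_even] at h2
    rw [h2, mul_inv_cancel]
    exact S.one_mem
  · have h2 := rho_succ y par plet n H.hpar c hpos hc
    rw [hp, hl, letY_odd] at h2
    have h3 : rho y par plet c * y j * (rho y par plet (nx c (2 * j)))⁻¹ = 1 := by
      rw [h2]
      group
    rw [h3]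
    exact S.one_mem

variable (vt it : ℕ → ℕ) (nvar : ℕ)

/-- the unknowns -/
noncomputable def xv (S : Subgroup Y) (z : Y) (y : ℕ → Y) (nx : ℕ → ℕ → ℕ) (par plet : ℕ → ℕ)
    (it : ℕ → ℕ) (k : ℕ) : ZMod 2 :=
  eps S z y nx par plet (it k / 3) (it k % 3)

/-- hypotheses on the numbering of the unknowns -/
structure VHyp (n : ℕ) (nx : ℕ → ℕ → ℕ) (par plet vt it : ℕ → ℕ) (nvar : ℕ) : Prop where
  hzero : ∀ c < n, ∀ j < 3, vt (3 * c + j) = 0 → ZeroJ nx par plet c j
  hinv : ∀ c < n, ∀ j < 3, vt (3 * c + j) ≠ 0 →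
    vt (3 * c + j) - 1 < nvar ∧ it (vt (3 * c + j) - 1) = 3 * c + j

variable {vt it nvar}

theorem Hyp.eL_eq (H : Hyp S z y n nx par plet) (V : VHyp n nx par plet vt it nvar)
    {c l : ℕ} (hc : c < n) (hl : l < 6) :
    (vt (edgeOf nx c l) = 0 → eL S z y nx par plet c l = 0) ∧
      (∀ k, vt (edgeOf nx c l) = k + 1 →
        k < nvar ∧ eL S z y nx par plet c l = xv S z y nx par plet it k) := by
  have key : ∀ c' < n, ∀ j < 3,
      (vt (3 * c' + j) = 0 → eps S z y nx par plet c' j = 0) ∧
      (∀ k, vt (3 * c' + j) = k + 1 →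
        k < nvar ∧ eps S z y nx par plet c' j = xv S z y nx par plet it k) := by
    intro c' hc' j hj
    refine ⟨fun h0 => H.eps_zero hc' hj (V.hzero c' hc' j hj h0), fun k hk => ?_⟩
    have h1 := V.hinv c' hc' j hj (by omega)
    rw [hk, Nat.add_sub_cancel] at h1
    refine ⟨h1.1, ?_⟩
    unfold xv
    rw [h1.2]
    congr 1 <;> omega
  obtain ⟨j, hj, rfl | rfl⟩ := letter_cases hl
  · have h1 : eL S z y nx par plet c (2 * j) = eps S z y nx par plet c j := by
      unfold eL
      rw [if_pos (by omega)]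
      congr 1
      omega
    have h2 : edgeOf nx c (2 * j) = 3 * c + j := by
      unfold edgeOf
      rw [if_pos (by omega)]
      omega
    rw [h1, h2]
    exact key c hc j hj
  · have hc' : nx c (2 * j + 1) < n := (H.htab c hc j hj).2.1
    have h1 : eL S z y nx par plet c (2 * j + 1)
        = eps S z y nx par plet (nx c (2 * j + 1)) j := by
      unfold eL
      rw [if_neg (by omega)]
      congr 1
      omega
    have h2 : edgeOf nx c (2 * j + 1) = 3 * nx c (2 * j + 1) + j := by
      unfold edgeOf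
      rw [if_neg (by omega)]
      omega
    rw [h1, h2]
    exact key _ hc' j hj

/-- the mask of a path computes the sum of its signs -/
theorem Hyp.dot_wm (H : Hyp S z y n nx par plet) (V : VHyp n nx par plet vt it nvar)
    (w : List ℕ) (hw : ∀ l ∈ w, l < 6) :
    ∀ c, c < n → ∀ m, SE.dot (xv S z y nx par plet it) nvar (wm nx vt w c m)
      = SE.dot (xv S z y nx par plet it) nvar m + sumE S z y nx par plet w c := by
  induction w with
  | nil =>
    intro c _ m
    show SE.dot _ nvar m = SE.dot _ nvar m + 0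
    rw [add_zero]
  | cons l w ih =>
    intro c hc m
    have hl : l < 6 := hw l List.mem_cons_self
    have h1 := H.eL_eq V hc hl
    have hstep : wm nx vt (l :: w) c m = wm nx vt w (nx c l)
        (match vt (edgeOf nx c l) with
          | 0 => m
          | k + 1 => m ^^^ 2 ^ k) := rfl
    rw [hstep, ih (fun l' hl' => hw l' (List.mem_cons_of_mem _ hl')) (nx c l) (H.nx_lt hc hl)]
    show _ = SE.dot _ nvar m + (eL S z y nx par plet c l + sumE S z y nx par plet w (nx c l))
    rw [← add_assoc]
    congr 1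
    rcases Nat.eq_zero_or_pos (vt (edgeOf nx c l)) with h0 | hpos
    · rw [h0, h1.1 h0, add_zero]
    · obtain ⟨k, hk⟩ : ∃ k, vt (edgeOf nx c l) = k + 1 := ⟨vt (edgeOf nx c l) - 1, by omega⟩
      rw [hk]
      obtain ⟨hkn, he⟩ := h1.2 k hk
      show SE.dot _ nvar (m ^^^ 2 ^ k) = _
      rw [SE.dot_xor, SE.dot_two_pow _ hkn, he]

/-- decode a row: flag, bit, mask (the code is
`(((bit * 64 + relator) * 2048) + coset) * 2 + flag`) -/
def rowMask (nx : ℕ → ℕ → ℕ) (vt : ℕ → ℕ) (rels : List (List ℕ)) (code : ℕ) : Bool × ℕ × ℕ :=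
  (code % 2 == 1, code / 262144,
    wm nx vt (rels.getD (code / 4096 % 64) []) (code / 2 % 2048) 0)

/-- the row is a closed path from a coset of the table -/
def rowOK (n : ℕ) (nx : ℕ → ℕ → ℕ) (rels : List (List ℕ)) (code : ℕ) : Bool :=
  decide (code / 2 % 2048 < n) &&
    (endC nx (rels.getD (code / 4096 % 64) []) (code / 2 % 2048) == code / 2 % 2048)

theorem getD_rel {y : ℕ → Y} (rels : List (List ℕ))
    (hrels : ∀ r ∈ rels, (∀ l ∈ r, l < 6) ∧ evY y r = 1) (i : ℕ) :
    (∀ l ∈ rels.getD i [], l < 6) ∧ evY y (rels.getD i []) = 1 := by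
  by_cases h : i < rels.length
  · rw [List.getD_eq_getElem _ _ h]
    exact hrels _ (List.getElem_mem h)
  · rw [List.getD_eq_default _ _ (by omega)]
    exact ⟨fun l hl => absurd hl List.not_mem_nil, evY_nil y⟩

/-- **Main theorem**: if the linear system passes the check, the table is exactly right. -/
theorem Hyp.exact (H : Hyp S z y n nx par plet) (V : VHyp n nx par plet vt it nvar)
    (rels : List (List ℕ)) (hrels : ∀ r ∈ rels, (∀ l ∈ r, l < 6) ∧ evY y r = 1)
    (rows : List ℕ) (hok : rows.all (rowOK n nx rels) = true)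
    (hchk : SE.check nvar (rows.map (rowMask nx vt rels)) = true) :
    ∀ c < n, ∀ j < 3,
      rho y par plet c * y j * (rho y par plet (nx c (2 * j)))⁻¹ ∈ S := by
  have hx : ∀ k < nvar, xv S z y nx par plet it k = 0 := by
    apply SE.elim_sound _ nvar _ _ hchk
    intro r hr
    obtain ⟨code, hcode, rfl⟩ := List.mem_map.mp hr
    have h1 := List.all_eq_true.mp hok code hcode
    unfold rowOK at h1
    rw [Bool.and_eq_true] at h1
    have hc : code / 2 % 2048 < n := of_decide_eq_true h1.1
    have hend := eq_of_beq h1.2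
    obtain ⟨hl, h1r⟩ := getD_rel rels hrels (code / 4096 % 64)
    show SE.dot _ nvar (wm nx vt (rels.getD (code / 4096 % 64) []) (code / 2 % 2048) 0) = 0
    rw [H.dot_wm V _ hl _ hc, SE.dot_zero, zero_add]
    exact H.relator _ hl h1r hc hend
  intro c hc j hj
  have h1 := H.eps_spec hc hj
  have h2 : eps S z y nx par plet c j = 0 := by
    rcases Nat.eq_zero_or_pos (vt (3 * c + j)) with h0 | hpos
    · exact H.eps_zero hc hj (V.hzero c hc j hj h0)
    · have h3 := V.hinv c hc j hj (by omega)
      have h4 := hx _ h3.1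
      unfold xv at h4
      rw [h3.2] at h4
      have e1 : (3 * c + j) / 3 = c := by omega
      have e2 : (3 * c + j) % 3 = j := by omega
      rw [e1, e2] at h4
      exact h4
  rw [h2] at h1
  exact (M_zero_iff S z _).mp h1

/-- the subgroup generated by the `y j` lies in the union of the cosets `S ρ_c` -/
theorem Hyp.closure_subset (H : Hyp S z y n nx par plet)
    (hex : ∀ c < n, ∀ j < 3,
      rho y par plet c * y j * (rho y par plet (nx c (2 * j)))⁻¹ ∈ S)
    {w : Y} (hw : w ∈ Subgroup.closure ({y 0, y 1, y 2} : Set Y)) :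
    ∃ c < n, w * (rho y par plet c)⁻¹ ∈ S := by
  induction hw using Subgroup.closure_induction_right with
  | one =>
    refine ⟨0, H.hn, ?_⟩
    rw [rho_zero, inv_one, mul_one]
    exact S.one_mem
  | mul_right x hx g hg ih =>
    obtain ⟨c, hc, hmem⟩ := ih
    have hgj : ∃ j < 3, g = y j := by
      rcases hg with rfl | rfl | rfl
      · exact ⟨0, by norm_num, rfl⟩
      · exact ⟨1, by norm_num, rfl⟩
      · exact ⟨2, by norm_num, rfl⟩
    obtain ⟨j, hj, rfl⟩ := hgj
    refine ⟨nx c (2 * j), (H.htab c hc j hj).1, ?_⟩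
    have h1 := S.mul_mem hmem (hex c hc j hj)
    have h2 : x * (rho y par plet c)⁻¹ *
        (rho y par plet c * y j * (rho y par plet (nx c (2 * j)))⁻¹)
        = x * y j * (rho y par plet (nx c (2 * j)))⁻¹ := by group
    rw [h2] at h1
    exact h1
  | mul_inv_cancel x hx g hg ih =>
    obtain ⟨c, hc, hmem⟩ := ih
    have hgj : ∃ j < 3, g = y j := by
      rcases hg with rfl | rfl | rfl
      · exact ⟨0, by norm_num, rfl⟩
      · exact ⟨1, by norm_num, rfl⟩
      · exact ⟨2, by norm_num, rfl⟩
    obtain ⟨j, hj, rfl⟩ := hgj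
    have hc' : nx c (2 * j + 1) < n := (H.htab c hc j hj).2.1
    have hback : nx (nx c (2 * j + 1)) (2 * j) = c := (H.htab c hc j hj).2.2.2
    refine ⟨nx c (2 * j + 1), hc', ?_⟩
    have h0 := hex _ hc' j hj
    rw [hback] at h0
    have h1 := S.mul_mem hmem (S.inv_mem h0)
    have h2 : x * (rho y par plet c)⁻¹ *
        (rho y par plet (nx c (2 * j + 1)) * y j * (rho y par plet c)⁻¹)⁻¹
        = x * (y j)⁻¹ * (rho y par plet (nx c (2 * j + 1)))⁻¹ := by group
    rw [h2] at h1
    exact h1

/-- `z` is not in the subgroup generated by the `y j` -/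
theorem Hyp.z_not_mem (H : Hyp S z y n nx par plet)
    (hex : ∀ c < n, ∀ j < 3,
      rho y par plet c * y j * (rho y par plet (nx c (2 * j)))⁻¹ ∈ S)
    (hne : ∀ c, 0 < c → c < n → rho y par plet c * z ∉ S) :
    z ∉ Subgroup.closure ({y 0, y 1, y 2} : Set Y) := by
  intro hz
  obtain ⟨c, hc, hmem⟩ := H.closure_subset hex hz
  rcases Nat.eq_zero_or_pos c with rfl | hpos
  · rw [rho_zero, inv_one, mul_one] at hmem
    exact H.hzS hmem
  · apply hne c hpos hc
    have h1 := S.inv_mem hmem
    have hzi : z⁻¹ = z := inv_eq_of_mul_eq_one_left H.hz2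
    rw [mul_inv_rev, inv_inv, hzi] at h1
    exact h1

end Table

end Cfsg.Agent.Lib.Helper7.CS
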