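import Mathlib
import Cfsg.Prelude.Def_Sporadic_a

/-!
Abstract part of the uniqueness of the binary code of length 24: a doubly even code of
dimension 12 and length 24 without words of weight 4 carries a Steiner system `S(5,8,24)`.
-/

set_option autoImplicit false

namespace Cfsg.Agent.Lib.Helper7.GU

variable {α : Type*} [Fintype α] [DecidableEq α]

/-- Indicator word of a finite set. -/
def ind (x : Finset α) : α → ZMod 2 := fun i => if i ∈ x then 1 else 0

theorem hammingNorm_ind (x : Finset α) : hammingNorm (ind x) = x.card := by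
  unfold hammingNorm
  congr 1
  ext i
  simp [ind]

omit [Fintype α] in
theorem ind_sub (x y : Finset α) : ind x - ind y = ind (symmDiff x y) := by
  funext i
  simp only [Pi.sub_apply, ind, Finset.mem_symmDiff]
  by_cases hx : i ∈ x <;> by_cases hy : i ∈ y <;> simp [hx, hy]

omit [Fintype α] in
theorem card_symmDiff' (x y : Finset α) :
    (symmDiff x y).card + 2 * (x ∩ y).card = x.card + y.card := by
  have h1 := Finset.card_sdiff_add_card_inter x y
  have h2 := Finset.card_sdiff_add_card_inter y x
  have h3 : ((x \ y) ∪ (y \ x)).card = (x \ y).card + (y \ x).card :=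
    Finset.card_union_of_disjoint disjoint_sdiff_sdiff
  rw [Finset.inter_comm y x] at h2
  have h4 : symmDiff x y = (x \ y) ∪ (y \ x) := rfl
  rw [h4]
  omega

variable (C : Submodule (ZMod 2) (α → ZMod 2))

theorem close (h4 : ∀ w ∈ C, 4 ∣ hammingNorm w) (hno4 : ∀ w ∈ C, hammingNorm w ≠ 4)
    {x y : Finset α} (hx : x.card ≤ 4) (hy : y.card ≤ 4)
    (h : ind x - ind y ∈ C) : x = y ∨ (x.card = 4 ∧ y.card = 4 ∧ Disjoint x y) := by
  rw [ind_sub] at h
  have h1 := h4 _ h
  have h2 := hno4 _ h
  rw [hammingNorm_ind] at h1 h2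
  have h3 := card_symmDiff' x y
  by_cases h0 : (symmDiff x y).card = 0
  · left
    rw [Finset.card_eq_zero] at h0
    exact symmDiff_eq_bot.mp h0
  · right
    obtain ⟨m, hm⟩ := h1
    have h5 : (x ∩ y).card = 0 := by omega
    refine ⟨by omega, by omega, ?_⟩
    rw [Finset.disjoint_iff_inter_eq_empty]
    exact Finset.card_eq_zero.mp h5

theorem card_quot (hα : Fintype.card α = 24) (hdim : Module.finrank (ZMod 2) C = 12) :
    Nat.card ((α → ZMod 2) ⧸ C) = 4096 := by
  have h1 := Submodule.card_eq_card_quotient_mul_card C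
  have h2 : Nat.card (α → ZMod 2) = 2 ^ 24 := by
    rw [Nat.card_eq_fintype_card, Fintype.card_fun, ZMod.card, hα]
  have h3 : Nat.card C = 2 ^ 12 := by
    rw [Module.natCard_eq_pow_finrank (K := ZMod 2) (V := C), hdim, Nat.card_eq_fintype_card,
      ZMod.card]
  rw [h2, h3] at h1
  omega

/-- The coset of the indicator word of a set. -/
def qm (x : Finset α) : (α → ZMod 2) ⧸ C := Submodule.Quotient.mk (ind x)

omit [Fintype α] in
theorem qm_eq_iff {x y : Finset α} : qm C x = qm C y ↔ ind x - ind y ∈ C :=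
  Submodule.Quotient.eq C

/-- Every `4`-set lies in a sextet: for every point there is a `4`-set of the same coset
through that point. -/
theorem sextet (hα : Fintype.card α = 24) (hdim : Module.finrank (ZMod 2) C = 12)
    (h4 : ∀ w ∈ C, 4 ∣ hammingNorm w) (hno4 : ∀ w ∈ C, hammingNorm w ≠ 4)
    (x : Finset α) (hx : x.card = 4) (p : α) :
    ∃ y : Finset α, y.card = 4 ∧ p ∈ y ∧ ind x - ind y ∈ C := by
  classical
  letI : Fintype ((α → ZMod 2) ⧸ C) := Fintype.ofFinite _
  let S3 : Finset (Finset α) :=
    (Finset.range 4).biUnion (fun k => Finset.powersetCard k Finset.univ)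
  let P4 : Finset (Finset α) := Finset.powersetCard 4 Finset.univ
  have hS3card : S3.card = 2325 := by
    rw [Finset.card_biUnion]
    · simp only [Finset.card_powersetCard, Finset.card_univ, hα]
      decide
    · intro i _ j _ hij
      exact Finset.pairwise_disjoint_powersetCard _ hij
  have hP4card : P4.card = 10626 := by
    rw [Finset.card_powersetCard, Finset.card_univ, hα]
    decide
  have hS3mem : ∀ y ∈ S3, y.card ≤ 3 := by
    intro y hy
    simp only [S3, Finset.mem_biUnion, Finset.mem_range, Finset.mem_powersetCard] at hy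
    obtain ⟨k, hk, -, hc⟩ := hy
    omega
  have hinj : Set.InjOn (qm C) S3 := by
    intro a ha b hb hab
    have ha3 := hS3mem a ha
    have hb3 := hS3mem b hb
    rcases close C h4 hno4 (by omega) (by omega) ((qm_eq_iff C).mp hab) with h | ⟨h, _, _⟩
    · exact h
    · omega
  have himg : (S3.image (qm C)).card = 2325 := by
    rw [Finset.card_image_of_injOn hinj, hS3card]
  let T : Finset ((α → ZMod 2) ⧸ C) := (S3.image (qm C))ᶜ
  have hT : T.card = 1771 := by
    rw [Finset.card_compl, himg, ← Nat.card_eq_fintype_card, card_quot C hα hdim]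
  have hmaps : ∀ z ∈ P4, qm C z ∈ T := by
    intro z hz
    rw [Finset.mem_compl, Finset.mem_image]
    rintro ⟨y, hy, hyz⟩
    have hz4 : z.card = 4 := (Finset.mem_powersetCard.mp hz).2
    have h3 := hS3mem y hy
    rcases close C h4 hno4 (by omega) (by omega) ((qm_eq_iff C).mp hyz) with h | ⟨h, _, _⟩
    · subst h; omega
    · omega
  have hfib := Finset.card_eq_sum_card_fiberwise (f := qm C) (s := P4) (t := T) hmaps
  have hdisj : ∀ c, ∀ a ∈ P4.filter (fun z => qm C z = c),
      ∀ b ∈ P4.filter (fun z => qm C z = c), a ≠ b → Disjoint (id a) (id b) := by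
    intro c a ha b hb hab
    rw [Finset.mem_filter, Finset.mem_powersetCard] at ha hb
    rcases close C h4 hno4 (by omega) (by omega)
      ((qm_eq_iff C).mp (ha.2.trans hb.2.symm)) with h | ⟨_, _, h⟩
    · exact absurd h hab
    · exact h
  have hunion : ∀ c, ((P4.filter (fun z => qm C z = c)).biUnion id).card
      = 4 * (P4.filter (fun z => qm C z = c)).card := by
    intro c
    rw [Finset.card_biUnion (hdisj c), Finset.sum_const_nat (m := 4), mul_comm]
    intro a ha
    exact (Finset.mem_powersetCard.mp (Finset.mem_filter.mp ha).1).2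
  have hle : ∀ c ∈ T, (P4.filter (fun z => qm C z = c)).card ≤ 6 := by
    intro c _
    have h1 := hunion c
    have h2 : ((P4.filter (fun z => qm C z = c)).biUnion id).card ≤ 24 := by
      rw [← hα]; exact Finset.card_le_univ _
    omega
  have heq : ∀ c ∈ T, (P4.filter (fun z => qm C z = c)).card = 6 := by
    have hsum : ∑ c ∈ T, (P4.filter (fun z => qm C z = c)).card = ∑ c ∈ T, 6 := by
      rw [← hfib, hP4card, Finset.sum_const, hT]
      rfl
    exact (Finset.sum_eq_sum_iff_of_le hle).mp hsum
  have hxP : x ∈ P4 := Finset.mem_powersetCard.mpr ⟨Finset.subset_univ _, hx⟩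
  have h6 := heq (qm C x) (hmaps x hxP)
  have huniv : (P4.filter (fun z => qm C z = qm C x)).biUnion id = Finset.univ := by
    apply Finset.eq_univ_of_card
    rw [hunion, h6, hα]
  have hp : p ∈ (P4.filter (fun z => qm C z = qm C x)).biUnion id := by
    rw [huniv]; exact Finset.mem_univ p
  rw [Finset.mem_biUnion] at hp
  obtain ⟨y, hy, hpy⟩ := hp
  rw [Finset.mem_filter, Finset.mem_powersetCard] at hy
  exact ⟨y, hy.1.2, hpy, (qm_eq_iff C).mp hy.2.symm⟩

/-- The sets of size `8` whose indicator word lies in the code. -/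
def blocks : Set (Finset α) := {b | b.card = 8 ∧ ind b ∈ C}

theorem blocks_unique (h4 : ∀ w ∈ C, 4 ∣ hammingNorm w) (hno4 : ∀ w ∈ C, hammingNorm w ≠ 4)
    {b b' s : Finset α} (hb : b ∈ blocks C) (hb' : b' ∈ blocks C) (hs : s.card = 5)
    (hsb : s ⊆ b) (hsb' : s ⊆ b') : b' = b := by
  have hsum : ind b' - ind b ∈ C := C.sub_mem hb'.2 hb.2
  rw [ind_sub] at hsum
  have h1 := h4 _ hsum
  have h2 := hno4 _ hsum
  rw [hammingNorm_ind] at h1 h2
  have h3 := card_symmDiff' b' b
  have h5 : 5 ≤ (b' ∩ b).card := by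
    rw [← hs]; exact Finset.card_le_card (Finset.subset_inter hsb' hsb)
  have h8 : b.card = 8 := hb.1
  have h8' : b'.card = 8 := hb'.1
  have h0 : (symmDiff b' b).card = 0 := by
    obtain ⟨m, hm⟩ := h1
    omega
  exact symmDiff_eq_bot.mp (Finset.card_eq_zero.mp h0)

theorem steiner (hα : Fintype.card α = 24) (hdim : Module.finrank (ZMod 2) C = 12)
    (h4 : ∀ w ∈ C, 4 ∣ hammingNorm w) (hno4 : ∀ w ∈ C, hammingNorm w ≠ 4) :
    Cfsg.IsSteinerSystem 5 8 (blocks C) := by
  refine ⟨fun b hb => hb.1, ?_⟩
  intro s hs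
  obtain ⟨p, hp⟩ : s.Nonempty := by
    rw [← Finset.card_pos]; omega
  have he4 : (s.erase p).card = 4 := by rw [Finset.card_erase_of_mem hp, hs]
  obtain ⟨y, hy4, hpy, hxy⟩ := sextet C hα hdim h4 hno4 (s.erase p) he4 p
  have hne : s.erase p ≠ y := by
    intro h
    rw [← h] at hpy
    exact Finset.notMem_erase p s hpy
  have hd : Disjoint (s.erase p) y := by
    rcases close C h4 hno4 (by omega) (by omega) hxy with h | ⟨_, _, h⟩
    · exact absurd h hne
    · exact h
  have hbm : s.erase p ∪ y ∈ blocks C := by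
    constructor
    · rw [Finset.card_union_of_disjoint hd, he4, hy4]
    · rw [ind_sub, hd.symmDiff_eq_sup] at hxy
      exact hxy
  have hsub : s ⊆ s.erase p ∪ y := by
    intro a ha
    by_cases hap : a = p
    · subst hap; exact Finset.mem_union_right _ hpy
    · exact Finset.mem_union_left _ (Finset.mem_erase.mpr ⟨hap, ha⟩)
  refine ⟨s.erase p ∪ y, ⟨hbm, hsub⟩, ?_⟩
  rintro b' ⟨hb', hsb'⟩
  exact blocks_unique C h4 hno4 hbm hb' hs hsub hsb'

end Cfsg.Agent.Lib.Helper7.GU
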