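import Mathlib
import Cfsg.Agent.Lib.Helper7.SignElim
import Cfsg.Agent.Lib.Helper7.CosetSign

set_option autoImplicit false
set_option maxRecDepth 100000

/-! # A coset table of a double cover of `M12` over `M11`, with a sign certificate

Data produced by a computer search: the table of the action of three generators on the 24
cosets, a spanning tree, a numbering of the edges outside the tree, a list of relators and a list
of rows (a relator read from a coset) for which the linear system over `ZMod 2` is triangular up
to a few parameters.  Everything here is checked by kernel computation. -/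

namespace Cfsg.Agent.Lib.Helper7.M12C

open Cfsg.Agent.Lib.Helper7

/-- bounded conjunction, by recursion on the bound -/
def allN (n : ℕ) (f : ℕ → Bool) : Bool := Nat.rec true (fun k ih => ih && f k) n

theorem allN_spec (n : ℕ) (f : ℕ → Bool) (h : allN n f = true) : ∀ k < n, f k = true := by
  induction n with
  | zero => exact fun k hk => absurd hk (Nat.not_lt_zero k)
  | succ n ih =>
    have h1 : allN (n + 1) f = (allN n f && f n) := rfl
    rw [h1, Bool.and_eq_true] at h
    intro k hk
    rcases Nat.lt_succ_iff_lt_or_eq.mp hk with h2 | rfl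
    · exact ih h.1 k h2
    · exact h.2

/-- packed table: 11-bit lanes, lane `6 c + l` is the image of coset `c` under letter `l` -/
def NX : ℕ := 0x2e05c0801502204c0b01602204c0801502a0540b80f02c0380a0140280500980b02604c0b00902e0500401001001c0781100c0300481602405c0900801e05c030160140140a8100140480700e01c0380a80500801c0680d01a0340880600a0180280401200c038080280200280f00600c0380f00602c09811006018080120160480580201a0100900b004028060110180040481001e0280080c01c0300380d004008060010160240500a00202400800008010040070000080300500800c0100100000000000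

/-- packed parents (11-bit lanes) -/
def PR : ℕ := 0x200400700b01201c0300600a0140200400600c018020040040080100200000000

/-- packed parent letters (3-bit lanes) -/
def PL : ℕ := 0x4096e0a61a810d1160

/-- packed codes of the edges (12-bit lanes): `0` for an edge without unknown, `k + 1` for unknown `k` -/
def VT : ℕ := 0x702802f00602301600502500000402700000300002602000001e01c02202402100000000002902c00202e00001300d00901b00b00000001400f01901a02d02a01d00801f01500001200e01700000000001800c01000001100002b00000000000a000001000000000000000

/-- packed edges of the unknowns (12-bit lanes) -/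
def IT : ℕ := 0x4502b01e02d00b01d02e04603d03904003304303403203801a03601c03502601f02001101504201902202901700d00f02101602801002500702701b04704404103e03b02c005

/-- packed points (24-bit lanes) attached to the cosets -/
def DT : ℕ := 0xd00000c00000600000500000700000900001100001000001300000400000100001600000f00000b00001200001700000300000800000e00001400000a000015000002000000

/-- the table -/
def nx (c l : ℕ) : ℕ := (NX >>> (11 * (6 * c + l))) % 2048
/-- parent of a coset in the tree -/
def par (c : ℕ) : ℕ := (PR >>> (11 * c)) % 2048
/-- letter from the parent -/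
def plet (c : ℕ) : ℕ := (PL >>> (3 * c)) % 8
/-- code of an edge -/
def vt (e : ℕ) : ℕ := (VT >>> (12 * e)) % 4096
/-- edge of an unknown -/
def it (k : ℕ) : ℕ := (IT >>> (12 * k)) % 4096
/-- point of a coset -/
def dm (c : ℕ) : ℕ := (DT >>> (24 * c)) % 16777216

/-- the relators -/
def rels : List (List ℕ) :=
  [[0, 0, 0, 0, 0, 0, 0, 0, 0, 0, 0],
   [2, 2, 2, 2],
   [0, 2, 2, 2, 0, 3, 0, 3, 0, 3],
   [0, 0, 0, 3, 1, 2, 0, 0, 2, 0, 3, 3],
   [4, 4, 4],
   [5, 0, 2, 0, 0, 4, 3, 1, 1, 1],
   [4, 1, 4, 0, 5, 3, 4, 2]]

/-- the rows: `(((bit * 64 + relator) * 2048) + coset) * 2 + flag` -/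
def rows : List ℕ :=
  [16384, 278556, 540710, 802856, 1065002, 1327148, 1589294, 1855490, 2097178, 2383872, 2633730, 2887682,
   3158042, 3432470, 3690496, 3952666, 4214812, 4481028, 4734984, 5001256, 5246990, 5505026, 5779472, 6053896,
   6307850, 6565912, 6840326, 7094284, 7360520, 7610372, 7888898, 8151054, 8405008, 8675340, 8917010, 9199652,
   9457676, 9719824, 9969670, 10244120, 10489886, 10772504, 11026438, 11296784, 11558932, 11804674, 12079122]

theorem tab_ok : allN 24 (fun c => allN 3 (fun j => decide (nx c (2 * j) < 24 ∧ nx c (2 * j + 1) < 24 ∧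
    nx (nx c (2 * j)) (2 * j + 1) = c ∧ nx (nx c (2 * j + 1)) (2 * j) = c))) = true := by
  decide +kernel

theorem htab : ∀ c < 24, ∀ j < 3, nx c (2 * j) < 24 ∧ nx c (2 * j + 1) < 24 ∧
    nx (nx c (2 * j)) (2 * j + 1) = c ∧ nx (nx c (2 * j + 1)) (2 * j) = c :=
  fun c hc j hj => of_decide_eq_true (allN_spec _ _ (allN_spec _ _ tab_ok c hc) j hj)

theorem tree_ok : allN 24 (fun c => decide (c = 0 ∨ (par c < c ∧ plet c < 6 ∧ nx (par c) (plet c) = c)))
    = true := by
  decide +kernel

theorem htree : ∀ c, 0 < c → c < 24 → par c < c ∧ plet c < 6 ∧ nx (par c) (plet c) = c := by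
  intro c h0 hc
  rcases of_decide_eq_true (allN_spec _ _ tree_ok c hc) with h | h
  · omega
  · exact h

instance (c j : ℕ) : Decidable (CS.ZeroJ nx par plet c j) := by
  unfold CS.ZeroJ
  infer_instance

theorem zero_ok : allN 24 (fun c => allN 3 (fun j =>
    decide (vt (3 * c + j) = 0 → CS.ZeroJ nx par plet c j))) = true := by
  decide +kernel

theorem inv_ok : allN 24 (fun c => allN 3 (fun j =>
    decide (vt (3 * c + j) ≠ 0 → vt (3 * c + j) - 1 < 47 ∧ it (vt (3 * c + j) - 1) = 3 * c + j)))
    = true := by
  decide +kernel

theorem vhyp : CS.VHyp 24 nx par plet vt it 47 where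
  hzero := fun c hc j hj => of_decide_eq_true (allN_spec _ _ (allN_spec _ _ zero_ok c hc) j hj)
  hinv := fun c hc j hj => of_decide_eq_true (allN_spec _ _ (allN_spec _ _ inv_ok c hc) j hj)

theorem rels_lt : ∀ r ∈ rels, ∀ l ∈ r, l < 6 := by
  decide +kernel

theorem rows_ok : rows.all (CS.rowOK 24 nx rels) = true := by
  decide +kernel

theorem chk_ok : SE.check 47 (rows.map (CS.rowMask nx vt rels)) = true := by
  decide +kernel

end Cfsg.Agent.Lib.Helper7.M12C
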