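import Mathlib
import Cfsg.Agent.Lib.Helper7.M12Cert
import Cfsg.Agent.Lib.Helper7.M23Perm
import Cfsg.Agent.Lib.Helper27.OutM12
import Cfsg.Agent.Lib.Helper86.MathieuOrders

set_option autoImplicit false
set_option maxRecDepth 100000

/-! # A double cover of `M12`

Pairs `(ρ, π)`: `π` lies in `M12`, and `ρ` is a permutation of 24 signed points (the point
`2 i + b` is the `i`-th point of the dodecad of squares with the sign `b`) lying over the action of
`π` on the dodecad and compatible with a pairing of Hadamard type between the dodecad and its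
complement.  The projection to `π` is onto `M12` with a kernel of order two. -/

namespace Cfsg.Agent.Lib.Helper7.M12V

open Cfsg Cfsg.Agent.Lib.Helper7
open Cfsg.Agent.Lib.Helper6.M12 (tabPermD tabPermD_eq)
open Cfsg.Agent.Lib.Helper6.M24 (tabValid tabPerm tabPerm_apply getD_lt)
open Cfsg.Agent.Lib.Helper86 (m12Tab tabPermD_mem_M12 word_eq prodValid tabProd)
open Cfsg.Agent.Lib.Helper7.M23P (perm_apply_inv perm_inv_apply h6_idx h6_pt repT_tab tabEq)
open scoped commutatorElement

/-- the ambient group -/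
abbrev PP : Type := Equiv.Perm GolayPt × Equiv.Perm GolayPt

/-- the points of the dodecad of squares -/
def DL : List ℕ := [0, 1, 2, 3, 4, 6, 8, 9, 12, 13, 16, 18]

/-- the point of the dodecad under a signed point -/
def blk (j : ℕ) : ℕ := DL.getD (j / 2) 0

/-- the pairing, as a mask: bit `24 j + q` for the signed point `j` and the point `q` -/
def HM : ℕ := 0x8848a0728400224c20d88080c0c4203a0880928820684480580c20a2c0805240a0a88c006088a09a4400ea002010cc80b004a04ac8000a84a0f0480038c020c20c80facca0000000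

/-- the pairing on indices -/
def hbit (j q : ℕ) : Bool := HM.testBit (24 * j + q)

/-- the point of the dodecad under a signed point -/
def bl (x : GolayPt) : GolayPt := pt (blk (idx x))

/-- the pairing -/
def hh (x q : GolayPt) : Bool := hbit (idx x) (idx q)

theorem blk_lt (j : ℕ) : blk j < 24 := by
  unfold blk
  by_cases h : j / 2 < 12
  · generalize j / 2 = i at h
    interval_cases i <;> decide
  · rw [List.getD_eq_default _ _ (by simp only [DL, List.length_cons, List.length_nil]; omega)]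
    norm_num

/-- the double cover -/
def Gam : Subgroup PP where
  carrier := {g | g.2 ∈ Spor.M12 ∧ (∀ x, bl (g.1 x) = g.2 (bl x)) ∧
    ∀ x x' q, (hh (g.1 x) (g.2 q) ^^ hh (g.1 x') (g.2 q)) = (hh x q ^^ hh x' q)}
  mul_mem' := by
    rintro a b ⟨ha1, ha2, ha3⟩ ⟨hb1, hb2, hb3⟩
    refine ⟨Spor.M12.mul_mem ha1 hb1, fun x => ?_, fun x x' q => ?_⟩
    · show bl (a.1 (b.1 x)) = a.2 (b.2 (bl x))
      rw [ha2, hb2]
    · show (hh (a.1 (b.1 x)) (a.2 (b.2 q)) ^^ hh (a.1 (b.1 x')) (a.2 (b.2 q))) = _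
      rw [ha3, hb3]
  one_mem' := ⟨Spor.M12.one_mem, fun _ => rfl, fun _ _ _ => rfl⟩
  inv_mem' := by
    rintro a ⟨ha1, ha2, ha3⟩
    refine ⟨Spor.M12.inv_mem ha1, fun x => ?_, fun x x' q => ?_⟩
    · show bl (a.1⁻¹ x) = a.2⁻¹ (bl x)
      have h := ha2 (a.1⁻¹ x)
      rw [perm_apply_inv] at h
      rw [h, perm_inv_apply]
    · show (hh (a.1⁻¹ x) (a.2⁻¹ q) ^^ hh (a.1⁻¹ x') (a.2⁻¹ q)) = _
      have h := ha3 (a.1⁻¹ x) (a.1⁻¹ x') (a.2⁻¹ q)
      rw [perm_apply_inv, perm_apply_inv, perm_apply_inv] at h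
      exact h.symm

theorem mem_Gam {g : PP} : g ∈ Gam ↔ g.2 ∈ Spor.M12 ∧ (∀ x, bl (g.1 x) = g.2 (bl x)) ∧
    ∀ x x' q, (hh (g.1 x) (g.2 q) ^^ hh (g.1 x') (g.2 q)) = (hh x q ^^ hh x' q) := Iff.rfl

/-- the projection onto `M12` -/
def sig : ↥Gam →* ↥Spor.M12 where
  toFun g := ⟨g.1.2, g.2.1⟩
  map_one' := rfl
  map_mul' _ _ := rfl

theorem sig_val (g : ↥Gam) : (sig g : Equiv.Perm GolayPt) = g.1.2 := rfl

/-! ### tables -/

theorem tabD_apply {t : List ℕ} (h : tabValid t = true) (p : GolayPt) :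
    tabPermD t p = pt (t.getD (idx p) 0) := by
  rw [tabPermD_eq h, tabPerm_apply, h6_idx, h6_pt]

theorem idx_tabD {t : List ℕ} (h : tabValid t = true) (p : GolayPt) :
    idx (tabPermD t p) = t.getD (idx p) 0 := by
  rw [tabD_apply h, idx_pt (getD_lt h (idx_lt p))]

/-- the change of all signs -/
def tzeta : List ℕ := [1, 0, 3, 2, 5, 4, 7, 6, 9, 8, 11, 10, 13, 12, 15, 14, 17, 16, 19, 18, 21, 20, 23, 22]

/-- the identity -/
def tid : List ℕ := [0, 1, 2, 3, 4, 5, 6, 7, 8, 9, 10, 11, 12, 13, 14, 15, 16, 17, 18, 19, 20, 21, 22, 23]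

theorem tzeta_valid : tabValid tzeta = true := by decide +kernel

theorem tid_valid : tabValid tid = true := by decide +kernel

/-- the change of all signs -/
noncomputable def zeta : Equiv.Perm GolayPt := tabPermD tzeta

theorem idx_zeta (x : GolayPt) : idx (zeta x) = tzeta.getD (idx x) 0 := idx_tabD tzeta_valid x

theorem tabD_tid : tabPermD tid = 1 := by
  apply Equiv.ext
  intro p
  rw [tabD_apply tid_valid, Equiv.Perm.one_apply]
  have h : ∀ i < 24, tid.getD i 0 = i := by decide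
  rw [h _ (idx_lt p), pt_idx]

theorem blk_chk : (List.range 24).all (fun i => (List.range 24).all (fun j =>
    !(blk i == blk j) || (i == j) || (i == tzeta.getD j 0))) = true := by decide +kernel

theorem bl_eq {x y : GolayPt} (h : bl y = bl x) : y = x ∨ y = zeta x := by
  unfold bl at h
  have h1 : blk (idx y) = blk (idx x) := by
    have h0 := congrArg idx h
    rwa [idx_pt (blk_lt _), idx_pt (blk_lt _)] at h0
  have h2 := List.all_eq_true.mp (List.all_eq_true.mp blk_chk (idx y)
    (List.mem_range.mpr (idx_lt y))) (idx x) (List.mem_range.mpr (idx_lt x))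
  rw [Bool.or_eq_true, Bool.or_eq_true] at h2
  rcases h2 with (h2 | h2) | h2
  · rw [h1] at h2
    simp at h2
  · left
    rw [← pt_idx y, eq_of_beq h2, pt_idx]
  · right
    rw [← pt_idx y, eq_of_beq h2, ← idx_zeta, pt_idx]

theorem zeta_chk : (List.range 24).all (fun i => (hbit (tzeta.getD i 0) 5 == !hbit i 5) &&
    (blk (tzeta.getD i 0) == blk i) && (tzeta.getD i 0 != i)) = true := by decide +kernel

theorem idx_pt5 : idx (pt 5) = 5 := idx_pt (by norm_num)

theorem hh_zeta (x : GolayPt) : hh (zeta x) (pt 5) = !hh x (pt 5) := by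
  unfold hh
  rw [idx_zeta, idx_pt5]
  have h := List.all_eq_true.mp zeta_chk (idx x) (List.mem_range.mpr (idx_lt x))
  rw [Bool.and_eq_true, Bool.and_eq_true] at h
  exact eq_of_beq h.1.1

theorem bl_zeta (x : GolayPt) : bl (zeta x) = bl x := by
  unfold bl
  rw [idx_zeta]
  have h := List.all_eq_true.mp zeta_chk (idx x) (List.mem_range.mpr (idx_lt x))
  rw [Bool.and_eq_true, Bool.and_eq_true] at h
  rw [eq_of_beq h.1.2]

theorem zeta_ne (x : GolayPt) : zeta x ≠ x := by
  intro h0
  have h := List.all_eq_true.mp zeta_chk (idx x) (List.mem_range.mpr (idx_lt x))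
  rw [Bool.and_eq_true, Bool.and_eq_true] at h
  have h1 := congrArg idx h0
  rw [idx_zeta] at h1
  rw [h1] at h
  simp at h

/-- an element of the kernel of the projection is trivial or the change of all signs -/
theorem ker_cases {g : PP} (hg : g ∈ Gam) (h2 : g.2 = 1) : g.1 = 1 ∨ g.1 = zeta := by
  obtain ⟨-, hb, hH⟩ := hg
  rw [h2] at hb hH
  have hcase : ∀ x, g.1 x = x ∨ g.1 x = zeta x := fun x => bl_eq (hb x)
  rcases hcase (pt 0) with h0 | h0
  · left
    apply Equiv.ext
    intro x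
    rcases hcase x with hx | hx
    · exact hx
    · exfalso
      have h := hH x (pt 0) (pt 5)
      rw [hx, h0, Equiv.Perm.one_apply, hh_zeta] at h
      revert h
      cases hh x (pt 5) <;> cases hh (pt 0) (pt 5) <;> decide
  · right
    apply Equiv.ext
    intro x
    rcases hcase x with hx | hx
    · exfalso
      have h := hH x (pt 0) (pt 5)
      rw [hx, h0, Equiv.Perm.one_apply, hh_zeta] at h
      revert h
      cases hh x (pt 5) <;> cases hh (pt 0) (pt 5) <;> decide
    · exact hx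

/-- elements of the cover commute with the change of all signs -/
theorem comm_zeta {g : PP} (hg : g ∈ Gam) (x : GolayPt) : g.1 (zeta x) = zeta (g.1 x) := by
  obtain ⟨-, hb, -⟩ := hg
  have h : bl (g.1 (zeta x)) = bl (g.1 x) := by rw [hb, hb, bl_zeta]
  rcases bl_eq h with h1 | h1
  · exact absurd (g.1.injective h1) (zeta_ne x)
  · exact h1

/-- check that a pair of tables gives an element of the cover -/
def gamL (t1 t2 : List ℕ) : Bool :=
  tabValid t1 && m12Tab t2 &&
  (List.range 24).all (fun i => blk (t1.getD i 0) == t2.getD (blk i) 0) &&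
  (List.range 24).all (fun k => (List.range 24).all (fun i =>
    (hbit (t1.getD i 0) (t2.getD k 0) ^^ hbit i k)
      == (hbit (t1.getD 0 0) (t2.getD k 0) ^^ hbit 0 k)))

/-- the pair of permutations of a pair of tables -/
noncomputable def mkP (t1 t2 : List ℕ) : PP := (tabPermD t1, tabPermD t2)

theorem xor_lem : ∀ a b a' b' e : Bool, (a ^^ b) = e → (a' ^^ b') = e → (a ^^ a') = (b ^^ b') := by
  decide

theorem mkP_mem {t1 t2 : List ℕ} (h : gamL t1 t2 = true) : mkP t1 t2 ∈ Gam := by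
  unfold gamL at h
  simp only [Bool.and_eq_true] at h
  obtain ⟨⟨⟨hv1, hm2⟩, hb⟩, hH⟩ := h
  have hv2 : tabValid t2 = true := by
    unfold m12Tab at hm2
    simp only [Bool.and_eq_true] at hm2
    exact hm2.1
  refine ⟨tabPermD_mem_M12 hm2, fun x => ?_, fun x x' q => ?_⟩
  · show bl (tabPermD t1 x) = tabPermD t2 (bl x)
    unfold bl
    rw [idx_tabD hv1, tabD_apply hv2, idx_pt (blk_lt _)]
    have h1 := List.all_eq_true.mp hb (idx x) (List.mem_range.mpr (idx_lt x))
    rw [eq_of_beq h1]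
  · show (hh (tabPermD t1 x) (tabPermD t2 q) ^^ hh (tabPermD t1 x') (tabPermD t2 q))
      = (hh x q ^^ hh x' q)
    unfold hh
    rw [idx_tabD hv1, idx_tabD hv1, idx_tabD hv2]
    have key : ∀ y : GolayPt, (hbit (t1.getD (idx y) 0) (t2.getD (idx q) 0) ^^ hbit (idx y) (idx q))
        = (hbit (t1.getD 0 0) (t2.getD (idx q) 0) ^^ hbit 0 (idx q)) := fun y =>
      eq_of_beq (List.all_eq_true.mp (List.all_eq_true.mp hH (idx q)
        (List.mem_range.mpr (idx_lt q))) (idx y) (List.mem_range.mpr (idx_lt y)))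
    exact xor_lem _ _ _ _ _ (key x) (key x')

/-- check of an identity between two products of pairs of tables -/
def wordOK (L L' : List (List ℕ × List ℕ)) : Bool :=
  prodValid (L.map Prod.fst) && prodValid (L'.map Prod.fst) &&
  (tabProd (L.map Prod.fst) == tabProd (L'.map Prod.fst)) &&
  prodValid (L.map Prod.snd) && prodValid (L'.map Prod.snd) &&
  (tabProd (L.map Prod.snd) == tabProd (L'.map Prod.snd))

theorem mkP_word {L L' : List (List ℕ × List ℕ)} (h : wordOK L L' = true) :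
    (L.map fun p => mkP p.1 p.2).prod = (L'.map fun p => mkP p.1 p.2).prod := by
  unfold wordOK at h
  simp only [Bool.and_eq_true] at h
  obtain ⟨⟨⟨⟨⟨h1, h1'⟩, e1⟩, h2⟩, h2'⟩, e2⟩ := h
  have k1 := word_eq h1 h1' (eq_of_beq e1)
  have k2 := word_eq h2 h2' (eq_of_beq e2)
  rw [List.map_map, List.map_map] at k1 k2
  apply Prod.ext
  · have a1 := map_list_prod (MonoidHom.fst (Equiv.Perm GolayPt) (Equiv.Perm GolayPt))
      (L.map fun p => mkP p.1 p.2)
    have a2 := map_list_prod (MonoidHom.fst (Equiv.Perm GolayPt) (Equiv.Perm GolayPt))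
      (L'.map fun p => mkP p.1 p.2)
    rw [List.map_map] at a1 a2
    exact a1.trans (k1.trans a2.symm)
  · have a1 := map_list_prod (MonoidHom.snd (Equiv.Perm GolayPt) (Equiv.Perm GolayPt))
      (L.map fun p => mkP p.1 p.2)
    have a2 := map_list_prod (MonoidHom.snd (Equiv.Perm GolayPt) (Equiv.Perm GolayPt))
      (L'.map fun p => mkP p.1 p.2)
    rw [List.map_map] at a1 a2
    exact a1.trans (k2.trans a2.symm)

theorem mkP_ne_one {t1 t2 : List ℕ} (hv : tabValid t1 = true) (j : ℕ) (hj : j < 24)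
    (h : t1.getD j 0 ≠ j) : mkP t1 t2 ≠ 1 := by
  intro h1
  have h2 : tabPermD t1 (pt j) = pt j := by
    have h3 : (mkP t1 t2).1 = 1 := by rw [h1]; rfl
    have h4 : tabPermD t1 = 1 := h3
    rw [h4, Equiv.Perm.one_apply]
  have h5 := congrArg idx h2
  rw [idx_tabD hv, idx_pt hj] at h5
  exact h h5

/-! ### sequences of three permutations -/

section Trip

variable (a b c : Equiv.Perm GolayPt)

/-- three permutations as a sequence -/
noncomputable def g3 (j : ℕ) : Equiv.Perm GolayPt :=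
  if j = 0 then a else if j = 1 then b else if j = 2 then c else 1

/-- the six letters -/
noncomputable def lets3 : List (Equiv.Perm GolayPt) := [a, a⁻¹, b, b⁻¹, c, c⁻¹]

theorem g3_ge (j : ℕ) (hj : 3 ≤ j) : g3 a b c j = 1 := by
  unfold g3
  rw [if_neg (by omega), if_neg (by omega), if_neg (by omega)]

theorem letY3 (l : ℕ) : CS.letY (g3 a b c) l = (lets3 a b c).getD l 1 := by
  by_cases hl : l < 6
  · interval_cases l <;> simp [CS.letY, g3, lets3]
  · have h1 : (lets3 a b c).getD l 1 = 1 := List.getD_eq_default _ _ (by simp [lets3]; omega)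
    rw [h1]
    unfold CS.letY
    rw [g3_ge _ _ _ _ (by omega)]
    split_ifs <;> simp

theorem evY3 (w : List ℕ) : CS.evY (g3 a b c) w = evalW (lets3 a b c) w := by
  unfold CS.evY evalW
  congr 1
  exact List.map_congr_left fun l _ => letY3 a b c l

variable {a b c} {T6 : List ℕ}

theorem rep3 {TA TB TC : ℕ} (ha : RepT a TA) (hb : RepT b TB) (hc : RepT c TC)
    (h6 : [TA, invT TA, TB, invT TB, TC, invT TC] = T6) :
    List.Forall₂ RepT (lets3 a b c) T6 := by
  rw [← h6]
  exact .cons ha (.cons ha.inv (.cons hb (.cons hb.inv (.cons hc (.cons hc.inv .nil)))))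

theorem repT_evY3 (h : List.Forall₂ RepT (lets3 a b c) T6) (w : List ℕ) :
    RepT (CS.evY (g3 a b c) w) (evalT T6 w) := by
  rw [evY3]
  exact repT_evalW h w

theorem repT_letY3 (h : List.Forall₂ RepT (lets3 a b c) T6) (l : ℕ) :
    RepT (CS.letY (g3 a b c) l) (T6.getD l idT) := by
  rw [letY3]
  exact repT_getD h l

end Trip

/-! ### explicit elements -/

open Cfsg.Agent.Lib.Helper27.OutM11 (tx tv)
open Cfsg.Agent.Lib.Helper27.OutM12 (tz)

/-- signed part of the lift of the first generator of `M11` -/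
def rX : List ℕ := [0, 1, 20, 21, 6, 7, 12, 13, 18, 19, 2, 3, 16, 17, 4, 5, 8, 9, 10, 11, 22, 23, 14, 15]
/-- signed part of the lift of the second generator of `M11` -/
def rV : List ℕ := [0, 1, 8, 9, 4, 5, 13, 12, 22, 23, 11, 10, 17, 16, 2, 3, 19, 18, 7, 6, 21, 20, 14, 15]
/-- signed part of an element of order three -/
def rG : List ℕ := [21, 20, 0, 1, 4, 5, 6, 7, 22, 23, 15, 14, 12, 13, 19, 18, 9, 8, 10, 11, 3, 2, 17, 16]
/-- the image in `M12` of that element -/
def tG : List ℕ := [16, 0, 2, 3, 18, 7, 9, 11, 8, 13, 14, 5, 4, 6, 22, 15, 1, 21, 12, 19, 20, 23, 10, 17]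
/-- signed part of a lift of an involution of `M12` -/
def rZ : List ℕ := [10, 11, 12, 13, 20, 21, 15, 14, 16, 17, 1, 0, 3, 2, 6, 7, 9, 8, 23, 22, 5, 4, 18, 19]
/-- signed part of an element inverting that lift -/
def rB : List ℕ := [0, 1, 8, 9, 4, 5, 13, 12, 22, 23, 11, 10, 17, 16, 2, 3, 19, 18, 7, 6, 21, 20, 14, 15]
/-- the image in `M12` of that element -/
def tB : List ℕ := [0, 4, 2, 8, 18, 19, 6, 10, 12, 1, 15, 20, 13, 3, 22, 17, 16, 7, 9, 5, 21, 23, 14, 11]

theorem gX_ok : gamL rX tx = true := by decide +kernel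
theorem gV_ok : gamL rV tv = true := by decide +kernel
theorem gG_ok : gamL rG tG = true := by decide +kernel
theorem gZ_ok : gamL rZ tz = true := by decide +kernel
theorem gB_ok : gamL rB tB = true := by decide +kernel
theorem zeta_ok : gamL tzeta tid = true := by decide +kernel

/-- first components of the generators -/
noncomputable abbrev γ1 : ℕ → Equiv.Perm GolayPt := g3 (tabPermD rX) (tabPermD rV) (tabPermD rG)
/-- second components of the generators -/
noncomputable abbrev γ2 : ℕ → Equiv.Perm GolayPt := g3 (tabPermD tx) (tabPermD tv) (tabPermD tG)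

/-- the three generators -/
noncomputable def γ (j : ℕ) : PP := (γ1 j, γ2 j)

theorem γ_zero : γ 0 = mkP rX tx := rfl
theorem γ_one : γ 1 = mkP rV tv := rfl
theorem γ_two : γ 2 = mkP rG tG := rfl

theorem γ_ge (j : ℕ) (hj : 3 ≤ j) : γ j = 1 :=
  Prod.ext (g3_ge _ _ _ _ hj) (g3_ge _ _ _ _ hj)

theorem γ_mem (j : ℕ) : γ j ∈ Gam := by
  by_cases h0 : j = 0
  · rw [h0, γ_zero]
    exact mkP_mem gX_ok
  by_cases h1 : j = 1
  · rw [h1, γ_one]
    exact mkP_mem gV_ok
  by_cases h2 : j = 2
  · rw [h2, γ_two]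
    exact mkP_mem gG_ok
  · rw [γ_ge j (by omega)]
    exact Gam.one_mem

theorem letY_mem (l : ℕ) : CS.letY γ l ∈ Gam := by
  unfold CS.letY
  split_ifs
  · exact γ_mem _
  · exact Gam.inv_mem (γ_mem _)

theorem fst_evY (w : List ℕ) : (CS.evY γ w).1 = CS.evY γ1 w :=
  CS.map_evY (MonoidHom.fst (Equiv.Perm GolayPt) (Equiv.Perm GolayPt)) γ w

theorem snd_evY (w : List ℕ) : (CS.evY γ w).2 = CS.evY γ2 w :=
  CS.map_evY (MonoidHom.snd (Equiv.Perm GolayPt) (Equiv.Perm GolayPt)) γ w

theorem fst_letY (l : ℕ) : (CS.letY γ l).1 = CS.letY γ1 l :=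
  CS.map_letY (MonoidHom.fst (Equiv.Perm GolayPt) (Equiv.Perm GolayPt)) γ l

/-- packed tables of the first components of the generators -/
def TXr : ℕ := 642209989676354736696307727125368864
def TVr : ℕ := 642086826145297060467097650109653024
def TGr : ℕ := 686766640586808754735450828704875157
/-- packed tables of the second components of the generators -/
def TXp : ℕ := 933905226045350956521671110612487680
def TVp : ℕ := 476054983562986674867534103465691264
def TGp : ℕ := 720092227097870484678009329266296848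
/-- packed tables of the first components of the six letters -/
def tabs6r : List ℕ := [642209989676354736696307727125368864, 898391953233914579810624300934080544, 642086826145297060467097650109653024, 385068539929447554751483728059938848, 686766640586808754735450828704875157, 384231809227696002713817578711176290]
/-- packed tables of the second components of the six letters -/
def tabs6p : List ℕ := [933905226045350956521671110612487680, 736625881877334957704422194182956224, 476054983562986674867534103465691264, 891304355401669380081271628121934112, 720092227097870484678009329266296848, 891194624686903948529842978698660353]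

theorem tabs6r_eq : [TXr, invT TXr, TVr, invT TVr, TGr, invT TGr] = tabs6r := by decide +kernel
theorem tabs6p_eq : [TXp, invT TXp, TVp, invT TVp, TGp, invT TGp] = tabs6p := by decide +kernel

theorem rep_r : List.Forall₂ RepT (lets3 (tabPermD rX) (tabPermD rV) (tabPermD rG)) tabs6r :=
  rep3 (repT_tab (by decide +kernel)) (repT_tab (by decide +kernel))
    (repT_tab (by decide +kernel)) tabs6r_eq

theorem rep_p : List.Forall₂ RepT (lets3 (tabPermD tx) (tabPermD tv) (tabPermD tG)) tabs6p :=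
  rep3 (repT_tab (by decide +kernel)) (repT_tab (by decide +kernel))
    (repT_tab (by decide +kernel)) tabs6p_eq

theorem evY_eq_of {w w' : List ℕ} (h1 : evalT tabs6r w = evalT tabs6r w')
    (h2 : evalT tabs6p w = evalT tabs6p w') : CS.evY γ w = CS.evY γ w' := by
  apply Prod.ext
  · rw [fst_evY, fst_evY]
    have a := repT_evY3 rep_r w
    rw [h1] at a
    exact a.ext (repT_evY3 rep_r w')
  · rw [snd_evY, snd_evY]
    have a := repT_evY3 rep_p w
    rw [h2] at a
    exact a.ext (repT_evY3 rep_p w')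

theorem evY_eq_one_of {w : List ℕ} (h1 : evalT tabs6r w = idT) (h2 : evalT tabs6p w = idT) :
    CS.evY γ w = 1 := by
  apply Prod.ext
  · rw [fst_evY]
    have a := repT_evY3 rep_r w
    rw [h1] at a
    exact a.ext repT_one
  · rw [snd_evY]
    have a := repT_evY3 rep_p w
    rw [h2] at a
    exact a.ext repT_one

theorem evY_cube_of {w : List ℕ} (h1 : powT (evalT tabs6r w) 3 = idT)
    (h2 : powT (evalT tabs6p w) 3 = idT) : CS.evY γ w ^ 3 = 1 := by
  apply Prod.ext
  · rw [Prod.pow_fst, fst_evY]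
    have a := repT_pow (repT_evY3 rep_r w) 3
    rw [h1] at a
    exact a.ext repT_one
  · rw [Prod.pow_snd, snd_evY]
    have a := repT_pow (repT_evY3 rep_p w) 3
    rw [h2] at a
    exact a.ext repT_one

theorem γ2_cube : γ 2 ^ 3 = 1 := by
  have h := evY_cube_of (w := [4]) (by decide +kernel) (by decide +kernel)
  rw [CS.evY_cons, CS.evY_nil, mul_one] at h
  exact h

/-! ### the stabiliser of a signed point -/

/-- the stabiliser of the signed point `0`: a copy of `M11` -/
def Hh : Subgroup PP where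
  carrier := {g | g ∈ Gam ∧ g.1 (pt 0) = pt 0}
  mul_mem' := by
    rintro a b ⟨ha, ha0⟩ ⟨hb, hb0⟩
    refine ⟨Gam.mul_mem ha hb, ?_⟩
    show a.1 (b.1 (pt 0)) = pt 0
    rw [hb0, ha0]
  one_mem' := ⟨Gam.one_mem, rfl⟩
  inv_mem' := by
    rintro a ⟨ha, ha0⟩
    refine ⟨Gam.inv_mem ha, ?_⟩
    show a.1⁻¹ (pt 0) = pt 0
    conv_lhs => rw [← ha0]
    exact perm_inv_apply _ _

theorem Hh_le : Hh ≤ Gam := fun _ h => h.1

theorem mkP_fix {t1 t2 : List ℕ} (hv : tabValid t1 = true) (h0 : t1.getD 0 0 = 0) :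
    (mkP t1 t2).1 (pt 0) = pt 0 := by
  show tabPermD t1 (pt 0) = pt 0
  rw [tabD_apply hv, idx_pt (by norm_num), h0]

theorem γ0_mem : γ 0 ∈ Hh :=
  ⟨γ_mem 0, mkP_fix (t1 := rX) (t2 := tx) (by decide +kernel) (by decide +kernel)⟩

theorem γ1_mem : γ 1 ∈ Hh :=
  ⟨γ_mem 1, mkP_fix (t1 := rV) (t2 := tv) (by decide +kernel) (by decide +kernel)⟩

/-! ### cosets and signed points -/

theorem dm_ok : M12C.allN 24 (fun c => M12C.allN 6 (fun l =>
    nlane (tabs6r.getD l idT) (M12C.dm (M12C.nx c l)) == M12C.dm c)) = true := by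
  decide +kernel

theorem dm_zero : M12C.dm 0 = 0 := by decide +kernel

theorem dm_ne : M12C.allN 24 (fun c => c == 0 || M12C.dm c != 0) = true := by
  decide +kernel

theorem dm_lt_ok : M12C.allN 24 (fun c => decide (M12C.dm c < 24)) = true := by
  decide +kernel

theorem dm_lt (c : ℕ) (hc : c < 24) : M12C.dm c < 24 :=
  of_decide_eq_true (M12C.allN_spec _ _ dm_lt_ok c hc)

theorem dm_step (c : ℕ) (hc : c < 24) (l : ℕ) (hl : l < 6) :
    nlane (tabs6r.getD l idT) (M12C.dm (M12C.nx c l)) = M12C.dm c :=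
  eq_of_beq (M12C.allN_spec _ _ (M12C.allN_spec _ _ dm_ok c hc) l hl)

/-- packed list: the coset of a signed point -/
def POS : ℕ := 0x430447a630596f650e469d68e385a0

/-- the coset of a signed point -/
def pos (j : ℕ) : ℕ := (POS >>> (5 * j)) % 32

theorem pos_ok : M12C.allN 24 (fun j => decide (pos j < 24) && (M12C.dm (pos j) == j)) = true := by
  decide +kernel

/-- the coset representatives -/
noncomputable abbrev rhoG (c : ℕ) : PP := CS.rho γ M12C.par M12C.plet c

theorem rhoG_succ (c : ℕ) (h0 : 0 < c) (hc : c < 24) :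
    rhoG c = rhoG (M12C.par c) * CS.letY γ (M12C.plet c) :=
  CS.rho_succ γ M12C.par M12C.plet 24 (fun c h0 hc => (M12C.htree c h0 hc).1) c h0 hc

theorem rho_mem : ∀ c, c < 24 → rhoG c ∈ Gam := by
  intro c
  induction c using Nat.strong_induction_on with
  | _ c ih =>
    intro hc
    rcases Nat.eq_zero_or_pos c with rfl | hpos
    · exact Gam.one_mem
    · rw [rhoG_succ c hpos hc]
      have hp := (M12C.htree c hpos hc).1
      exact Gam.mul_mem (ih _ hp (by omega)) (letY_mem _)

theorem rho_dm : ∀ c, c < 24 → (rhoG c).1 (pt (M12C.dm c)) = pt 0 := by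
  intro c
  induction c using Nat.strong_induction_on with
  | _ c ih =>
    intro hc
    rcases Nat.eq_zero_or_pos c with rfl | hpos
    · rw [dm_zero]
      rfl
    · obtain ⟨hpar, hplet, hnx⟩ := M12C.htree c hpos hc
      rw [rhoG_succ c hpos hc]
      show (rhoG (M12C.par c)).1 ((CS.letY γ (M12C.plet c)).1 (pt (M12C.dm c))) = pt 0
      have h := dm_step (M12C.par c) (by omega) (M12C.plet c) hplet
      rw [hnx] at h
      rw [fst_letY, (repT_letY3 rep_r _).apply_pt (dm_lt c hc), h]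
      exact ih _ hpar (by omega)

theorem rho_inv_pt (c : ℕ) (hc : c < 24) : (rhoG c).1⁻¹ (pt 0) = pt (M12C.dm c) := by
  conv_lhs => rw [← rho_dm c hc]
  exact perm_inv_apply _ _

theorem hexG : ∀ c < 24, ∀ j < 3,
    rhoG c * γ j * (rhoG (M12C.nx c (2 * j)))⁻¹ ∈ Hh := by
  intro c hc j hj
  have hc' : M12C.nx c (2 * j) < 24 := (M12C.htab c hc j hj).1
  refine ⟨Gam.mul_mem (Gam.mul_mem (rho_mem c hc) (γ_mem j)) (Gam.inv_mem (rho_mem _ hc')), ?_⟩
  show (rhoG c).1 ((γ j).1 ((rhoG (M12C.nx c (2 * j))).1⁻¹ (pt 0))) = pt 0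
  have h2 : γ j = CS.letY γ (2 * j) := (CS.letY_even γ j).symm
  rw [rho_inv_pt _ hc', h2, fst_letY, (repT_letY3 rep_r _).apply_pt (dm_lt _ hc'),
    dm_step c hc (2 * j) (by omega)]
  exact rho_dm c hc

theorem hneG : ∀ c, 0 < c → c < 24 → rhoG c ∉ Hh := by
  intro c h0 hc hmem
  have h1 : (rhoG c).1 (pt 0) = pt 0 := hmem.2
  have h3 : pt (M12C.dm c) = pt 0 := (rhoG c).1.injective ((rho_dm c hc).trans h1.symm)
  have h4 := congrArg idx h3
  rw [idx_pt (dm_lt c hc), idx_pt (by norm_num)] at h4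
  have h5 := M12C.allN_spec _ _ dm_ne c hc
  rw [Bool.or_eq_true] at h5
  rcases h5 with h5 | h5
  · exact absurd (eq_of_beq h5) (by omega)
  · rw [h4] at h5
    simp at h5

/-! ### the relators -/

/-- relators in the generators of `M11` -/
def hrels : List (List ℕ) :=
  [[0, 0, 0, 0, 0, 0, 0, 0, 0, 0, 0],
   [2, 2, 2, 2],
   [0, 2, 2, 2, 0, 3, 0, 3, 0, 3],
   [0, 0, 0, 3, 1, 2, 0, 0, 2, 0, 3, 3]]

/-- data `(U, Z, U2, Z2)` of the relators `U⁻¹ Z U = U2⁻¹ Z2 U2` between elements of order three -/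
def r3 : List (List ℕ × List ℕ × List ℕ × List ℕ) :=
  [([4], [0, 2, 0, 0], [], [0, 0, 0, 2]),
   ([0, 5], [4], [2], [5])]

/-- the relator of such data -/
def r3word (d : List ℕ × List ℕ × List ℕ × List ℕ) : List ℕ :=
  CS.winv d.1 ++ d.2.1 ++ d.1 ++ CS.winv (CS.winv d.2.2.1 ++ d.2.2.2 ++ d.2.2.1)

theorem rels_eq : M12C.rels = hrels ++ [[4, 4, 4]] ++ r3.map r3word := by decide +kernel

/-- check that a word has trivial cube for a reason that lifts -/
def cubOK (Z : List ℕ) : Bool :=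
  (Z.all (fun l => decide (l < 4)) && (powT (evalT tabs6r Z) 3 == idT)
    && (powT (evalT tabs6p Z) 3 == idT)) || Z == [4] || Z == [5]

theorem cub_of_ok {Z : List ℕ} (h : cubOK Z = true) : CS.Cub γ Z := by
  unfold cubOK at h
  rw [Bool.or_eq_true, Bool.or_eq_true, Bool.and_eq_true, Bool.and_eq_true] at h
  rcases h with (⟨⟨h1, h2⟩, h3⟩ | h) | h
  · left
    exact ⟨fun l hl => of_decide_eq_true (List.all_eq_true.mp h1 l hl),
      evY_cube_of (eq_of_beq h2) (eq_of_beq h3)⟩
  · right; left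
    exact eq_of_beq h
  · right; right
    exact eq_of_beq h

/-- check of a relator in the generators of `M11` -/
def hOK (r : List ℕ) : Bool :=
  r.all (fun l => decide (l < 4)) && (evalT tabs6r r == idT) && (evalT tabs6p r == idT)

/-- check of a relator between elements of order three -/
def r3OK (d : List ℕ × List ℕ × List ℕ × List ℕ) : Bool :=
  cubOK d.2.1 && cubOK d.2.2.2 &&
    (evalT tabs6r (CS.winv d.1 ++ d.2.1 ++ d.1)
      == evalT tabs6r (CS.winv d.2.2.1 ++ d.2.2.2 ++ d.2.2.1)) &&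
    (evalT tabs6p (CS.winv d.1 ++ d.2.1 ++ d.1)
      == evalT tabs6p (CS.winv d.2.2.1 ++ d.2.2.2 ++ d.2.2.1))

theorem hrels_ok : hrels.all hOK = true := by decide +kernel

theorem r3_ok : r3.all r3OK = true := by decide +kernel

theorem goodR : ∀ r ∈ M12C.rels, (∀ l ∈ r, l < 6) ∧ CS.GoodR γ r := by
  intro r hr
  refine ⟨M12C.rels_lt r hr, ?_⟩
  rw [rels_eq, List.mem_append, List.mem_append] at hr
  rcases hr with (hr | hr) | hr
  · left
    have h := List.all_eq_true.mp hrels_ok r hr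
    unfold hOK at h
    rw [Bool.and_eq_true, Bool.and_eq_true] at h
    exact ⟨fun l hl => of_decide_eq_true (List.all_eq_true.mp h.1.1 l hl),
      evY_eq_one_of (eq_of_beq h.1.2) (eq_of_beq h.2)⟩
  · right; left
    exact List.mem_singleton.mp hr
  · right; right
    obtain ⟨d, hd, rfl⟩ := List.mem_map.mp hr
    have h := List.all_eq_true.mp r3_ok d hd
    unfold r3OK at h
    rw [Bool.and_eq_true, Bool.and_eq_true, Bool.and_eq_true] at h
    exact ⟨d.1, d.2.1, d.2.2.1, d.2.2.2, rfl, cub_of_ok h.1.1.1, cub_of_ok h.1.1.2,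
      evY_eq_of (eq_of_beq h.1.2) (eq_of_beq h.2)⟩

/-! ### generation -/

theorem pt0_eq : pt 0 = (some 0 : GolayPt) := by
  rw [← h6_pt]
  exact Cfsg.Agent.Lib.Helper27.OutM11.pt_zero

theorem bl_pt0 : bl (pt 0) = pt 0 := by
  unfold bl
  rw [idx_pt (by norm_num)]
  rfl

theorem snd_mem_M11 {h : PP} (hh' : h ∈ Hh) : h.2 ∈ Spor.M11 := by
  obtain ⟨⟨hm, hb, -⟩, h0⟩ := hh'
  have h1 := hb (pt 0)
  rw [h0, bl_pt0, pt0_eq] at h1
  unfold Spor.M11
  exact Subgroup.mem_inf.mpr ⟨hm, MulAction.mem_stabilizer_iff.mpr h1.symm⟩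

theorem closure01_le : Subgroup.closure ({γ 0, γ 1} : Set PP) ≤ Hh := by
  rw [Subgroup.closure_le]
  rintro x (rfl | rfl)
  · exact γ0_mem
  · exact γ1_mem

theorem exists_lift (m : ↥Spor.M11) :
    ∃ k ∈ Subgroup.closure ({γ 0, γ 1} : Set PP), k.2 = (m : Equiv.Perm GolayPt) := by
  have hm : m ∈ Subgroup.closure
      {Cfsg.Agent.Lib.Helper27.OutM11.X, Cfsg.Agent.Lib.Helper27.OutM11.V} := by
    rw [Cfsg.Agent.Lib.Helper27.OutM11.hgen]
    trivial
  induction hm using Subgroup.closure_induction with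
  | mem x hx =>
    rcases hx with rfl | rfl
    · exact ⟨γ 0, Subgroup.subset_closure (Set.mem_insert _ _), rfl⟩
    · exact ⟨γ 1, Subgroup.subset_closure (Set.mem_insert_of_mem _ rfl), rfl⟩
  | one => exact ⟨1, Subgroup.one_mem _, rfl⟩
  | mul a b _ _ iha ihb =>
    obtain ⟨k1, hk1, e1⟩ := iha
    obtain ⟨k2, hk2, e2⟩ := ihb
    refine ⟨k1 * k2, Subgroup.mul_mem _ hk1 hk2, ?_⟩
    show k1.2 * k2.2 = (a : Equiv.Perm GolayPt) * (b : Equiv.Perm GolayPt)
    rw [e1, e2]
  | inv a _ iha =>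
    obtain ⟨k1, hk1, e1⟩ := iha
    refine ⟨k1⁻¹, Subgroup.inv_mem _ hk1, ?_⟩
    show k1.2⁻¹ = (a : Equiv.Perm GolayPt)⁻¹
    rw [e1]

theorem eq_one_of_Hh {h : PP} (hh' : h ∈ Hh) (h2 : h.2 = 1) : h = 1 := by
  rcases ker_cases hh'.1 h2 with h1 | h1
  · exact Prod.ext h1 h2
  · exfalso
    have h0 := hh'.2
    rw [h1] at h0
    exact zeta_ne _ h0

theorem Hh_le_closure : Hh ≤ Subgroup.closure ({γ 0, γ 1} : Set PP) := by
  intro h hh'
  obtain ⟨k, hk, ek⟩ := exists_lift ⟨h.2, snd_mem_M11 hh'⟩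
  have h1 : k⁻¹ * h = 1 := by
    apply eq_one_of_Hh (Hh.mul_mem (Hh.inv_mem (closure01_le hk)) hh')
    show k.2⁻¹ * h.2 = 1
    rw [ek]
    exact inv_mul_cancel _
  rw [← inv_mul_eq_one.mp h1]
  exact hk

theorem Gam_le_closure : Gam ≤ Subgroup.closure ({γ 0, γ 1, γ 2} : Set PP) := by
  have hlet : ∀ l, l < 6 →
      CS.letY γ l ∈ Subgroup.closure ({γ 0, γ 1, γ 2} : Set PP) := by
    intro l hl
    have h := CS.evY_mem_closure γ [l] (fun l' hl' => by rw [List.mem_singleton.mp hl']; exact hl)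
    rw [CS.evY_cons, CS.evY_nil, mul_one] at h
    exact h
  have hrho : ∀ c, c < 24 → rhoG c ∈ Subgroup.closure ({γ 0, γ 1, γ 2} : Set PP) := by
    intro c
    induction c using Nat.strong_induction_on with
    | _ c ih =>
      intro hc
      rcases Nat.eq_zero_or_pos c with rfl | hpos
      · exact Subgroup.one_mem _
      · rw [rhoG_succ c hpos hc]
        obtain ⟨hp, hl, -⟩ := M12C.htree c hpos hc
        exact Subgroup.mul_mem _ (ih _ hp (by omega)) (hlet _ hl)
  have h01 : Subgroup.closure ({γ 0, γ 1} : Set PP)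
      ≤ Subgroup.closure ({γ 0, γ 1, γ 2} : Set PP) := by
    apply Subgroup.closure_mono
    rintro x (rfl | rfl)
    · exact Set.mem_insert _ _
    · exact Set.mem_insert_of_mem _ (Set.mem_insert _ _)
  intro x hx
  have hj := idx_lt (x.1⁻¹ (pt 0))
  have hp := M12C.allN_spec _ _ pos_ok _ hj
  rw [Bool.and_eq_true] at hp
  have hc : pos (idx (x.1⁻¹ (pt 0))) < 24 := of_decide_eq_true hp.1
  have hd : M12C.dm (pos (idx (x.1⁻¹ (pt 0)))) = idx (x.1⁻¹ (pt 0)) := eq_of_beq hp.2
  have hmem : x * (rhoG (pos (idx (x.1⁻¹ (pt 0)))))⁻¹ ∈ Hh := by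
    refine ⟨Gam.mul_mem hx (Gam.inv_mem (rho_mem _ hc)), ?_⟩
    show x.1 ((rhoG (pos (idx (x.1⁻¹ (pt 0))))).1⁻¹ (pt 0)) = pt 0
    rw [rho_inv_pt _ hc, hd, pt_idx]
    exact perm_apply_inv _ _
  have h3 := Subgroup.mul_mem _ (h01 (Hh_le_closure hmem)) (hrho _ hc)
  rw [inv_mul_cancel_right] at h3
  exact h3

/-! ### the sign method for the cover -/

/-- A central extension of the cover by a group of order two that splits over the stabiliser of
a signed point does not have its kernel inside the commutator subgroup. -/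
theorem sign_Gam {Y : Type*} [Group Y] (τ : Y →* PP) (z : Y) (hz1 : z ≠ 1)
    (hker : ∀ k : Y, τ k = 1 → k = 1 ∨ k = z) (hzk : τ z = 1)
    (S : Subgroup Y) (hS : ∀ s ∈ S, τ s = 1 → s = 1) (hSH : S.map τ = Hh)
    (hrange : τ.range = Gam) : z ∉ commutator Y :=
  CS.sign_core τ z hz1 hker hzk S hS Hh hSH γ γ0_mem γ1_mem
    (by rw [hrange]; exact γ_mem 2) γ2_cube γ_ge
    24 M12C.nx M12C.par M12C.plet M12C.vt M12C.it 47 (by norm_num) M12C.htab M12C.htree
    M12C.vhyp hexG hneG M12C.rels goodR M12C.rows M12C.rows_ok M12C.chk_ok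
    (by rw [hrange]; exact Gam_le_closure)

/-! ### the kernel of the projection -/

/-- the central element of the cover -/
noncomputable def zetaG : ↥Gam := ⟨mkP tzeta tid, mkP_mem zeta_ok⟩

theorem zetaG_snd : zetaG.1.2 = 1 := tabD_tid

theorem zetaG_ne : zetaG ≠ 1 := by
  intro h
  have h2 : zetaG.1.1 = 1 := by rw [h]; rfl
  have h3 : zeta = 1 := h2
  have h1 : zeta (pt 0) = pt 0 := by rw [h3]; rfl
  exact zeta_ne _ h1

theorem sig_zetaG : sig zetaG = 1 := Subtype.ext zetaG_snd

theorem ker_sig (g : ↥Gam) (hg : sig g = 1) : g = 1 ∨ g = zetaG := by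
  have h2 : g.1.2 = 1 := congrArg Subtype.val hg
  rcases ker_cases g.2 h2 with h | h
  · left
    exact Subtype.ext (Prod.ext h h2)
  · right
    exact Subtype.ext (Prod.ext h (h2.trans zetaG_snd.symm))

theorem zetaG_central (g : ↥Gam) : g * zetaG = zetaG * g := by
  apply Subtype.ext
  apply Prod.ext
  · apply Equiv.ext
    intro x
    show g.1.1 (zeta x) = zeta (g.1.1 x)
    exact comm_zeta g.2 x
  · show g.1.2 * zetaG.1.2 = zetaG.1.2 * g.1.2
    rw [zetaG_snd, mul_one, one_mul]

theorem sig_surj : Function.Surjective sig := by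
  rw [← MonoidHom.range_eq_top, eq_top_iff, ← Cfsg.Agent.Lib.Helper27.OutM12.hgen,
    Subgroup.closure_le]
  rintro x (rfl | rfl)
  · exact ⟨⟨mkP rX tx, mkP_mem gX_ok⟩, Subtype.ext rfl⟩
  · exact ⟨⟨mkP rZ tz, mkP_mem gZ_ok⟩, Subtype.ext rfl⟩

theorem card_ker : Nat.card ↥sig.ker = 2 := by
  rw [Nat.card_eq_two_iff]
  refine ⟨1, ⟨zetaG, sig_zetaG⟩, ?_, ?_⟩
  · intro h
    exact zetaG_ne (congrArg Subtype.val h).symm
  · ext g
    simp only [Set.mem_insert_iff, Set.mem_singleton_iff, Set.mem_univ, iff_true]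
    rcases ker_sig g.1 g.2 with h | h
    · left
      exact Subtype.ext h
    · right
      exact Subtype.ext h

theorem card_Gam : Nat.card ↥Gam = 190080 := by
  have h1 := Subgroup.card_eq_card_quotient_mul_card_subgroup sig.ker
  have h2 : Nat.card (↥Gam ⧸ sig.ker) = 95040 := by
    rw [Nat.card_congr (QuotientGroup.quotientKerEquivOfSurjective sig sig_surj).toEquiv]
    exact Cfsg.Agent.Lib.Helper86.card_M12
  rw [h1, h2, card_ker]

/-- a lift of an involution of `M12` -/
noncomputable def eZ : ↥Gam := ⟨mkP rZ tz, mkP_mem gZ_ok⟩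
/-- an element inverting that lift -/
noncomputable def eB : ↥Gam := ⟨mkP rB tB, mkP_mem gB_ok⟩

theorem zetaG_mem_comm : zetaG ∈ commutator ↥Gam := by
  have e : eB * eZ = zetaG * (eZ * eB) := by
    apply Subtype.ext
    have h := mkP_word (L := [(rB, tB), (rZ, tz)]) (L' := [(tzeta, tid), (rZ, tz), (rB, tB)])
      (by decide +kernel)
    simp only [List.map_cons, List.map_nil, List.prod_cons, List.prod_nil, mul_one] at h
    exact h
  have h : ⁅eB, eZ⁆ = zetaG := by
    rw [commutatorElement_def, e]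
    group
  rw [← h, commutator_def]
  exact Subgroup.commutator_mem_commutator (Subgroup.mem_top _) (Subgroup.mem_top _)

/-- the cover is a stem extension of `M12` -/
theorem sig_stem : IsStemExtension sig := by
  refine ⟨sig_surj, ?_, ?_⟩
  · intro g hg
    rw [Subgroup.mem_center_iff]
    intro x
    rcases ker_sig g hg with rfl | rfl
    · rw [mul_one, one_mul]
    · exact zetaG_central x
  · intro g hg
    rcases ker_sig g hg with rfl | rfl
    · exact Subgroup.one_mem _
    · exact zetaG_mem_comm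

/-! ### the stabiliser of a signed point is a copy of `M11` -/

/-- the projection of the stabiliser of a signed point onto `M11` -/
def sigH : ↥Hh →* ↥Spor.M11 where
  toFun h := ⟨h.1.2, snd_mem_M11 h.2⟩
  map_one' := rfl
  map_mul' _ _ := rfl

theorem sigH_bij : Function.Bijective sigH := by
  constructor
  · rw [injective_iff_map_eq_one]
    intro h hh'
    have h2 : h.1.2 = 1 := congrArg Subtype.val hh'
    exact Subtype.ext (eq_one_of_Hh h.2 h2)
  · intro m
    obtain ⟨k, hk, ek⟩ := exists_lift m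
    exact ⟨⟨k, closure01_le hk⟩, Subtype.ext ek⟩

/-- the stabiliser of a signed point is isomorphic to `M11` -/
noncomputable def eqvH : ↥Hh ≃* ↥Spor.M11 := MulEquiv.ofBijective sigH sigH_bij

theorem card_Hh : Nat.card ↥Hh = 7920 := by
  rw [Nat.card_congr eqvH.toEquiv]
  exact Cfsg.Agent.Lib.Helper86.card_M11

/-! ### a Sylow `3`-subgroup and two involutions normalising it -/

def rU : List ℕ := [16, 17, 6, 7, 8, 9, 12, 13, 18, 19, 10, 11, 2, 3, 0, 1, 14, 15, 4, 5, 20, 21, 22, 23]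
def tU : List ℕ := [12, 3, 4, 8, 13, 5, 6, 10, 1, 0, 17, 11, 9, 2, 22, 14, 16, 7, 18, 23, 20, 19, 15, 21]
def rW : List ℕ := [7, 6, 15, 14, 4, 5, 19, 18, 3, 2, 23, 22, 12, 13, 8, 9, 16, 17, 0, 1, 11, 10, 20, 21]
def tW : List ℕ := [3, 9, 2, 13, 1, 17, 18, 23, 8, 4, 19, 7, 12, 0, 14, 15, 6, 21, 16, 20, 10, 5, 22, 11]
def rUi : List ℕ := [14, 15, 12, 13, 18, 19, 2, 3, 4, 5, 10, 11, 6, 7, 16, 17, 0, 1, 8, 9, 20, 21, 22, 23]
def tUi : List ℕ := [9, 8, 13, 1, 2, 5, 6, 17, 3, 12, 7, 11, 0, 4, 15, 22, 16, 10, 18, 21, 20, 23, 14, 19]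
def rWi : List ℕ := [18, 19, 9, 8, 4, 5, 1, 0, 14, 15, 21, 20, 12, 13, 3, 2, 16, 17, 7, 6, 22, 23, 11, 10]
def tWi : List ℕ := [13, 4, 2, 0, 9, 21, 16, 11, 8, 1, 20, 23, 12, 3, 14, 15, 18, 5, 6, 10, 19, 17, 22, 7]
def rC : List ℕ := [7, 6, 9, 8, 16, 17, 19, 18, 14, 15, 10, 11, 5, 4, 3, 2, 13, 12, 0, 1, 20, 21, 22, 23]
def tC : List ℕ := [3, 4, 12, 13, 9, 11, 6, 10, 2, 1, 17, 20, 8, 0, 14, 15, 16, 7, 18, 21, 5, 23, 22, 19]
def rT1 : List ℕ := [9, 8, 7, 6, 17, 16, 3, 2, 1, 0, 11, 10, 13, 12, 19, 18, 5, 4, 15, 14, 21, 20, 23, 22]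
def tT1 : List ℕ := [4, 3, 12, 1, 0, 5, 6, 10, 8, 13, 7, 20, 2, 9, 15, 14, 16, 17, 18, 23, 11, 21, 22, 19]
def rT2 : List ℕ := [19, 18, 3, 2, 17, 16, 7, 6, 15, 14, 11, 10, 13, 12, 9, 8, 5, 4, 1, 0, 23, 22, 21, 20]
def tT2 : List ℕ := [13, 1, 12, 3, 9, 5, 6, 19, 8, 4, 23, 20, 2, 0, 14, 15, 18, 21, 16, 7, 11, 17, 22, 10]

theorem gU_ok : gamL rU tU = true := by decide +kernel
theorem gW_ok : gamL rW tW = true := by decide +kernel
theorem gUi_ok : gamL rUi tUi = true := by decide +kernel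
theorem gWi_ok : gamL rWi tWi = true := by decide +kernel
theorem gC_ok : gamL rC tC = true := by decide +kernel
theorem gT1_ok : gamL rT1 tT1 = true := by decide +kernel
theorem gT2_ok : gamL rT2 tT2 = true := by decide +kernel

/-- an element of order three -/
noncomputable def eU : ↥Gam := ⟨mkP rU tU, mkP_mem gU_ok⟩
/-- a second element of order three -/
noncomputable def eW : ↥Gam := ⟨mkP rW tW, mkP_mem gW_ok⟩
/-- the inverse of the first -/
noncomputable def eUi : ↥Gam := ⟨mkP rUi tUi, mkP_mem gUi_ok⟩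
/-- the inverse of the second -/
noncomputable def eWi : ↥Gam := ⟨mkP rWi tWi, mkP_mem gWi_ok⟩
/-- their commutator -/
noncomputable def eC : ↥Gam := ⟨mkP rC tC, mkP_mem gC_ok⟩
/-- an involution inverting the first and centralising the second -/
noncomputable def eT1 : ↥Gam := ⟨mkP rT1 tT1, mkP_mem gT1_ok⟩
/-- an involution centralising the first and inverting the second -/
noncomputable def eT2 : ↥Gam := ⟨mkP rT2 tT2, mkP_mem gT2_ok⟩

theorem eU_cube : eU ^ 3 = 1 := by
  have h := mkP_word (L := [(rU, tU), (rU, tU), (rU, tU)]) (L' := []) (by decide +kernel)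
  simp only [List.map_cons, List.map_nil, List.prod_cons, List.prod_nil, mul_one] at h
  rw [pow_succ, pow_succ, pow_one, mul_assoc]
  exact Subtype.ext h

theorem eW_cube : eW ^ 3 = 1 := by
  have h := mkP_word (L := [(rW, tW), (rW, tW), (rW, tW)]) (L' := []) (by decide +kernel)
  simp only [List.map_cons, List.map_nil, List.prod_cons, List.prod_nil, mul_one] at h
  rw [pow_succ, pow_succ, pow_one, mul_assoc]
  exact Subtype.ext h

theorem eUi_eq : eUi = eU⁻¹ := by
  have h := mkP_word (L := [(rU, tU), (rUi, tUi)]) (L' := []) (by decide +kernel)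
  simp only [List.map_cons, List.map_nil, List.prod_cons, List.prod_nil, mul_one] at h
  have h1 : eU * eUi = 1 := Subtype.ext h
  exact eq_inv_of_mul_eq_one_right h1

theorem eWi_eq : eWi = eW⁻¹ := by
  have h := mkP_word (L := [(rW, tW), (rWi, tWi)]) (L' := []) (by decide +kernel)
  simp only [List.map_cons, List.map_nil, List.prod_cons, List.prod_nil, mul_one] at h
  have h1 : eW * eWi = 1 := Subtype.ext h
  exact eq_inv_of_mul_eq_one_right h1

theorem comm_UW : ⁅eU, eW⁆ = eC := by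
  have h := mkP_word (L := [(rU, tU), (rW, tW), (rUi, tUi), (rWi, tWi)]) (L' := [(rC, tC)])
    (by decide +kernel)
  simp only [List.map_cons, List.map_nil, List.prod_cons, List.prod_nil, mul_one] at h
  rw [commutatorElement_def, ← eUi_eq, ← eWi_eq, mul_assoc, mul_assoc]
  exact Subtype.ext h

theorem comm_UW_ne : ⁅eU, eW⁆ ≠ 1 := by
  rw [comm_UW]
  intro h
  exact mkP_ne_one (t1 := rC) (t2 := tC) (by decide +kernel) 0 (by norm_num) (by decide +kernel)
    (congrArg Subtype.val h)

theorem eU_comm : eU * ⁅eU, eW⁆ = ⁅eU, eW⁆ * eU := by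
  have h := mkP_word (L := [(rU, tU), (rC, tC)]) (L' := [(rC, tC), (rU, tU)]) (by decide +kernel)
  simp only [List.map_cons, List.map_nil, List.prod_cons, List.prod_nil, mul_one] at h
  rw [comm_UW]
  exact Subtype.ext h

theorem eW_comm : eW * ⁅eU, eW⁆ = ⁅eU, eW⁆ * eW := by
  have h := mkP_word (L := [(rW, tW), (rC, tC)]) (L' := [(rC, tC), (rW, tW)]) (by decide +kernel)
  simp only [List.map_cons, List.map_nil, List.prod_cons, List.prod_nil, mul_one] at h
  rw [comm_UW]
  exact Subtype.ext h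

theorem t1U : eT1 * eU * eT1⁻¹ = eU⁻¹ := by
  have h := mkP_word (L := [(rT1, tT1), (rU, tU)]) (L' := [(rUi, tUi), (rT1, tT1)])
    (by decide +kernel)
  simp only [List.map_cons, List.map_nil, List.prod_cons, List.prod_nil, mul_one] at h
  have h1 : eT1 * eU = eUi * eT1 := Subtype.ext h
  rw [← eUi_eq, mul_inv_eq_iff_eq_mul]
  exact h1

theorem t1W : eT1 * eW * eT1⁻¹ = eW := by
  have h := mkP_word (L := [(rT1, tT1), (rW, tW)]) (L' := [(rW, tW), (rT1, tT1)])
    (by decide +kernel)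
  simp only [List.map_cons, List.map_nil, List.prod_cons, List.prod_nil, mul_one] at h
  have h1 : eT1 * eW = eW * eT1 := Subtype.ext h
  rw [mul_inv_eq_iff_eq_mul]
  exact h1

theorem t2U : eT2 * eU * eT2⁻¹ = eU := by
  have h := mkP_word (L := [(rT2, tT2), (rU, tU)]) (L' := [(rU, tU), (rT2, tT2)])
    (by decide +kernel)
  simp only [List.map_cons, List.map_nil, List.prod_cons, List.prod_nil, mul_one] at h
  have h1 : eT2 * eU = eU * eT2 := Subtype.ext h
  rw [mul_inv_eq_iff_eq_mul]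
  exact h1

theorem t2W : eT2 * eW * eT2⁻¹ = eW⁻¹ := by
  have h := mkP_word (L := [(rT2, tT2), (rW, tW)]) (L' := [(rWi, tWi), (rT2, tT2)])
    (by decide +kernel)
  simp only [List.map_cons, List.map_nil, List.prod_cons, List.prod_nil, mul_one] at h
  have h1 : eT2 * eW = eWi * eT2 := Subtype.ext h
  rw [← eWi_eq, mul_inv_eq_iff_eq_mul]
  exact h1


end Cfsg.Agent.Lib.Helper7.M12V
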