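import Mathlib
import Cfsg.Agent.Lib.Helper7.M23Perm
import Cfsg.Agent.Lib.Helper35.SchurLocal
import Cfsg.Agent.S2034

set_option autoImplicit false

/-! # The Schur multiplier of a point stabiliser of `M24` is trivial

Odd primes: transfer into `M11` (which has trivial multiplier) and cyclic Sylow subgroups for
`7` and `23`.  The prime `2`: a central extension by a group of order two splits over `M11`, and
the sign method (`M23Perm.sign_M23`) shows that the central involution is not a product of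
commutators. -/

namespace Cfsg.Agent.Lib.Helper7.M23S

open Cfsg Cfsg.Agent.Lib.Helper7 Cfsg.Agent.Lib.Helper35
open scoped commutatorElement

universe u v w

/-- Over a subgroup with trivial Schur multiplier, the commutator subgroup of the preimage meets
the kernel of a central extension trivially. -/
theorem comm_comap_inf_ker {P : Type u} [Group P] (H : Subgroup P) [Finite H]
    (hH : HasCyclicSchurMultiplier ↥H 1) {Y : Type w} [Group Y] (τ : Y →* P)
    (hr : H ≤ τ.range) (hc : τ.ker ≤ Subgroup.center Y) (w : Y)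
    (hw : w ∈ ⁅H.comap τ, H.comap τ⁆) (hw1 : τ w = 1) : w = 1 := by
  let ξ : ↥(H.comap τ) →* ↥H := τ.subgroupComap H
  have hξs : Function.Surjective ξ := by
    rintro ⟨h, hh⟩
    obtain ⟨y, rfl⟩ := hr hh
    exact ⟨⟨y, hh⟩, rfl⟩
  have hξc : ξ.ker ≤ Subgroup.center ↥(H.comap τ) := by
    intro x hx
    rw [Subgroup.mem_center_iff]
    intro g
    have h1 : (x : Y) ∈ τ.ker := by
      rw [MonoidHom.mem_ker]
      exact congrArg Subtype.val (MonoidHom.mem_ker.mp hx)
    have h2 := Subgroup.mem_center_iff.mp (hc h1) (g : Y)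
    exact Subtype.ext h2
  obtain ⟨p, hp⟩ := exists_surj_of_central hH ξ hξs hξc
  rw [← Subgroup.map_subtype_commutator] at hw
  obtain ⟨x, hx, rfl⟩ := hw
  have hxk : x ∈ ξ.ker := by
    rw [MonoidHom.mem_ker]
    exact Subtype.ext hw1
  obtain ⟨a, ha⟩ := hp ⟨x, hxk, hx⟩
  have ha1 : a = 1 := Subsingleton.elim _ _
  rw [ha1, map_one] at ha
  have hx1 : x = 1 := (congrArg Subtype.val ha).symm
  rw [hx1]
  rfl

/-- triviality of the multiplier is invariant under isomorphism -/
theorem mult_one_of_mulEquiv {Γ : Type u} {Γ' : Type v} [Group Γ] [Group Γ'] [Finite Γ']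
    (e : Γ ≃* Γ') (h : HasCyclicSchurMultiplier Γ 1) : HasCyclicSchurMultiplier Γ' 1 := by
  apply hasCyclicSchurMultiplier_one_of
  intro Y _ _ τ hτ
  have hk : ∀ x : Y, x ∈ (e.symm.toMonoidHom.comp τ).ker ↔ x ∈ τ.ker := by
    intro x
    rw [MonoidHom.mem_ker, MonoidHom.mem_ker]
    constructor
    · intro hx
      have h2 : e.symm (τ x) = 1 := hx
      exact e.symm.injective (by rw [h2, map_one])
    · intro hx
      show e.symm (τ x) = 1
      rw [hx, map_one]
  have h1 := ker_eq_bot_of_trivial_multiplier h (e.symm.toMonoidHom.comp τ)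
    ⟨e.symm.surjective.comp hτ.1, fun x hx => hτ.2.1 ((hk x).mp hx),
      fun x hx => hτ.2.2 ((hk x).mp hx)⟩
  rw [eq_bot_iff] at h1 ⊢
  exact fun x hx => h1 ((hk x).mpr hx)

open Cfsg.Agent.Lib.Helper27.OutM11 (X V N tx tv hX hNX hgen) in
open Cfsg.Agent.Lib.Helper6.M12 (tabPermD) in
/-- `M11` is perfect -/
theorem M11_perfect : commutator ↥Spor.M11 = ⊤ := by
  have hX3 : X ^ 3 ∈ commutator ↥Spor.M11 := by
    have h : ⁅N, X⁆ = X ^ 3 := by
      rw [commutatorElement_def, hNX, pow_succ, mul_inv_cancel_right]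
    rw [← h, commutator_def]
    exact Subgroup.commutator_mem_commutator (Subgroup.mem_top _) (Subgroup.mem_top _)
  have hXC : X ∈ commutator ↥Spor.M11 := by
    have h11 : X ^ 11 = 1 := by
      rw [← hX]
      exact pow_orderOf_eq_one _
    have h : (X ^ 3) ^ 4 = X := by
      rw [← pow_mul, show 3 * 4 = 11 + 1 from rfl, pow_succ, h11, one_mul]
    rw [← h]
    exact Subgroup.pow_mem _ hX3 4
  have hV4 : V ^ 4 = 1 := by
    have h := Cfsg.Agent.Lib.Helper86.word_eq (L := [tv, tv, tv, tv]) (L' := [])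
      (by decide +kernel) (by decide +kernel) (by decide +kernel)
    apply Subtype.ext
    show tabPermD tv ^ 4 = 1
    simpa [pow_succ, mul_assoc] using h
  have hR : X ^ 3 * V ^ 3 * X ^ 10 * V * X ^ 2 * V * X * V ^ 2 = 1 := by
    have h := Cfsg.Agent.Lib.Helper86.word_eq
      (L := [tx, tx, tx, tv, tv, tv, tx, tx, tx, tx, tx, tx, tx, tx, tx, tx, tv, tx, tx, tv,
        tx, tv, tv]) (L' := [])
      (by decide +kernel) (by decide +kernel) (by decide +kernel)
    apply Subtype.ext
    show tabPermD tx ^ 3 * tabPermD tv ^ 3 * tabPermD tx ^ 10 * tabPermD tv * tabPermD tx ^ 2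
      * tabPermD tv * tabPermD tx * tabPermD tv ^ 2 = 1
    simpa [pow_succ, mul_assoc] using h
  have hπX : (QuotientGroup.mk' (commutator ↥Spor.M11)) X = 1 :=
    (QuotientGroup.eq_one_iff X).mpr hXC
  have h7 := congrArg (QuotientGroup.mk' (commutator ↥Spor.M11)) hR
  simp only [map_mul, map_pow, hπX, one_pow, one_mul, mul_one, map_one] at h7
  have h4 := congrArg (QuotientGroup.mk' (commutator ↥Spor.M11)) hV4
  simp only [map_pow, map_one] at h4
  have h7' : (QuotientGroup.mk' (commutator ↥Spor.M11)) V ^ 7 = 1 := by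
    rw [← h7]
    simp only [pow_succ, pow_zero, one_mul, mul_assoc]
  have h8 : (QuotientGroup.mk' (commutator ↥Spor.M11)) V ^ 8 = 1 := by
    rw [show 8 = 4 * 2 from rfl, pow_mul, h4, one_pow]
  rw [pow_succ, h7', one_mul] at h8
  have hVC : V ∈ commutator ↥Spor.M11 := (QuotientGroup.eq_one_iff V).mp h8
  rw [eq_top_iff, ← hgen, Subgroup.closure_le]
  rintro x (rfl | rfl)
  · exact hXC
  · exact hVC

/-- every finite stem extension of the point stabiliser is injective -/
theorem core (Y : Type) [Group Y] [Finite Y] (τ : Y →* ↥M23P.G0) (hτ : IsStemExtension τ) :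
    τ.ker = ⊥ := by
  classical
  have hker' : ∀ y : Y, (M23P.G0.subtype.comp τ) y = 1 ↔ τ y = 1 := fun y =>
    ⟨fun h => Subtype.ext h, fun h => by rw [MonoidHom.comp_apply, h]; rfl⟩
  -- the odd part of the kernel is trivial
  have h8 : ∀ z ∈ τ.ker, z ^ 8 = 1 := by
    intro z hz
    have e1 : z ^ 1288 = 1 := by
      have hidx := pow_index_eq_one_of_comap τ hτ.1 (hτ.2.1 hz) (hτ.2.2 hz) hz
        (Spor.M11.subgroupOf M23P.G0) ?_
      · have hi : (Spor.M11.subgroupOf M23P.G0).index = 1288 := by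
          have h1 := Subgroup.card_mul_index (Spor.M11.subgroupOf M23P.G0)
          rw [M23P.card_G0,
            Nat.card_congr (Subgroup.subgroupOfEquivOfLe M23P.M11_le_G0).toEquiv,
            Cfsg.Agent.Lib.Helper86.card_M11] at h1
          omega
        rw [hi] at hidx
        exact hidx
      · intro w hw hw1
        apply comm_comap_inf_ker Spor.M11 Cfsg.Agent.S2034.result (M23P.G0.subtype.comp τ)
          ?_ ?_ (w : Y) ?_ ?_
        · intro h hh
          obtain ⟨y, hy⟩ := hτ.1 ⟨h, M23P.M11_le_G0 hh⟩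
          exact ⟨y, by rw [MonoidHom.comp_apply, hy]; rfl⟩
        · intro y hy
          exact hτ.2.1 ((hker' y).mp hy)
        · have h1 : (w : Y) ∈ (commutator ↥((Spor.M11.subgroupOf M23P.G0).comap τ)).map
              (Subgroup.subtype _) := ⟨w, hw, rfl⟩
          rw [Subgroup.map_subtype_commutator] at h1
          exact h1
        · exact (hker' _).mpr hw1
    have e7 : z ^ 1457280 = 1 :=
      stem_pow_eq_one_of_orderOf τ hτ hz M23P.x7 7 1457280 (by norm_num) M23P.order_x7
        (by rw [M23P.card_G0])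
    have e23 : z ^ 443520 = 1 :=
      stem_pow_eq_one_of_orderOf τ hτ hz M23P.x23 23 443520 (by norm_num) M23P.order_x23
        (by rw [M23P.card_G0])
    have d1 := orderOf_dvd_of_pow_eq_one e1
    have d2 := orderOf_dvd_of_pow_eq_one e7
    have d3 := orderOf_dvd_of_pow_eq_one e23
    have d4 : orderOf z ∣ Nat.gcd (Nat.gcd 1288 1457280) 443520 :=
      Nat.dvd_gcd (Nat.dvd_gcd d1 d2) d3
    have d5 : Nat.gcd (Nat.gcd 1288 1457280) 443520 = 8 := by norm_num
    rw [d5] at d4
    exact orderOf_dvd_iff_pow_eq_one.mp d4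
  by_contra hne
  have hAp : IsPGroup 2 ↥τ.ker := by
    intro a
    refine ⟨3, Subtype.ext ?_⟩
    show (a : Y) ^ 2 ^ 3 = 1
    exact h8 a a.2
  haveI : Fact (Nat.Prime 2) := ⟨Nat.prime_two⟩
  obtain ⟨k, hk⟩ := IsPGroup.iff_card.mp hAp
  have hk0 : k ≠ 0 := by
    rintro rfl
    rw [pow_zero] at hk
    exact hne (Subgroup.card_eq_one.mp hk)
  obtain ⟨k', rfl⟩ := Nat.exists_eq_succ_of_ne_zero hk0
  obtain ⟨K', hK'⟩ := Sylow.exists_subgroup_card_pow_prime 2 (n := k') (G := ↥τ.ker)
    (by rw [hk]; exact pow_dvd_pow 2 (Nat.le_succ k'))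
  have hidx : K'.index = 2 := by
    have h1 := Subgroup.card_mul_index K'
    rw [hK', hk, pow_succ] at h1
    exact Nat.eq_of_mul_eq_mul_left (pow_pos (by norm_num) k') h1
  have hK₁A : K'.map τ.ker.subtype ≤ τ.ker := by
    rintro _ ⟨x, -, rfl⟩
    exact x.2
  have hmemK₁ : ∀ a : ↥τ.ker, (a : Y) ∈ K'.map τ.ker.subtype ↔ a ∈ K' := by
    intro a
    constructor
    · rintro ⟨x, hx, hxa⟩
      have h2 : x = a := Subtype.ext hxa
      rw [← h2]
      exact hx
    · intro h
      exact ⟨a, h, rfl⟩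
  haveI hK₁n : (K'.map τ.ker.subtype).Normal := by
    constructor
    intro n hn g
    have hc := Subgroup.mem_center_iff.mp (hτ.2.1 (hK₁A hn)) g
    rw [hc, mul_inv_cancel_right]
    exact hn
  obtain ⟨z₀, hz₀⟩ : ∃ a : ↥τ.ker, a ∉ K' := by
    by_contra hall
    push_neg at hall
    have h2 : K' = ⊤ := eq_top_iff.mpr fun a _ => hall a
    rw [h2, Subgroup.index_top] at hidx
    omega
  have hz1 : (QuotientGroup.mk (z₀ : Y) : Y ⧸ K'.map τ.ker.subtype) ≠ 1 := by
    intro h
    rw [QuotientGroup.eq_one_iff] at h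
    exact hz₀ ((hmemK₁ z₀).mp h)
  have hτmk : ∀ y : Y, (M23P.G0.subtype.comp
      (QuotientGroup.lift (K'.map τ.ker.subtype) τ (fun x hx => hK₁A hx)))
        (QuotientGroup.mk y) = (M23P.G0.subtype.comp τ) y := fun y => rfl
  have hkerq : ∀ q : Y ⧸ K'.map τ.ker.subtype, (M23P.G0.subtype.comp
      (QuotientGroup.lift (K'.map τ.ker.subtype) τ (fun x hx => hK₁A hx))) q = 1 →
      q = 1 ∨ q = QuotientGroup.mk (z₀ : Y) := by
    intro q hq
    obtain ⟨y, rfl⟩ := QuotientGroup.mk_surjective q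
    have hy : y ∈ τ.ker := (hker' y).mp hq
    by_cases hyK : (⟨y, hy⟩ : ↥τ.ker) ∈ K'
    · left
      exact (QuotientGroup.eq_one_iff y).mpr ((hmemK₁ ⟨y, hy⟩).mpr hyK)
    · right
      rw [QuotientGroup.eq]
      have h1 : (⟨y, hy⟩ : ↥τ.ker)⁻¹ * z₀ ∈ K' := by
        rw [Subgroup.mul_mem_iff_of_index_two hidx]
        constructor
        · intro h
          exact absurd (K'.inv_mem_iff.mp h) hyK
        · intro h
          exact absurd h hz₀
      exact (hmemK₁ _).mpr h1
  have hzk : (M23P.G0.subtype.comp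
      (QuotientGroup.lift (K'.map τ.ker.subtype) τ (fun x hx => hK₁A hx)))
        (QuotientGroup.mk (z₀ : Y)) = 1 := (hker' _).mpr z₀.2
  have hzcomm : (QuotientGroup.mk (z₀ : Y) : Y ⧸ K'.map τ.ker.subtype)
      ∈ commutator (Y ⧸ K'.map τ.ker.subtype) := by
    rw [← map_commutator_of_surjective (QuotientGroup.mk' (K'.map τ.ker.subtype))
      (QuotientGroup.mk'_surjective _)]
    exact ⟨z₀, hτ.2.2 z₀.2, rfl⟩
  have hrange : (M23P.G0.subtype.comp
      (QuotientGroup.lift (K'.map τ.ker.subtype) τ (fun x hx => hK₁A hx))).range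
        = M23P.G0 := by
    ext σ
    constructor
    · rintro ⟨q, rfl⟩
      exact (QuotientGroup.lift (K'.map τ.ker.subtype) τ (fun x hx => hK₁A hx) q).2
    · intro hσ
      obtain ⟨y, hy⟩ := hτ.1 ⟨σ, hσ⟩
      exact ⟨QuotientGroup.mk y, by rw [hτmk, MonoidHom.comp_apply, hy]; rfl⟩
  have hcen : (M23P.G0.subtype.comp
      (QuotientGroup.lift (K'.map τ.ker.subtype) τ (fun x hx => hK₁A hx))).ker
        ≤ Subgroup.center (Y ⧸ K'.map τ.ker.subtype) := by
    intro q hq
    rw [Subgroup.mem_center_iff]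
    intro g
    obtain ⟨y, rfl⟩ := QuotientGroup.mk_surjective q
    obtain ⟨g', rfl⟩ := QuotientGroup.mk_surjective g
    have hy : y ∈ τ.ker := (hker' y).mp (MonoidHom.mem_ker.mp hq)
    have hc := Subgroup.mem_center_iff.mp (hτ.2.1 hy) g'
    rw [← QuotientGroup.mk_mul, ← QuotientGroup.mk_mul, hc]
  refine M23P.sign_M23 _ _ hz1 hkerq hzk
    ⁅Spor.M11.comap (M23P.G0.subtype.comp
      (QuotientGroup.lift (K'.map τ.ker.subtype) τ (fun x hx => hK₁A hx))),
     Spor.M11.comap (M23P.G0.subtype.comp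
      (QuotientGroup.lift (K'.map τ.ker.subtype) τ (fun x hx => hK₁A hx)))⁆
    ?_ ?_ hrange hzcomm
  · intro s hs h1
    exact comm_comap_inf_ker Spor.M11 Cfsg.Agent.S2034.result _
      (by rw [hrange]; exact M23P.M11_le_G0) hcen s hs h1
  · rw [Subgroup.map_commutator, Subgroup.map_comap_eq, hrange,
      inf_eq_right.mpr M23P.M11_le_G0, ← Subgroup.map_subtype_commutator, M11_perfect,
      ← MonoidHom.range_eq_map, Subgroup.range_subtype]

/-- the Schur multiplier of the stabiliser of the residue `0` in `M24` is trivial -/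
theorem mult_G0 : HasCyclicSchurMultiplier ↥M23P.G0 1 :=
  hasCyclicSchurMultiplier_one_of core

end Cfsg.Agent.Lib.Helper7.M23S
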