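import Mathlib
import Cfsg.Agent.Lib.Helper7.M12Cover
import Cfsg.Agent.Lib.Helper7.M23Schur
import Cfsg.Agent.Lib.Helper35.He27
import Cfsg.Agent.Lib.Helper35.SchurPSL
import Cfsg.Agent.S2034

set_option autoImplicit false

/-! # The Schur multiplier of `M12` is cyclic of order two

The double cover `M12V.Gam` of `M12` has trivial multiplier.  Odd primes: transfer into the
stabiliser of a signed point (a copy of `M11`, which has trivial multiplier) and into a Sylow
`3`-subgroup, extraspecial of order `27`, with two involutions acting on it.  The prime `2`: a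
central extension by a group of order two splits over the copy of `M11`, and the sign method
(`M12V.sign_Gam`) shows that the central involution is not a product of commutators. -/

namespace Cfsg.Agent.Lib.Helper7.M12S

open Cfsg Cfsg.Agent.Lib.Helper7 Cfsg.Agent.Lib.Helper35
open scoped commutatorElement

/-- the copy of `M11` has trivial multiplier -/
theorem mult_Hh : HasCyclicSchurMultiplier ↥M12V.Hh 1 :=
  M23S.mult_one_of_mulEquiv M12V.eqvH.symm Cfsg.Agent.S2034.result

/-- the copy of `M11` is perfect -/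
theorem Hh_perfect : commutator ↥M12V.Hh = ⊤ := by
  have h := map_commutator_of_surjective M12V.eqvH.symm.toMonoidHom M12V.eqvH.symm.surjective
  rw [M23S.M11_perfect, Subgroup.map_top_of_surjective _ M12V.eqvH.symm.surjective] at h
  exact h.symm

/-- every finite stem extension of the double cover is injective -/
theorem core (Y : Type) [Group Y] [Finite Y] (τ : Y →* ↥M12V.Gam) (hτ : IsStemExtension τ) :
    τ.ker = ⊥ := by
  classical
  have hker' : ∀ y : Y, (M12V.Gam.subtype.comp τ) y = 1 ↔ τ y = 1 := fun y =>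
    ⟨fun h => Subtype.ext h, fun h => by rw [MonoidHom.comp_apply, h]; rfl⟩
  -- the odd part of the kernel is trivial
  have h8 : ∀ z ∈ τ.ker, z ^ 8 = 1 := by
    intro z hz
    have e1 : z ^ 24 = 1 := by
      have hidx := pow_index_eq_one_of_comap τ hτ.1 (hτ.2.1 hz) (hτ.2.2 hz) hz
        (M12V.Hh.subgroupOf M12V.Gam) ?_
      · have hi : (M12V.Hh.subgroupOf M12V.Gam).index = 24 := by
          have h1 := Subgroup.card_mul_index (M12V.Hh.subgroupOf M12V.Gam)
          rw [M12V.card_Gam,
            Nat.card_congr (Subgroup.subgroupOfEquivOfLe M12V.Hh_le).toEquiv,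
            M12V.card_Hh] at h1
          omega
        rw [hi] at hidx
        exact hidx
      · intro w hw hw1
        apply M23S.comm_comap_inf_ker M12V.Hh mult_Hh (M12V.Gam.subtype.comp τ)
          ?_ ?_ (w : Y) ?_ ?_
        · intro h hh
          obtain ⟨y, hy⟩ := hτ.1 ⟨h, M12V.Hh_le hh⟩
          exact ⟨y, by rw [MonoidHom.comp_apply, hy]; rfl⟩
        · intro y hy
          exact hτ.2.1 ((hker' y).mp hy)
        · have h1 : (w : Y) ∈ (commutator ↥((M12V.Hh.subgroupOf M12V.Gam).comap τ)).map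
              (Subgroup.subtype _) := ⟨w, hw, rfl⟩
          rw [Subgroup.map_subtype_commutator] at h1
          exact h1
        · exact (hker' _).mpr hw1
    have e3 : z ^ 7040 = 1 :=
      stem_pow_eq_one_of_he27 τ hτ hz M12V.eU_cube M12V.eW_cube M12V.comm_UW_ne M12V.eU_comm
        M12V.eW_comm M12V.t1U M12V.t1W M12V.t2U M12V.t2W 7040 (by rw [M12V.card_Gam])
    have d1 := orderOf_dvd_of_pow_eq_one e1
    have d2 := orderOf_dvd_of_pow_eq_one e3
    have d4 : orderOf z ∣ Nat.gcd 24 7040 := Nat.dvd_gcd d1 d2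
    have d5 : Nat.gcd 24 7040 = 8 := by norm_num
    rw [d5] at d4
    exact orderOf_dvd_iff_pow_eq_one.mp d4
  by_contra hne
  have hAp : IsPGroup 2 ↥τ.ker := by
    intro a
    refine ⟨3, Subtype.ext ?_⟩
    show (a : Y) ^ 2 ^ 3 = 1
    exact h8 a a.2
  haveI : Fact (Nat.Prime 2) := ⟨Nat.prime_two⟩
  obtain ⟨k, hk⟩ := IsPGroup.iff_card.mp hAp
  have hk0 : k ≠ 0 := by
    rintro rfl
    rw [pow_zero] at hk
    exact hne (Subgroup.card_eq_one.mp hk)
  obtain ⟨k', rfl⟩ := Nat.exists_eq_succ_of_ne_zero hk0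
  obtain ⟨K', hK'⟩ := Sylow.exists_subgroup_card_pow_prime 2 (n := k') (G := ↥τ.ker)
    (by rw [hk]; exact pow_dvd_pow 2 (Nat.le_succ k'))
  have hidx : K'.index = 2 := by
    have h1 := Subgroup.card_mul_index K'
    rw [hK', hk, pow_succ] at h1
    exact Nat.eq_of_mul_eq_mul_left (pow_pos (by norm_num) k') h1
  have hK₁A : K'.map τ.ker.subtype ≤ τ.ker := by
    rintro _ ⟨x, -, rfl⟩
    exact x.2
  have hmemK₁ : ∀ a : ↥τ.ker, (a : Y) ∈ K'.map τ.ker.subtype ↔ a ∈ K' := by
    intro a
    constructor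
    · rintro ⟨x, hx, hxa⟩
      have h2 : x = a := Subtype.ext hxa
      rw [← h2]
      exact hx
    · intro h
      exact ⟨a, h, rfl⟩
  haveI hK₁n : (K'.map τ.ker.subtype).Normal := by
    constructor
    intro n hn g
    have hc := Subgroup.mem_center_iff.mp (hτ.2.1 (hK₁A hn)) g
    rw [hc, mul_inv_cancel_right]
    exact hn
  obtain ⟨z₀, hz₀⟩ : ∃ a : ↥τ.ker, a ∉ K' := by
    by_contra hall
    push_neg at hall
    have h2 : K' = ⊤ := eq_top_iff.mpr fun a _ => hall a
    rw [h2, Subgroup.index_top] at hidx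
    omega
  have hz1 : (QuotientGroup.mk (z₀ : Y) : Y ⧸ K'.map τ.ker.subtype) ≠ 1 := by
    intro h
    rw [QuotientGroup.eq_one_iff] at h
    exact hz₀ ((hmemK₁ z₀).mp h)
  have hτmk : ∀ y : Y, (M12V.Gam.subtype.comp
      (QuotientGroup.lift (K'.map τ.ker.subtype) τ (fun x hx => hK₁A hx)))
        (QuotientGroup.mk y) = (M12V.Gam.subtype.comp τ) y := fun y => rfl
  have hkerq : ∀ q : Y ⧸ K'.map τ.ker.subtype, (M12V.Gam.subtype.comp
      (QuotientGroup.lift (K'.map τ.ker.subtype) τ (fun x hx => hK₁A hx))) q = 1 →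
      q = 1 ∨ q = QuotientGroup.mk (z₀ : Y) := by
    intro q hq
    obtain ⟨y, rfl⟩ := QuotientGroup.mk_surjective q
    have hy : y ∈ τ.ker := (hker' y).mp hq
    by_cases hyK : (⟨y, hy⟩ : ↥τ.ker) ∈ K'
    · left
      exact (QuotientGroup.eq_one_iff y).mpr ((hmemK₁ ⟨y, hy⟩).mpr hyK)
    · right
      rw [QuotientGroup.eq]
      have h1 : (⟨y, hy⟩ : ↥τ.ker)⁻¹ * z₀ ∈ K' := by
        rw [Subgroup.mul_mem_iff_of_index_two hidx]
        constructor
        · intro h
          exact absurd (K'.inv_mem_iff.mp h) hyK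
        · intro h
          exact absurd h hz₀
      exact (hmemK₁ _).mpr h1
  have hzk : (M12V.Gam.subtype.comp
      (QuotientGroup.lift (K'.map τ.ker.subtype) τ (fun x hx => hK₁A hx)))
        (QuotientGroup.mk (z₀ : Y)) = 1 := (hker' _).mpr z₀.2
  have hzcomm : (QuotientGroup.mk (z₀ : Y) : Y ⧸ K'.map τ.ker.subtype)
      ∈ commutator (Y ⧸ K'.map τ.ker.subtype) := by
    rw [← map_commutator_of_surjective (QuotientGroup.mk' (K'.map τ.ker.subtype))
      (QuotientGroup.mk'_surjective _)]
    exact ⟨z₀, hτ.2.2 z₀.2, rfl⟩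
  have hrange : (M12V.Gam.subtype.comp
      (QuotientGroup.lift (K'.map τ.ker.subtype) τ (fun x hx => hK₁A hx))).range
        = M12V.Gam := by
    ext σ
    constructor
    · rintro ⟨q, rfl⟩
      exact (QuotientGroup.lift (K'.map τ.ker.subtype) τ (fun x hx => hK₁A hx) q).2
    · intro hσ
      obtain ⟨y, hy⟩ := hτ.1 ⟨σ, hσ⟩
      exact ⟨QuotientGroup.mk y, by rw [hτmk, MonoidHom.comp_apply, hy]; rfl⟩
  have hcen : (M12V.Gam.subtype.comp
      (QuotientGroup.lift (K'.map τ.ker.subtype) τ (fun x hx => hK₁A hx))).ker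
        ≤ Subgroup.center (Y ⧸ K'.map τ.ker.subtype) := by
    intro q hq
    rw [Subgroup.mem_center_iff]
    intro g
    obtain ⟨y, rfl⟩ := QuotientGroup.mk_surjective q
    obtain ⟨g', rfl⟩ := QuotientGroup.mk_surjective g
    have hy : y ∈ τ.ker := (hker' y).mp (MonoidHom.mem_ker.mp hq)
    have hc := Subgroup.mem_center_iff.mp (hτ.2.1 hy) g'
    rw [← QuotientGroup.mk_mul, ← QuotientGroup.mk_mul, hc]
  refine M12V.sign_Gam _ _ hz1 hkerq hzk
    ⁅M12V.Hh.comap (M12V.Gam.subtype.comp
      (QuotientGroup.lift (K'.map τ.ker.subtype) τ (fun x hx => hK₁A hx))),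
     M12V.Hh.comap (M12V.Gam.subtype.comp
      (QuotientGroup.lift (K'.map τ.ker.subtype) τ (fun x hx => hK₁A hx)))⁆
    ?_ ?_ hrange hzcomm
  · intro s hs h1
    exact M23S.comm_comap_inf_ker M12V.Hh mult_Hh _
      (by rw [hrange]; exact M12V.Hh_le) hcen s hs h1
  · rw [Subgroup.map_commutator, Subgroup.map_comap_eq, hrange,
      inf_eq_right.mpr M12V.Hh_le, ← Subgroup.map_subtype_commutator, Hh_perfect,
      ← MonoidHom.range_eq_map, Subgroup.range_subtype]

/-- the Schur multiplier of the double cover is trivial -/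
theorem mult_Gam : HasCyclicSchurMultiplier ↥M12V.Gam 1 :=
  hasCyclicSchurMultiplier_one_of core

/-- the Schur multiplier of `M12` is cyclic of order two -/
theorem mult_M12 : HasCyclicSchurMultiplier ↥Spor.M12 2 := by
  haveI : Fact (Nat.Prime 2) := ⟨Nat.prime_two⟩
  have hcard' : Nat.card (Multiplicative (ZMod 2)) = 2 := by
    rw [Nat.card_eq_fintype_card, Fintype.card_multiplicative, ZMod.card]
  exact hasSchurMultiplier_of_stem_of_trivial M12V.sig M12V.sig_stem mult_Gam
    (mulEquivOfPrimeCardEq M12V.card_ker hcard')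

end Cfsg.Agent.Lib.Helper7.M12S
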