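import Mathlib
import Cfsg.Agent.Lib.Helper86.MathieuOrders

set_option autoImplicit false

/-! # Monomial covers of `M22`

A *monomial structure* on `Fin n`: a fixed point free permutation `zeta` whose cycles are the
blocks, a colouring of the points of the Golay code attached to every block, and a relation `E`
between points that pairs the blocks along a connected graph.  The pairs `(ρ, π)`, with `π` in
`M22` and `ρ` commuting with `zeta`, compatible with the colouring and preserving `E`, form a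
group that projects to `M22` with kernel generated by `zeta`. -/

namespace Cfsg.Agent.Lib.Helper7.Mono

open Cfsg

/-- bounded universal quantifier as a Boolean -/
def allN (n : ℕ) (f : ℕ → Bool) : Bool := Nat.rec true (fun _ ih => ih && f ‹ℕ›) n

theorem allN_succ (n : ℕ) (f : ℕ → Bool) : allN (n + 1) f = (allN n f && f n) := rfl

theorem allN_spec (n : ℕ) (f : ℕ → Bool) (h : allN n f = true) : ∀ k < n, f k = true := by
  induction n with
  | zero => intro k hk; omega
  | succ n ih =>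
    rw [allN_succ, Bool.and_eq_true] at h
    intro k hk
    rcases Nat.lt_succ_iff_lt_or_eq.mp hk with hk | rfl
    · exact ih h.1 k hk
    · exact h.2

theorem inv_eq_pow {G : Type*} [Group G] [Finite G] (a : G) : a⁻¹ = a ^ (orderOf a - 1) := by
  have h := pow_orderOf_eq_one a
  have hpos : 0 < orderOf a := orderOf_pos a
  apply inv_eq_of_mul_eq_one_right
  rw [← pow_succ', Nat.sub_add_cancel hpos, h]

/-- a monomial structure on `Fin n` -/
structure MS (n : ℕ) where
  /-- the generator of the kernel -/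
  zeta : Equiv.Perm (Fin n)
  /-- the block of a point -/
  blk : Fin n → ℕ
  /-- the colouring of the Golay points attached to (the block of) a point -/
  col : Fin n → GolayPt → ℕ
  /-- the pairing relation -/
  E : Fin n → Fin n → Prop
  /-- depth of a block in a spanning tree -/
  bdep : ℕ → ℕ
  /-- a point of the block `0` -/
  x0 : Fin n
  blk_x0 : blk x0 = 0
  blk_zeta : ∀ x, blk (zeta x) = blk x
  col_zeta : ∀ x q, col (zeta x) q = col x q
  reg : ∀ x y, blk x = blk y → ∃ k : ℕ, y = (zeta ^ k) x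
  free : ∀ (j k : ℕ) (y : Fin n), (zeta ^ j) y = (zeta ^ k) y → zeta ^ j = zeta ^ k
  col_inj : ∀ x y, (∀ q, col x q = col y q) → blk x = blk y
  E_zeta : ∀ x y, E x y → E (zeta x) (zeta y)
  E_uniq : ∀ x y y', E x y → E x y' → blk y = blk y' → y = y'
  tree : ∀ x, blk x ≠ 0 → ∃ x' y, blk x' = blk x ∧ bdep (blk y) < bdep (blk x) ∧ E x' y

variable {n : ℕ} (M : MS n)

theorem MS.blk_pow (k : ℕ) (x : Fin n) : M.blk ((M.zeta ^ k) x) = M.blk x := by
  induction k with
  | zero => rfl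
  | succ k ih => rw [pow_succ', Equiv.Perm.mul_apply, M.blk_zeta, ih]

theorem MS.E_pow (k : ℕ) {x y : Fin n} (h : M.E x y) : M.E ((M.zeta ^ k) x) ((M.zeta ^ k) y) := by
  induction k with
  | zero => exact h
  | succ k ih =>
    rw [pow_succ', Equiv.Perm.mul_apply, Equiv.Perm.mul_apply]
    exact M.E_zeta _ _ ih

/-- a permutation commuting with `zeta`, fixing the blocks and preserving the pairing is a power
of `zeta` -/
theorem MS.ker_zeta (ρ : Equiv.Perm (Fin n)) (hc : ∀ x, ρ (M.zeta x) = M.zeta (ρ x))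
    (hb : ∀ x, M.blk (ρ x) = M.blk x) (hE : ∀ x y, M.E x y → M.E (ρ x) (ρ y)) :
    ∃ k : ℕ, ρ = M.zeta ^ k := by
  have hcp : ∀ (j : ℕ) (x : Fin n), ρ ((M.zeta ^ j) x) = (M.zeta ^ j) (ρ x) := by
    intro j
    induction j with
    | zero => intro x; rfl
    | succ j ih =>
      intro x
      rw [pow_succ', Equiv.Perm.mul_apply, Equiv.Perm.mul_apply, hc, ih]
  obtain ⟨k₀, hk₀⟩ := M.reg M.x0 (ρ M.x0) (hb M.x0).symm
  refine ⟨k₀, ?_⟩
  have hswap : ∀ (j : ℕ) (x : Fin n), (M.zeta ^ j) ((M.zeta ^ k₀) x) = (M.zeta ^ k₀) ((M.zeta ^ j) x) := by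
    intro j x
    rw [← Equiv.Perm.mul_apply, ← Equiv.Perm.mul_apply, ← pow_add, ← pow_add, add_comm]
  have key : ∀ d : ℕ, ∀ x : Fin n, M.bdep (M.blk x) = d → ρ x = (M.zeta ^ k₀) x := by
    intro d
    induction d using Nat.strong_induction_on with
    | _ d ih =>
      intro x hx
      by_cases h0 : M.blk x = 0
      · obtain ⟨j, hj⟩ := M.reg M.x0 x (by rw [M.blk_x0, h0])
        rw [hj, hcp, hk₀, hswap]
      · obtain ⟨x', y, hbx, hdep, hE'⟩ := M.tree x h0
        have hy : ρ y = (M.zeta ^ k₀) y := ih _ (by rw [← hx]; exact hdep) y rfl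
        obtain ⟨k, hk⟩ := M.reg x' (ρ x') (hb x').symm
        have h1 : M.E ((M.zeta ^ k) x') ((M.zeta ^ k₀) y) := by
          have h := hE x' y hE'
          rwa [hk, hy] at h
        have h2 : M.E ((M.zeta ^ k) x') ((M.zeta ^ k) y) := M.E_pow k hE'
        have h3 : (M.zeta ^ k₀) y = (M.zeta ^ k) y :=
          M.E_uniq _ _ _ h1 h2 (by rw [M.blk_pow, M.blk_pow])
        have h4 : M.zeta ^ k₀ = M.zeta ^ k := M.free _ _ y h3
        obtain ⟨j, hj⟩ := M.reg x' x hbx
        rw [hj, hcp, hk, ← h4, hswap]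
  apply Equiv.ext
  intro x
  exact key _ x rfl

/-- the ambient group -/
abbrev PP (n : ℕ) : Type := Equiv.Perm (Fin n) × Equiv.Perm GolayPt

/-- the cover, as a submonoid -/
def GamM : Submonoid (PP n) where
  carrier := {g | g.2 ∈ Spor.M22 ∧ (∀ x, g.1 (M.zeta x) = M.zeta (g.1 x)) ∧
    (∀ x q, M.col (g.1 x) (g.2 q) = M.col x q) ∧ ∀ x y, M.E x y → M.E (g.1 x) (g.1 y)}
  mul_mem' := by
    rintro a b ⟨ha1, ha2, ha3, ha4⟩ ⟨hb1, hb2, hb3, hb4⟩
    refine ⟨Spor.M22.mul_mem ha1 hb1, fun x => ?_, fun x q => ?_, fun x y h => ?_⟩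
    · show a.1 (b.1 (M.zeta x)) = M.zeta (a.1 (b.1 x))
      rw [hb2, ha2]
    · show M.col (a.1 (b.1 x)) (a.2 (b.2 q)) = M.col x q
      rw [ha3, hb3]
    · exact ha4 _ _ (hb4 _ _ h)
  one_mem' := ⟨Spor.M22.one_mem, fun _ => rfl, fun _ _ => rfl, fun _ _ h => h⟩

/-- the cover -/
def Gam : Subgroup (PP n) where
  toSubmonoid := GamM M
  inv_mem' := by
    intro a ha
    rw [inv_eq_pow a]
    exact (GamM M).pow_mem ha _

theorem mem_Gam {g : PP n} : g ∈ Gam M ↔ g.2 ∈ Spor.M22 ∧
    (∀ x, g.1 (M.zeta x) = M.zeta (g.1 x)) ∧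
    (∀ x q, M.col (g.1 x) (g.2 q) = M.col x q) ∧ ∀ x y, M.E x y → M.E (g.1 x) (g.1 y) := Iff.rfl

/-- the projection onto `M22` -/
def sig : ↥(Gam M) →* ↥Spor.M22 where
  toFun g := ⟨g.1.2, g.2.1⟩
  map_one' := rfl
  map_mul' _ _ := rfl

theorem sig_val (g : ↥(Gam M)) : (sig M g : Equiv.Perm GolayPt) = g.1.2 := rfl

/-- the generator of the kernel -/
def zetaG : ↥(Gam M) :=
  ⟨(M.zeta, 1), Spor.M22.one_mem, fun _ => rfl, fun x q => M.col_zeta x q,
    fun x y h => M.E_zeta x y h⟩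

theorem zetaG_pow_val (k : ℕ) : ((zetaG M ^ k : ↥(Gam M)) : PP n) = (M.zeta ^ k, 1) := by
  rw [Subgroup.coe_pow]
  show (M.zeta, (1 : Equiv.Perm GolayPt)) ^ k = _
  rw [Prod.pow_mk, one_pow]

theorem sig_zetaG : sig M (zetaG M) = 1 := Subtype.ext rfl

theorem ker_sig (g : ↥(Gam M)) (hg : sig M g = 1) : ∃ k : ℕ, g = zetaG M ^ k := by
  have h2 : g.1.2 = 1 := congrArg Subtype.val hg
  obtain ⟨-, hc, hcol, hE⟩ := g.2
  have hb : ∀ x, M.blk (g.1.1 x) = M.blk x := by
    intro x
    apply M.col_inj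
    intro q
    have h := hcol x q
    rwa [h2, Equiv.Perm.one_apply] at h
  obtain ⟨k, hk⟩ := M.ker_zeta g.1.1 hc hb hE
  refine ⟨k, Subtype.ext ?_⟩
  rw [zetaG_pow_val]
  exact Prod.ext hk h2

theorem zetaG_central (g : ↥(Gam M)) : g * zetaG M = zetaG M * g := by
  apply Subtype.ext
  apply Prod.ext
  · apply Equiv.ext
    intro x
    show g.1.1 (M.zeta x) = M.zeta (g.1.1 x)
    exact g.2.2.1 x
  · show g.1.2 * 1 = 1 * g.1.2
    rw [mul_one, one_mul]

theorem ker_le_center : (sig M).ker ≤ Subgroup.center ↥(Gam M) := by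
  intro g hg
  obtain ⟨k, rfl⟩ := ker_sig M g hg
  rw [Subgroup.mem_center_iff]
  intro h
  exact ((show Commute h (zetaG M) from zetaG_central M h).pow_right k).eq

theorem ker_eq : (sig M).ker = Subgroup.zpowers (zetaG M) := by
  apply le_antisymm
  · intro g hg
    obtain ⟨k, rfl⟩ := ker_sig M g hg
    exact Subgroup.pow_mem _ (Subgroup.mem_zpowers _) k
  · rw [Subgroup.zpowers_le]
    exact sig_zetaG M

theorem orderOf_zetaG : orderOf (zetaG M) = orderOf M.zeta := by
  rw [orderOf_eq_orderOf_iff]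
  intro k
  constructor
  · intro h
    have h1 := congrArg Subtype.val h
    rw [zetaG_pow_val] at h1
    exact congrArg Prod.fst h1
  · intro h
    apply Subtype.ext
    rw [zetaG_pow_val, h]
    rfl

theorem card_ker : Nat.card (sig M).ker = orderOf M.zeta := by
  rw [ker_eq, Nat.card_zpowers, orderOf_zetaG]

theorem card_Gam : Nat.card ↥(Gam M) = orderOf M.zeta * Nat.card (sig M).range := by
  rw [← card_ker, ← Subgroup.index_ker, Subgroup.card_mul_index]

end Cfsg.Agent.Lib.Helper7.Mono
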