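import Mathlib
import Cfsg.Agent.Lib.Helper7.Mono
import Cfsg.Agent.Lib.Helper7.M12Cover

set_option autoImplicit false

/-! # Permutations of `Fin n` given by tables of natural numbers -/

namespace Cfsg.Agent.Lib.Helper7.MTab

open Cfsg Cfsg.Agent.Lib.Helper7

/-- a permutation of `Fin n` from two mutually inverse tables -/
def mkPerm (n : ℕ) (f g : ℕ → ℕ) (hf : ∀ x < n, f x < n ∧ g (f x) = x)
    (hg : ∀ x < n, g x < n ∧ f (g x) = x) : Equiv.Perm (Fin n) where
  toFun x := ⟨f x, (hf x x.2).1⟩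
  invFun x := ⟨g x, (hg x x.2).1⟩
  left_inv x := Fin.ext (hf x x.2).2
  right_inv x := Fin.ext (hg x x.2).2

/-- the action of a permutation of `Fin n` on the natural numbers -/
def ap {n : ℕ} (σ : Equiv.Perm (Fin n)) (x : ℕ) : ℕ := if h : x < n then (σ ⟨x, h⟩ : ℕ) else x

variable {n : ℕ}

theorem ap_of_lt (σ : Equiv.Perm (Fin n)) {x : ℕ} (hx : x < n) : ap σ x = (σ ⟨x, hx⟩ : ℕ) := by
  unfold ap
  rw [dif_pos hx]

theorem ap_val (σ : Equiv.Perm (Fin n)) (x : Fin n) : ap σ (x : ℕ) = (σ x : ℕ) := by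
  rw [ap_of_lt σ x.2]

theorem ap_lt (σ : Equiv.Perm (Fin n)) {x : ℕ} (hx : x < n) : ap σ x < n := by
  rw [ap_of_lt σ hx]
  exact (σ ⟨x, hx⟩).2

theorem ap_mul (σ τ : Equiv.Perm (Fin n)) (x : ℕ) : ap (σ * τ) x = ap σ (ap τ x) := by
  by_cases hx : x < n
  · rw [ap_of_lt _ hx, ap_of_lt τ hx, ap_val]
    rfl
  · unfold ap
    rw [dif_neg hx, dif_neg hx, dif_neg hx]

theorem ap_one (x : ℕ) : ap (1 : Equiv.Perm (Fin n)) x = x := by
  unfold ap
  split_ifs <;> rfl

theorem ap_mkPerm (f g : ℕ → ℕ) (hf : ∀ x < n, f x < n ∧ g (f x) = x)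
    (hg : ∀ x < n, g x < n ∧ f (g x) = x) {x : ℕ} (hx : x < n) :
    ap (mkPerm n f g hf hg) x = f x := by
  rw [ap_of_lt _ hx]
  rfl

theorem ap_mkPerm_inv (f g : ℕ → ℕ) (hf : ∀ x < n, f x < n ∧ g (f x) = x)
    (hg : ∀ x < n, g x < n ∧ f (g x) = x) {x : ℕ} (hx : x < n) :
    ap (mkPerm n f g hf hg)⁻¹ x = g x := by
  rw [ap_of_lt _ hx]
  rfl

theorem ext_ap {σ τ : Equiv.Perm (Fin n)} (h : ∀ x < n, ap σ x = ap τ x) : σ = τ := by
  apply Equiv.ext
  intro x
  apply Fin.ext
  rw [← ap_val, ← ap_val]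
  exact h x x.2

theorem ap_inj (σ : Equiv.Perm (Fin n)) {x y : ℕ} (hx : x < n) (hy : y < n)
    (h : ap σ x = ap σ y) : x = y := by
  rw [ap_of_lt _ hx, ap_of_lt _ hy] at h
  have h2 := σ.injective (Fin.ext h)
  exact congrArg Fin.val h2

theorem ap_inv_of (σ : Equiv.Perm (Fin n)) {x y : ℕ} (hx : x < n) (h : ap σ x = y) :
    ap σ⁻¹ y = x := by
  rw [← h, ← ap_mul, inv_mul_cancel, ap_one]

/-- sum of the first `n` digits in base four -/
def sumN (f : ℕ → ℕ) (n : ℕ) : ℕ := Nat.rec 0 (fun k ih => ih + f k * 4 ^ k) n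

theorem sumN_congr (f g : ℕ → ℕ) (n : ℕ) (h : ∀ k < n, f k = g k) : sumN f n = sumN g n := by
  induction n with
  | zero => rfl
  | succ n ih =>
    show sumN f n + f n * 4 ^ n = sumN g n + g n * 4 ^ n
    rw [ih (fun k hk => h k (by omega)), h n (by omega)]

/-- a sequence that increases at every step is injective -/
theorem inj_of_step (s : ℕ → ℕ) (n : ℕ) (h : ∀ B, B + 1 < n → s B < s (B + 1)) :
    ∀ B C, B < n → C < n → s B = s C → B = C := by
  have mono : ∀ C, C < n → ∀ B, B < C → s B < s C := by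
    intro C
    induction C with
    | zero => intro _ B hB; omega
    | succ C ih =>
      intro hC B hB
      rcases Nat.lt_succ_iff_lt_or_eq.mp hB with h1 | rfl
      · exact lt_trans (ih (by omega) B h1) (h C hC)
      · exact h B hC
  intro B C hB hC he
  rcases Nat.lt_trichotomy B C with h1 | h1 | h1
  · have := mono C hC B h1
    omega
  · exact h1
  · have := mono B hB C h1
    omega

/-- evaluate the first argument before it is used (for kernel computations) -/
def force {α : Type} (c : ℕ) (F : ℕ → α) : α := Nat.rec (F 0) (fun k _ => F (k + 1)) c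

theorem force_eq {α : Type} (c : ℕ) (F : ℕ → α) : force c F = F c := by
  cases c <;> rfl

/-- bounded universal quantifier over `a * b` numbers, as a double loop -/
def allN2 (a b : ℕ) (f : ℕ → Bool) : Bool :=
  Mono.allN a (fun i => Mono.allN b (fun j => f (b * i + j)))

theorem allN2_spec (a b : ℕ) (f : ℕ → Bool) (h : allN2 a b f = true) :
    ∀ k < a * b, f k = true := by
  intro k hk
  rcases Nat.eq_zero_or_pos b with rfl | hb
  · omega
  have h1 : k / b < a := by
    rw [Nat.div_lt_iff_lt_mul hb]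
    exact hk
  have h2 := Mono.allN_spec _ _ (Mono.allN_spec _ _ h (k / b) h1) (k % b) (Nat.mod_lt _ hb)
  rw [Nat.div_add_mod] at h2
  exact h2

end Cfsg.Agent.Lib.Helper7.MTab
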