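import Mathlib
import Cfsg.Agent.Lib.Helper7.MonoTab
import Cfsg.Agent.Lib.Helper7.M23Perm
import Cfsg.Agent.Lib.Helper7.M22Data3

set_option autoImplicit false
set_option maxRecDepth 100000

/-! # A triple cover of `M22` as a group of monomial permutations

Data produced by a computer search: the action of three generators on the 693 points (blocks of
size 3), the colouring of the Golay points attached to the blocks, and a pairing of the blocks
with phases.  Everything is checked by kernel computation. -/

namespace Cfsg.Agent.Lib.Helper7.M22T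

open Cfsg Cfsg.Agent.Lib.Helper7 Cfsg.Agent.Lib.Helper7.Mono Cfsg.Agent.Lib.Helper7.MTab
open Cfsg.Agent.Lib.Helper6.M12 (tabPermD)
open Cfsg.Agent.Lib.Helper6.M24 (tabValid)
open Cfsg.Agent.Lib.Helper7.M12V (g3 lets3 rep3 repT_evY3 repT_letY3 idx_tabD g3_ge)
open Cfsg.Agent.Lib.Helper7.M23P (repT_tab)
open scoped commutatorElement

theorem E_ok_2_0 : Echk 2 0 = true := by decide +kernel
theorem E_ok_2_1 : Echk 2 1 = true := by decide +kernel
theorem E_ok_2_2 : Echk 2 2 = true := by decide +kernel

end Cfsg.Agent.Lib.Helper7.M22T
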