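import Mathlib
import Cfsg.Agent.Lib.Helper7.MonoTab
import Cfsg.Agent.Lib.Helper7.M23Perm
import Cfsg.Agent.Lib.Helper7.M22E4a
import Cfsg.Agent.Lib.Helper7.M22E4b
import Cfsg.Agent.Lib.Helper7.M22E4c

set_option autoImplicit false
set_option maxRecDepth 100000

/-! # A fourfold cover of `M22` as a group of monomial permutations

Data produced by a computer search: the action of three generators on the 4928 points (blocks of
size 4), the colouring of the Golay points attached to the blocks, and a pairing of the blocks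
with phases.  Everything is checked by kernel computation. -/

namespace Cfsg.Agent.Lib.Helper7.M22Q

open Cfsg Cfsg.Agent.Lib.Helper7 Cfsg.Agent.Lib.Helper7.Mono Cfsg.Agent.Lib.Helper7.MTab
open Cfsg.Agent.Lib.Helper6.M12 (tabPermD)
open Cfsg.Agent.Lib.Helper6.M24 (tabValid)
open Cfsg.Agent.Lib.Helper7.M12V (g3 lets3 rep3 repT_evY3 repT_letY3 idx_tabD g3_ge)
open Cfsg.Agent.Lib.Helper7.M23P (repT_tab)
open scoped commutatorElement


theorem E_all : ∀ j < 3, ∀ k < 16, Echk j k = true := by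
  intro j hj k hk
  interval_cases j <;> interval_cases k
  · exact E_ok_0_0
  · exact E_ok_0_1
  · exact E_ok_0_2
  · exact E_ok_0_3
  · exact E_ok_0_4
  · exact E_ok_0_5
  · exact E_ok_0_6
  · exact E_ok_0_7
  · exact E_ok_0_8
  · exact E_ok_0_9
  · exact E_ok_0_10
  · exact E_ok_0_11
  · exact E_ok_0_12
  · exact E_ok_0_13
  · exact E_ok_0_14
  · exact E_ok_0_15
  · exact E_ok_1_0
  · exact E_ok_1_1
  · exact E_ok_1_2
  · exact E_ok_1_3
  · exact E_ok_1_4
  · exact E_ok_1_5
  · exact E_ok_1_6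
  · exact E_ok_1_7
  · exact E_ok_1_8
  · exact E_ok_1_9
  · exact E_ok_1_10
  · exact E_ok_1_11
  · exact E_ok_1_12
  · exact E_ok_1_13
  · exact E_ok_1_14
  · exact E_ok_1_15
  · exact E_ok_2_0
  · exact E_ok_2_1
  · exact E_ok_2_2
  · exact E_ok_2_3
  · exact E_ok_2_4
  · exact E_ok_2_5
  · exact E_ok_2_6
  · exact E_ok_2_7
  · exact E_ok_2_8
  · exact E_ok_2_9
  · exact E_ok_2_10
  · exact E_ok_2_11
  · exact E_ok_2_12
  · exact E_ok_2_13
  · exact E_ok_2_14
  · exact E_ok_2_15

theorem E_ok (j : ℕ) (hj : j < 3) (B : ℕ) (hB : B < 1232) (C : ℕ) (hC : C < 1232) :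
    Ebody j B C = true := by
  have h := allN_spec _ _ (allN_spec _ _ (E_all j hj (B / 77) (by omega)) (B % 77) (by omega))
    C hC
  have e : 77 * (B / 77) + B % 77 = B := by omega
  rw [e] at h
  exact h

theorem tp_ok : allN 3 (fun j => Cfsg.Agent.Lib.Helper86.m22Tab (tp j)) = true := by
  decide +kernel

theorem tb_eq (j : ℕ) (hj : j < 3) (x : ℕ) (hx : x < 4928) :
    tb (2 * j) x = 4 * (tb (2 * j) (4 * (x / 4)) / 4)
      + (tb (2 * j) (4 * (x / 4)) % 4 + x % 4) % 4 := by
  have h := eq_of_beq (allN_spec _ _ (allN_spec _ _ (allN_spec _ _ equi_ok j hj) (x / 4)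
    (by omega)) (x % 4) (by omega))
  have e : 4 * (x / 4) + x % 4 = x := by omega
  rw [e] at h
  exact h

theorem γ_mem (j : ℕ) : γ j ∈ Gam MM := by
  by_cases hj : j < 3
  · obtain ⟨ρ, hρ⟩ : ∃ ρ, ρ = mkPerm 4928 (tb (2 * j)) (tb (2 * j + 1)) (perm_f j hj)
      (perm_g j hj) := ⟨_, rfl⟩
    have hγ : γ j = (ρ, tabPermD (tp j)) := by
      unfold γ
      rw [dif_pos hj, hρ]
    have hap : ∀ x : Fin 4928, (ρ x : ℕ) = tb (2 * j) x := by
      intro x
      rw [hρ]
      rfl
    have htp := Cfsg.Agent.Lib.Helper86.m22Tab_spec (tp j) (allN_spec _ _ tp_ok j hj)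
    rw [hγ, mem_Gam]
    refine ⟨htp.2, ?_, ?_, ?_⟩
    · intro x
      apply Fin.ext
      show (ρ (zeta x) : ℕ) = (zeta (ρ x) : ℕ)
      have hx := x.2
      have hz : zt x < 4928 := (zt_ok x hx).1
      rw [hap, zeta_val, zeta_val, hap, tb_eq j hj _ hz, tb_eq j hj _ hx]
      have e1 : zt x / 4 = (x : ℕ) / 4 := by
        unfold zt
        omega
      have e2 : zt x % 4 = ((x : ℕ) % 4 + 1) % 4 := by
        unfold zt
        omega
      rw [e1, e2]
      unfold zt
      omega
    · intro x q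
      show cl ((ρ x : ℕ) / 4) (idx (tabPermD (tp j) q)) = cl ((x : ℕ) / 4) (idx q)
      rw [hap, idx_tabD htp.1, tb_eq j hj _ x.2]
      have e : (4 * (tb (2 * j) (4 * ((x : ℕ) / 4)) / 4)
          + (tb (2 * j) (4 * ((x : ℕ) / 4)) % 4 + (x : ℕ) % 4) % 4) / 4
          = tb (2 * j) (4 * ((x : ℕ) / 4)) / 4 := by omega
      rw [e]
      have hx := x.2
      exact eq_of_beq (allN_spec _ _ (allN_spec _ _ (allN_spec _ _ col_ok j hj)
        ((x : ℕ) / 4) (by omega)) (idx q) (idx_lt q))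
    · intro x y h
      have h' : adj ((x : ℕ) / 4) ((y : ℕ) / 4)
          = ((y : ℕ) % 4 + 4 - (x : ℕ) % 4) % 4 + 1 := h
      show adj ((ρ x : ℕ) / 4) ((ρ y : ℕ) / 4)
          = ((ρ y : ℕ) % 4 + 4 - (ρ x : ℕ) % 4) % 4 + 1
      have hx := x.2
      have hy := y.2
      rw [hap, hap, tb_eq j hj _ hx, tb_eq j hj _ hy]
      have hE := E_ok j hj ((x : ℕ) / 4) (by omega) ((y : ℕ) / 4) (by omega)
      unfold Ebody at hE
      rw [Bool.or_eq_true] at hE
      rcases hE with hE | hE
      · have h0 := eq_of_beq hE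
        omega
      · have hE' := eq_of_beq hE
        obtain ⟨tB, htB⟩ : ∃ t, t = tb (2 * j) (4 * ((x : ℕ) / 4)) := ⟨_, rfl⟩
        obtain ⟨tC, htC⟩ : ∃ t, t = tb (2 * j) (4 * ((y : ℕ) / 4)) := ⟨_, rfl⟩
        rw [← htB, ← htC] at hE' ⊢
        have e1 : (4 * (tB / 4) + (tB % 4 + (x : ℕ) % 4) % 4) / 4 = tB / 4 := by
          omega
        have e2 : (4 * (tC / 4) + (tC % 4 + (y : ℕ) % 4) % 4) / 4 = tC / 4 := by
          omega
        rw [e1, e2, hE']
        omega
  · rw [γ_ge j (by omega)]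
    exact (Gam MM).one_mem

theorem letY_mem (l : ℕ) : CS.letY γ l ∈ Gam MM := by
  unfold CS.letY
  split_ifs
  · exact γ_mem _
  · exact (Gam MM).inv_mem (γ_mem _)

theorem evY_mem (w : List ℕ) : CS.evY γ w ∈ Gam MM := by
  induction w with
  | nil => exact (Gam MM).one_mem
  | cons l w ih =>
    rw [CS.evY_cons]
    exact (Gam MM).mul_mem (letY_mem l) ih

/-! ### evaluation of words -/

/-- action of a word on a point -/
def wact : List ℕ → ℕ → ℕ
  | [], x => x
  | l :: w, x => tb l (wact w x)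

theorem tb_lt (l : ℕ) (hl : l < 6) (x : ℕ) (hx : x < 4928) : tb l x < 4928 := by
  have h := perm_f (l / 2) (by omega) x hx
  have h' := perm_g (l / 2) (by omega) x hx
  rcases Nat.mod_two_eq_zero_or_one l with e | e
  · have e2 : 2 * (l / 2) = l := by omega
    rw [e2] at h
    exact h.1
  · have e2 : 2 * (l / 2) + 1 = l := by omega
    rw [e2] at h'
    exact h'.1

theorem ap_letY (l : ℕ) (hl : l < 6) (x : ℕ) (hx : x < 4928) :
    ap (CS.letY γ l).1 x = tb l x := by
  have hj : l / 2 < 3 := by omega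
  have hγ : γ (l / 2) = (mkPerm 4928 (tb (2 * (l / 2))) (tb (2 * (l / 2) + 1)) (perm_f _ hj)
      (perm_g _ hj), tabPermD (tp (l / 2))) := by
    unfold γ
    rw [dif_pos hj]
  unfold CS.letY
  split_ifs with e
  · rw [hγ]
    show ap (mkPerm 4928 (tb (2 * (l / 2))) (tb (2 * (l / 2) + 1)) (perm_f _ hj)
      (perm_g _ hj)) x = tb l x
    rw [ap_mkPerm _ _ _ _ hx]
    congr 1
    omega
  · rw [hγ]
    show ap (mkPerm 4928 (tb (2 * (l / 2))) (tb (2 * (l / 2) + 1)) (perm_f _ hj)
      (perm_g _ hj))⁻¹ x = tb l x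
    rw [ap_mkPerm_inv _ _ _ _ hx]
    congr 1
    omega

theorem wact_lt (w : List ℕ) (hw : ∀ l ∈ w, l < 6) (x : ℕ) (hx : x < 4928) : wact w x < 4928 := by
  induction w with
  | nil => exact hx
  | cons l w ih =>
    exact tb_lt l (hw l List.mem_cons_self) _ (ih (fun l' hl' => hw l' (List.mem_cons_of_mem _ hl')))

theorem ap_evY (w : List ℕ) (hw : ∀ l ∈ w, l < 6) (x : ℕ) (hx : x < 4928) :
    ap (CS.evY γ w).1 x = wact w x := by
  induction w with
  | nil =>
    rw [CS.evY_nil]
    exact ap_one x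
  | cons l w ih =>
    have hw' : ∀ l' ∈ w, l' < 6 := fun l' hl' => hw l' (List.mem_cons_of_mem _ hl')
    rw [CS.evY_cons]
    show ap ((CS.letY γ l).1 * (CS.evY γ w).1) x = tb l (wact w x)
    rw [ap_mul, ih hw', ap_letY l (hw l List.mem_cons_self) _ (wact_lt w hw' x hx)]

/-- the Golay parts of the generators -/
noncomputable abbrev γP : ℕ → Equiv.Perm GolayPt :=
  g3 (tabPermD tp0) (tabPermD tp1) (tabPermD tp2)

theorem snd_γ (j : ℕ) : (γ j).2 = γP j := by
  by_cases hj : j < 3
  · interval_cases j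
    · unfold γ
      rw [dif_pos hj]
      rfl
    · unfold γ
      rw [dif_pos hj]
      rfl
    · unfold γ
      rw [dif_pos hj]
      rfl
  · have e : γP j = 1 := g3_ge _ _ _ j (by omega)
    rw [γ_ge j (by omega), e]
    rfl

theorem snd_evY (w : List ℕ) : (CS.evY γ w).2 = CS.evY γP w := by
  have h := CS.map_evY (MonoidHom.snd (Equiv.Perm (Fin 4928)) (Equiv.Perm GolayPt)) γ w
  have e : (fun j => (MonoidHom.snd (Equiv.Perm (Fin 4928)) (Equiv.Perm GolayPt)) (γ j)) = γP :=
    funext snd_γ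
  rw [e] at h
  exact h

/-- packed tables of the Golay parts of the generators -/
def TP0 : ℕ := 984114138898407632444829400561007648
/-- packed tables of the Golay parts of the generators -/
def TP1 : ℕ := 958842464338618565675501943998975136
/-- packed tables of the Golay parts of the generators -/
def TP2 : ℕ := 984479266648823544758666598026498528
/-- packed tables of the Golay parts of the six letters -/
def tabs6p : List ℕ := [984114138898407632444829400561007648, 984114138898407632444829400561007648, 958842464338618565675501943998975136, 979609092615834944598749881663838720, 984479266648823544758666598026498528, 984226925028241472009949056279618880]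

theorem tabs6p_eq : [TP0, invT TP0, TP1, invT TP1, TP2, invT TP2] = tabs6p := by decide +kernel

theorem rep_p : List.Forall₂ RepT (lets3 (tabPermD tp0) (tabPermD tp1) (tabPermD tp2)) tabs6p :=
  rep3 (repT_tab (by decide +kernel)) (repT_tab (by decide +kernel))
    (repT_tab (by decide +kernel)) tabs6p_eq

theorem repT_evY (w : List ℕ) : RepT (CS.evY γ w).2 (evalT tabs6p w) := by
  rw [snd_evY]
  exact repT_evY3 rep_p w

/-- elements of the cover with the same Golay part and the same image of one point are equal -/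
theorem Gam_ext {u v : PP 4928} (hu : u ∈ Gam MM) (hv : v ∈ Gam MM) (h2 : u.2 = v.2)
    (x : ℕ) (hx : x < 4928) (h1 : ap u.1 x = ap v.1 x) : u = v := by
  have hw : u⁻¹ * v ∈ Gam MM := (Gam MM).mul_mem ((Gam MM).inv_mem hu) hv
  have hs : sig MM ⟨u⁻¹ * v, hw⟩ = 1 := by
    apply Subtype.ext
    show u.2⁻¹ * v.2 = 1
    rw [h2, inv_mul_cancel]
  obtain ⟨k, hk⟩ := ker_sig MM _ hs
  have hk1 : u⁻¹ * v = (zeta ^ k, 1) := by
    have h := congrArg Subtype.val hk
    rw [zetaG_pow_val] at h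
    exact h
  have hk2 : u.1⁻¹ * v.1 = zeta ^ k := congrArg Prod.fst hk1
  have h3 : ap (zeta ^ k) x = x := by
    rw [← hk2, ap_mul, ← h1, ← ap_mul, inv_mul_cancel, ap_one]
  have h4 : zeta ^ k = 1 := by
    apply ext_ap
    intro y hy
    rw [ap_zeta_pow k y hy, ap_one]
    rw [ap_zeta_pow k x hx] at h3
    omega
  have h5 : u⁻¹ * v = 1 := by
    rw [hk1, h4]
    rfl
  exact inv_mul_eq_one.mp h5

/-- two words have the same value -/
def weq (w w' : List ℕ) : Bool :=
  w.all (fun l => decide (l < 6)) && w'.all (fun l => decide (l < 6)) &&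
    (evalT tabs6p w == evalT tabs6p w') && (wact w 0 == wact w' 0)

theorem evY_eq_of_weq {w w' : List ℕ} (h : weq w w' = true) : CS.evY γ w = CS.evY γ w' := by
  unfold weq at h
  rw [Bool.and_eq_true, Bool.and_eq_true, Bool.and_eq_true] at h
  obtain ⟨⟨⟨h1, h2⟩, h3⟩, h4⟩ := h
  have hw : ∀ l ∈ w, l < 6 := fun l hl => of_decide_eq_true (List.all_eq_true.mp h1 l hl)
  have hw' : ∀ l ∈ w', l < 6 := fun l hl => of_decide_eq_true (List.all_eq_true.mp h2 l hl)
  apply Gam_ext (evY_mem w) (evY_mem w') _ 0 (by norm_num)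
  · rw [ap_evY w hw 0 (by norm_num), ap_evY w' hw' 0 (by norm_num)]
    exact eq_of_beq h4
  · have a := repT_evY w
    rw [eq_of_beq h3] at a
    exact a.ext (repT_evY w')

theorem evY_eq_one_of_weq {w : List ℕ} (h : weq w [] = true) : CS.evY γ w = 1 := by
  rw [evY_eq_of_weq h, CS.evY_nil]

/-- a word evaluates to a power of the central element -/
def weqz (w : List ℕ) (k : ℕ) : Bool :=
  w.all (fun l => decide (l < 6)) && (evalT tabs6p w == idT) && (wact w 0 == k) &&
    decide (k < 4)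

theorem evY_eq_of_weqz {w : List ℕ} {k : ℕ} (h : weqz w k = true) :
    CS.evY γ w = ((zetaG MM ^ k : ↥(Gam MM)) : PP 4928) := by
  unfold weqz at h
  rw [Bool.and_eq_true, Bool.and_eq_true, Bool.and_eq_true] at h
  obtain ⟨⟨⟨h1, h2⟩, h3⟩, h4⟩ := h
  have hw : ∀ l ∈ w, l < 6 := fun l hl => of_decide_eq_true (List.all_eq_true.mp h1 l hl)
  have hk : k < 4 := of_decide_eq_true h4
  have hz : ((zetaG MM ^ k : ↥(Gam MM)) : PP 4928) = (zeta ^ k, 1) := zetaG_pow_val MM k
  apply Gam_ext (evY_mem w) (Subtype.property _) _ 0 (by norm_num)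
  · rw [ap_evY w hw 0 (by norm_num), hz]
    show wact w 0 = ap (zeta ^ k) 0
    rw [ap_zeta_pow k 0 (by norm_num), eq_of_beq h3]
    omega
  · rw [hz]
    have a := repT_evY w
    rw [eq_of_beq h2] at a
    exact a.ext repT_one

/-! ### words: commutators, powers -/

theorem comm_evY (u v : List ℕ) :
    ⁅CS.evY γ u, CS.evY γ v⁆ = CS.evY γ (u ++ v ++ CS.winv u ++ CS.winv v) := by
  rw [commutatorElement_def, CS.evY_append, CS.evY_append, CS.evY_append, CS.evY_winv,
    CS.evY_winv]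

/-- repetition of a word -/
def wrep (w : List ℕ) : ℕ → List ℕ
  | 0 => []
  | k + 1 => w ++ wrep w k

theorem evY_wrep (w : List ℕ) (k : ℕ) : CS.evY γ (wrep w k) = CS.evY γ w ^ k := by
  induction k with
  | zero =>
    rw [pow_zero]
    rfl
  | succ k ih =>
    show CS.evY γ (w ++ wrep w k) = _
    rw [CS.evY_append, ih, pow_succ']

/-- the value of a word, as an element of the cover -/
noncomputable def evG (w : List ℕ) : ↥(Gam MM) := ⟨CS.evY γ w, evY_mem w⟩

theorem evG_val (w : List ℕ) : ((evG w : ↥(Gam MM)) : PP 4928) = CS.evY γ w := rfl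

theorem evG_pow_of {w : List ℕ} {k : ℕ} (h : weq (wrep w k) [] = true) : evG w ^ k = 1 := by
  apply Subtype.ext
  rw [Subgroup.coe_pow, evG_val, ← evY_wrep, evY_eq_one_of_weq h]
  rfl

theorem evG_comm (u v : List ℕ) :
    ⁅evG u, evG v⁆ = evG (u ++ v ++ CS.winv u ++ CS.winv v) := by
  apply Subtype.ext
  show ⁅CS.evY γ u, CS.evY γ v⁆ = _
  rw [comm_evY]
  rfl

theorem evG_eq_of {w w' : List ℕ} (h : weq w w' = true) : evG w = evG w' :=
  Subtype.ext (evY_eq_of_weq h)

theorem evG_eq_zeta_of {w : List ℕ} {k : ℕ} (h : weqz w k = true) : evG w = zetaG MM ^ k :=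
  Subtype.ext (evY_eq_of_weqz h)

theorem evG_mem_comm (u v : List ℕ) : evG (u ++ v ++ CS.winv u ++ CS.winv v) ∈ commutator ↥(Gam MM) := by
  rw [← evG_comm, commutator_def]
  exact Subgroup.commutator_mem_commutator (Subgroup.mem_top _) (Subgroup.mem_top _)

/-! ### the kernel of the projection -/

theorem orderOf_zetaG' : orderOf (zetaG MM) = 4 := (orderOf_zetaG MM).trans orderOf_zeta

theorem card_ker' : Nat.card (sig MM).ker = 4 := (card_ker MM).trans orderOf_zeta

theorem zetaG_ne_one : zetaG MM ≠ 1 := by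
  intro h
  have h1 := orderOf_zetaG'
  rw [h, orderOf_one] at h1
  omega

theorem ker_pow (k : ↥(Gam MM)) (hk : k ∈ (sig MM).ker) : k ^ 4 = 1 := by
  obtain ⟨i, rfl⟩ := ker_sig MM k hk
  rw [← pow_mul, mul_comm, pow_mul, ← orderOf_zetaG', pow_orderOf_eq_one, one_pow]

theorem ker_le_comm_of {u v : List ℕ} (h : weqz (u ++ v ++ CS.winv u ++ CS.winv v) 1 = true) :
    (sig MM).ker ≤ commutator ↥(Gam MM) := by
  rw [ker_eq, Subgroup.zpowers_le]
  have e := evG_eq_zeta_of h
  rw [pow_one] at e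
  rw [← e]
  exact evG_mem_comm u v

theorem sig_γ (j : ℕ) (hj : j < 3) :
    ((sig MM ⟨γ j, γ_mem j⟩ : ↥Spor.M22) : Equiv.Perm GolayPt) = tabPermD (tp j) := by
  show (γ j).2 = _
  unfold γ
  rw [dif_pos hj]

/-- the Golay parts of the elements of the cover contain the closure of those of the generators -/
theorem exists_of_closure (m : Equiv.Perm GolayPt)
    (hm : m ∈ Subgroup.closure ({tabPermD tp0, tabPermD tp1, tabPermD tp2} : Set (Equiv.Perm GolayPt))) :
    ∃ g ∈ Gam MM, g.2 = m := by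
  have h : Subgroup.closure ({tabPermD tp0, tabPermD tp1, tabPermD tp2} : Set (Equiv.Perm GolayPt))
      ≤ (Gam MM).map (MonoidHom.snd (Equiv.Perm (Fin 4928)) (Equiv.Perm GolayPt)) := by
    rw [Subgroup.closure_le]
    rintro x (rfl | rfl | rfl)
    · exact ⟨γ 0, γ_mem 0, by unfold γ; rw [dif_pos (by norm_num)]; rfl⟩
    · exact ⟨γ 1, γ_mem 1, by unfold γ; rw [dif_pos (by norm_num)]; rfl⟩
    · exact ⟨γ 2, γ_mem 2, by unfold γ; rw [dif_pos (by norm_num)]; rfl⟩
  obtain ⟨g, hg, hgm⟩ := h hm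
  exact ⟨g, hg, hgm⟩

/-- the Golay parts of the closure of the generators lie in the closure of the Golay parts -/
theorem snd_mem_closure (g : PP 4928) (hg : g ∈ Subgroup.closure ({γ 0, γ 1, γ 2} : Set (PP 4928))) :
    g.2 ∈ Subgroup.closure ({tabPermD tp0, tabPermD tp1, tabPermD tp2} : Set (Equiv.Perm GolayPt)) := by
  have h : (Subgroup.closure ({γ 0, γ 1, γ 2} : Set (PP 4928))).map
      (MonoidHom.snd (Equiv.Perm (Fin 4928)) (Equiv.Perm GolayPt))
      = Subgroup.closure ({tabPermD tp0, tabPermD tp1, tabPermD tp2} : Set (Equiv.Perm GolayPt)) := by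
    rw [MonoidHom.map_closure]
    congr 1
    rw [Set.image_insert_eq, Set.image_insert_eq, Set.image_singleton]
    have e0 : (MonoidHom.snd (Equiv.Perm (Fin 4928)) (Equiv.Perm GolayPt)) (γ 0) = tabPermD tp0 := by
      show (γ 0).2 = _
      unfold γ
      rw [dif_pos (by norm_num)]
      rfl
    have e1 : (MonoidHom.snd (Equiv.Perm (Fin 4928)) (Equiv.Perm GolayPt)) (γ 1) = tabPermD tp1 := by
      show (γ 1).2 = _
      unfold γ
      rw [dif_pos (by norm_num)]
      rfl
    have e2 : (MonoidHom.snd (Equiv.Perm (Fin 4928)) (Equiv.Perm GolayPt)) (γ 2) = tabPermD tp2 := by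
      show (γ 2).2 = _
      unfold γ
      rw [dif_pos (by norm_num)]
      rfl
    rw [e0, e1, e2]
  rw [← h]
  exact ⟨g, hg, rfl⟩

end Cfsg.Agent.Lib.Helper7.M22Q
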