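import Mathlib
import Cfsg.Agent.Lib.Helper7.CosetSign

set_option autoImplicit false

/-! # Central extensions by a group of order two that split over a subgroup

Let `τ : Y →* P` have kernel `{1, z}` with `z ≠ 1`, let `S` be a subgroup of `Y` on which `τ` is
injective, with image `H`, and let `γ 0, γ 1 ∈ H` and `γ 2` of order dividing `3` generate the
image of `τ`.  Given a coset table of `H` in the image (known to be right in `P`), relators of
three kinds that automatically lift to `Y`, and a certificate that the resulting linear system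
over `ZMod 2` has only the zero solution, `z` is not a commutator product. -/

namespace Cfsg.Agent.Lib.Helper7.CS

open scoped commutatorElement

section Maps

variable {Y P : Type*} [Group Y] [Group P]

theorem map_letY (τ : Y →* P) (y : ℕ → Y) (l : ℕ) :
    τ (letY y l) = letY (fun j => τ (y j)) l := by
  unfold letY
  split_ifs
  · rfl
  · rw [map_inv]

theorem map_evY (τ : Y →* P) (y : ℕ → Y) (w : List ℕ) :
    τ (evY y w) = evY (fun j => τ (y j)) w := by
  induction w with
  | nil => rw [evY_nil, evY_nil, map_one]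
  | cons l w ih => rw [evY_cons, evY_cons, map_mul, ih, map_letY]

theorem map_rho (τ : Y →* P) (y : ℕ → Y) (par plet : ℕ → ℕ) (c : ℕ) :
    τ (rho y par plet c) = rho (fun j => τ (y j)) par plet c :=
  map_evY τ y _

/-- the inverse word -/
def winv (w : List ℕ) : List ℕ := (w.map fun l => if l % 2 = 0 then l + 1 else l - 1).reverse

theorem letY_flip (y : ℕ → Y) (l : ℕ) :
    letY y (if l % 2 = 0 then l + 1 else l - 1) = (letY y l)⁻¹ := by
  unfold letY
  by_cases h : l % 2 = 0
  · rw [if_pos h, if_pos h, if_neg (by omega)]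
    congr 2
    omega
  · rw [if_neg h, if_neg h, if_pos (by omega), inv_inv]
    congr 1
    omega

theorem evY_winv (y : ℕ → Y) (w : List ℕ) : evY y (winv w) = (evY y w)⁻¹ := by
  induction w with
  | nil =>
    show evY y [] = (evY y [])⁻¹
    rw [evY_nil, inv_one]
  | cons l w ih =>
    have h : winv (l :: w) = winv w ++ [if l % 2 = 0 then l + 1 else l - 1] := by
      simp [winv]
    rw [h, evY_append, ih, evY_cons, evY_cons, evY_nil, mul_one, letY_flip, mul_inv_rev]

theorem evY_mem (S : Subgroup Y) (y : ℕ → Y) (h0 : y 0 ∈ S) (h1 : y 1 ∈ S) (w : List ℕ)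
    (hw : ∀ l ∈ w, l < 4) : evY y w ∈ S := by
  induction w with
  | nil =>
    rw [evY_nil]
    exact S.one_mem
  | cons l w ih =>
    rw [evY_cons]
    refine S.mul_mem ?_ (ih fun l' hl' => hw l' (List.mem_cons_of_mem _ hl'))
    have hl := hw l List.mem_cons_self
    have h2 : l / 2 = 0 ∨ l / 2 = 1 := by omega
    unfold letY
    split_ifs
    · rcases h2 with h | h
      · rw [h]; exact h0
      · rw [h]; exact h1
    · rcases h2 with h | h
      · rw [h]; exact S.inv_mem h0
      · rw [h]; exact S.inv_mem h1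

theorem evY_mem_closure (y : ℕ → Y) (w : List ℕ) (hw : ∀ l ∈ w, l < 6) :
    evY y w ∈ Subgroup.closure ({y 0, y 1, y 2} : Set Y) := by
  induction w with
  | nil =>
    rw [evY_nil]
    exact Subgroup.one_mem _
  | cons l w ih =>
    rw [evY_cons]
    refine Subgroup.mul_mem _ ?_ (ih fun l' hl' => hw l' (List.mem_cons_of_mem _ hl'))
    have hl := hw l List.mem_cons_self
    have h2 : l / 2 = 0 ∨ l / 2 = 1 ∨ l / 2 = 2 := by omega
    have hj : y (l / 2) ∈ Subgroup.closure ({y 0, y 1, y 2} : Set Y) := by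
      apply Subgroup.subset_closure
      rcases h2 with h | h | h
      · rw [h]; exact Set.mem_insert _ _
      · rw [h]; exact Set.mem_insert_of_mem _ (Set.mem_insert _ _)
      · rw [h]; exact Set.mem_insert_of_mem _ (Set.mem_insert_of_mem _ rfl)
    unfold letY
    split_ifs
    · exact hj
    · exact Subgroup.inv_mem _ hj

/-- a word whose cube is trivial for a reason that lifts -/
def Cub (γ : ℕ → P) (Z : List ℕ) : Prop :=
  ((∀ l ∈ Z, l < 4) ∧ evY γ Z ^ 3 = 1) ∨ Z = [4] ∨ Z = [5]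

/-- a relator that holds for a reason that lifts -/
def GoodR (γ : ℕ → P) (r : List ℕ) : Prop :=
  ((∀ l ∈ r, l < 4) ∧ evY γ r = 1) ∨ r = [4, 4, 4] ∨
    ∃ U Z U2 Z2 : List ℕ, r = winv U ++ Z ++ U ++ winv (winv U2 ++ Z2 ++ U2) ∧
      Cub γ Z ∧ Cub γ Z2 ∧ evY γ (winv U ++ Z ++ U) = evY γ (winv U2 ++ Z2 ++ U2)

end Maps

section Core

variable {Y P : Type*} [Group Y] [Group P]

theorem comm_central (a b k l : Y) (hk : ∀ u : Y, u * k = k * u) (hl : ∀ u : Y, u * l = l * u) :
    ⁅a * k, b * l⁆ = ⁅a, b⁆ := by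
  rw [commutatorElement_def, commutatorElement_def, mul_inv_rev, mul_inv_rev]
  have e1 : a * k * (b * l) = a * b * (k * l) := by
    rw [mul_assoc a k, ← hk (b * l), mul_assoc b l k, ← mul_assoc a b, hk l]
  have e2 : k⁻¹ * a⁻¹ = a⁻¹ * k⁻¹ := by
    rw [← mul_inv_rev, ← mul_inv_rev, hk a]
  have e3 : l⁻¹ * b⁻¹ = b⁻¹ * l⁻¹ := by
    rw [← mul_inv_rev, ← mul_inv_rev, hl b]
  rw [e1, e2, e3]
  have e4 : a * b * (k * l) * (a⁻¹ * k⁻¹) = a * b * a⁻¹ * l := by
    calc a * b * (k * l) * (a⁻¹ * k⁻¹) = a * b * k * (l * a⁻¹) * k⁻¹ := by group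
      _ = a * b * k * (a⁻¹ * l) * k⁻¹ := by rw [hl a⁻¹]
      _ = a * b * (k * a⁻¹) * (l * k⁻¹) := by group
      _ = a * b * (a⁻¹ * k) * (k⁻¹ * l) := by rw [hk a⁻¹, hl k⁻¹]
      _ = a * b * a⁻¹ * l := by group
  rw [e4]
  calc a * b * a⁻¹ * l * (b⁻¹ * l⁻¹) = a * b * a⁻¹ * (l * b⁻¹) * l⁻¹ := by group
    _ = a * b * a⁻¹ * (b⁻¹ * l) * l⁻¹ := by rw [hl b⁻¹]
    _ = a * b * a⁻¹ * b⁻¹ := by group

/-- **The sign method.** -/
theorem sign_core (τ : Y →* P) (z : Y) (hz1 : z ≠ 1)
    (hker : ∀ k : Y, τ k = 1 → k = 1 ∨ k = z) (hzk : τ z = 1)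
    (S : Subgroup Y) (hS : ∀ s ∈ S, τ s = 1 → s = 1) (H : Subgroup P) (hSH : S.map τ = H)
    (γ : ℕ → P) (hγ0 : γ 0 ∈ H) (hγ1 : γ 1 ∈ H) (hγ2 : γ 2 ∈ τ.range) (hγ3 : γ 2 ^ 3 = 1)
    (hγ : ∀ j, 3 ≤ j → γ j = 1)
    (n : ℕ) (nx : ℕ → ℕ → ℕ) (par plet vt it : ℕ → ℕ) (nvar : ℕ) (hn : 0 < n)
    (htab : ∀ c < n, ∀ j < 3, nx c (2 * j) < n ∧ nx c (2 * j + 1) < n ∧
      nx (nx c (2 * j)) (2 * j + 1) = c ∧ nx (nx c (2 * j + 1)) (2 * j) = c)
    (htree : ∀ c, 0 < c → c < n → par c < c ∧ plet c < 6 ∧ nx (par c) (plet c) = c)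
    (V : VHyp n nx par plet vt it nvar)
    (hex : ∀ c < n, ∀ j < 3,
      rho γ par plet c * γ j * (rho γ par plet (nx c (2 * j)))⁻¹ ∈ H)
    (hne : ∀ c, 0 < c → c < n → rho γ par plet c ∉ H)
    (rels : List (List ℕ)) (hrels : ∀ r ∈ rels, (∀ l ∈ r, l < 6) ∧ GoodR γ r)
    (rows : List ℕ) (hok : rows.all (rowOK n nx rels) = true)
    (hchk : SE.check nvar (rows.map (rowMask nx vt rels)) = true)
    (hgen : τ.range ≤ Subgroup.closure {γ 0, γ 1, γ 2}) :
    z ∉ commutator Y := by
  classical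
  have hz2 : z * z = 1 := by
    rcases hker (z * z) (by rw [map_mul, hzk, one_mul]) with h | h
    · exact h
    · exfalso
      apply hz1
      exact mul_left_cancel (a := z) (b := z) (c := 1) (by rw [mul_one]; exact h)
  have hzc : ∀ u : Y, u * z = z * u := by
    intro u
    rcases hker (u * z * u⁻¹)
      (by rw [map_mul, map_mul, hzk, mul_one, map_inv, mul_inv_cancel]) with h | h
    · exfalso
      apply hz1
      have h2 : z = u⁻¹ * (u * z * u⁻¹) * u := by group
      rw [h2, h]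
      group
    · calc u * z = (u * z * u⁻¹) * u := by group
        _ = z * u := by rw [h]
  have hzS : z ∉ S := fun h => hz1 (hS z h hzk)
  obtain ⟨y0, hy0S, hy0⟩ : ∃ s ∈ S, τ s = γ 0 := by
    have h : γ 0 ∈ S.map τ := by rw [hSH]; exact hγ0
    exact h
  obtain ⟨y1, hy1S, hy1⟩ : ∃ s ∈ S, τ s = γ 1 := by
    have h : γ 1 ∈ S.map τ := by rw [hSH]; exact hγ1
    exact h
  obtain ⟨y2', hy2'⟩ := hγ2
  obtain ⟨y2, hy2, hy23⟩ : ∃ y2, τ y2 = γ 2 ∧ y2 ^ 3 = 1 := by
    rcases hker (y2' ^ 3) (by rw [map_pow, hy2', hγ3]) with h | h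
    · exact ⟨y2', hy2', h⟩
    · refine ⟨y2' * z, by rw [map_mul, hzk, mul_one, hy2'], ?_⟩
      have hc : Commute y2' z := hzc y2'
      rw [hc.mul_pow, h]
      have h4 : z * z ^ 3 = (z * z) * (z * z) := by
        simp only [pow_succ, pow_zero, one_mul, mul_assoc]
      rw [h4, hz2, one_mul]
  let y : ℕ → Y := fun j => if j = 0 then y0 else if j = 1 then y1 else if j = 2 then y2 else 1
  have hy_0 : y 0 = y0 := rfl
  have hy_1 : y 1 = y1 := rfl
  have hy_2 : y 2 = y2 := rfl
  have hτy : (fun j => τ (y j)) = γ := by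
    funext j
    show τ (if j = 0 then y0 else if j = 1 then y1 else if j = 2 then y2 else 1) = γ j
    by_cases h0 : j = 0
    · rw [if_pos h0, h0]; exact hy0
    by_cases h1 : j = 1
    · rw [if_neg h0, if_pos h1, h1]; exact hy1
    by_cases h2 : j = 2
    · rw [if_neg h0, if_neg h1, if_pos h2, h2]; exact hy2
    · rw [if_neg h0, if_neg h1, if_neg h2, map_one]
      exact (hγ j (by omega)).symm
  have hτj : ∀ j, τ (y j) = γ j := fun j => congrFun hτy j
  have hev : ∀ w, τ (evY y w) = evY γ w := fun w => by rw [map_evY, hτy]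
  have hrho : ∀ c, τ (rho y par plet c) = rho γ par plet c := fun c => by rw [map_rho, hτy]
  have hfib : ∀ e : Y, τ e ∈ H → ∃ b, M S z b e := by
    intro e he
    rw [← hSH] at he
    obtain ⟨s, hs, hse⟩ := he
    rcases hker (e * s⁻¹) (by rw [map_mul, map_inv, hse, mul_inv_cancel]) with h | h
    · refine ⟨0, (M_zero_iff S z e).mpr ?_⟩
      have h2 : e = s := mul_inv_eq_one.mp h
      rw [h2]
      exact hs
    · refine ⟨1, ?_⟩
      show e * zp z 1 ∈ S
      have hzp : zp z (1 : ZMod 2) = z := by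
        unfold zp
        rw [if_neg (by decide)]
      rw [hzp]
      have he2 : e = z * s := by rw [← h]; group
      have h3 : e * z = s := by
        rw [he2, mul_assoc, hzc s, ← mul_assoc, hz2, one_mul]
      rw [h3]
      exact hs
  have Hy : Hyp S z y n nx par plet :=
    { hz2 := hz2
      hzc := hzc
      hzS := hzS
      hy0 := hy0S
      hy1 := hy1S
      hn := hn
      htab := htab
      htree := htree
      hP := fun c hc j hj => hfib _ (by
        rw [map_mul, map_mul, map_inv, hrho, hrho, hτj]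
        exact hex c hc j hj) }
  have hH : ∀ w : List ℕ, (∀ l ∈ w, l < 4) → evY γ w = 1 → evY y w = 1 := fun w hw h1 =>
    hS _ (evY_mem S y hy0S hy1S w hw) (by rw [hev, h1])
  have hcub : ∀ Z, Cub γ Z → evY y Z ^ 3 = 1 := by
    rintro Z (⟨hl, h3⟩ | rfl | rfl)
    · exact hS _ (S.pow_mem (evY_mem S y hy0S hy1S Z hl) 3) (by rw [map_pow, hev, h3])
    · have h4 : evY y [4] = y2 := by
        rw [evY_cons, evY_nil, mul_one]
        exact letY_even y 2
      rw [h4]
      exact hy23
    · have h5 : evY y [5] = y2⁻¹ := by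
        rw [evY_cons, evY_nil, mul_one]
        exact letY_odd y 2
      rw [h5, inv_pow, hy23, inv_one]
  have hodd : ∀ a b : Y, a ^ 3 = 1 → b ^ 3 = 1 → τ a = τ b → a = b := by
    intro a b ha hb hab
    rcases hker (b⁻¹ * a) (by rw [map_mul, map_inv, hab, inv_mul_cancel]) with h | h
    · exact (inv_mul_eq_one.mp h).symm
    · exfalso
      apply hz1
      have hab' : a = b * z := by rw [← h]; group
      have hc : Commute b z := hzc b
      have h3 : (b * z) ^ 3 = 1 := by rw [← hab']; exact ha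
      rw [hc.mul_pow, hb, one_mul] at h3
      have h4 : z ^ 3 = z * z * z := by
        simp only [pow_succ, pow_zero, one_mul]
      rw [h4, hz2, one_mul] at h3
      exact h3
  have hconj3 : ∀ u x : Y, x ^ 3 = 1 → (u⁻¹ * x * u) ^ 3 = 1 := by
    intro u x hx
    have h1 := conj_pow (a := u⁻¹) (b := x) (i := 3)
    rw [inv_inv] at h1
    rw [h1, hx, mul_one, inv_mul_cancel]
  have hrelsY : ∀ r ∈ rels, (∀ l ∈ r, l < 6) ∧ evY y r = 1 := by
    intro r hr
    obtain ⟨hl, hg⟩ := hrels r hr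
    refine ⟨hl, ?_⟩
    rcases hg with ⟨h4, h1⟩ | rfl | ⟨U, Z, U2, Z2, rfl, hZ, hZ2, he⟩
    · exact hH r h4 h1
    · rw [evY_cons, evY_cons, evY_cons, evY_nil, mul_one]
      have h4 : letY y 4 = y2 := letY_even y 2
      rw [h4, ← hy23]
      simp only [pow_succ, pow_zero, one_mul, mul_assoc]
    · rw [evY_append, evY_winv]
      have key : evY y (winv U ++ Z ++ U) = evY y (winv U2 ++ Z2 ++ U2) := by
        apply hodd
        · rw [evY_append, evY_append, evY_winv]
          exact hconj3 _ _ (hcub Z hZ)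
        · rw [evY_append, evY_append, evY_winv]
          exact hconj3 _ _ (hcub Z2 hZ2)
        · rw [hev, hev, he]
      rw [key, mul_inv_cancel]
  have hexY := Hy.exact V rels hrelsY rows hok hchk
  have hneY : ∀ c, 0 < c → c < n → rho y par plet c * z ∉ S := by
    intro c h0 hc hmem
    apply hne c h0 hc
    rw [← hSH]
    exact ⟨_, hmem, by rw [map_mul, hzk, mul_one, hrho]⟩
  have hzC := Hy.z_not_mem hexY hneY
  intro hzcomm
  apply hzC
  have hCmap : (Subgroup.closure ({y 0, y 1, y 2} : Set Y)).map τ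
      = Subgroup.closure {γ 0, γ 1, γ 2} := by
    rw [MonoidHom.map_closure]
    congr 1
    rw [Set.image_insert_eq, Set.image_insert_eq, Set.image_singleton, hτj, hτj, hτj]
  have hdec : ∀ a : Y, ∃ a' ∈ Subgroup.closure ({y 0, y 1, y 2} : Set Y),
      ∃ k : Y, (k = 1 ∨ k = z) ∧ a = a' * k := by
    intro a
    have h1 : τ a ∈ (Subgroup.closure ({y 0, y 1, y 2} : Set Y)).map τ := by
      rw [hCmap]
      exact hgen ⟨a, rfl⟩
    obtain ⟨a', ha', hτa⟩ := h1
    exact ⟨a', ha', a'⁻¹ * a, hker _ (by rw [map_mul, map_inv, hτa, inv_mul_cancel]),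
      by group⟩
  have hcen : ∀ k : Y, (k = 1 ∨ k = z) → ∀ u : Y, u * k = k * u := by
    rintro k (rfl | rfl) u
    · rw [mul_one, one_mul]
    · exact hzc u
  have hle : commutator Y ≤ Subgroup.closure ({y 0, y 1, y 2} : Set Y) := by
    rw [commutator_def, Subgroup.commutator_le]
    intro a _ b _
    obtain ⟨a', ha', ka, hka, rfl⟩ := hdec a
    obtain ⟨b', hb', kb, hkb, rfl⟩ := hdec b
    rw [comm_central a' b' ka kb (hcen ka hka) (hcen kb hkb), commutatorElement_def]
    exact Subgroup.mul_mem _ (Subgroup.mul_mem _ (Subgroup.mul_mem _ ha' hb')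
      (Subgroup.inv_mem _ ha')) (Subgroup.inv_mem _ hb')
  exact hle hzcomm

end Core

end Cfsg.Agent.Lib.Helper7.CS
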