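import Mathlib
import Cfsg.Agent.Lib.Helper7.SignCoreB

set_option autoImplicit false

/-! # The sign method with a two-stage elimination certificate

The same statement as in `SignCoreB`, for a certificate in two parts: rows with decreasing
leading unknowns `nvar - 1, …, P` (in this order), and rows given together with their reduction
modulo the former, which form a system in the first `P` unknowns that is checked by elimination.
The reductions can be checked in separate batches. -/

namespace Cfsg.Agent.Lib.Helper7.CSC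

open Cfsg.Agent.Lib.Helper7 Cfsg.Agent.Lib.Helper7.CS Cfsg.Agent.Lib.Helper7.CSB
open scoped commutatorElement

/-- reduce `m` by the rows of `acc` (pairs of a bit and a row), in order, branching first -/
def redS : List (ℕ × ℕ) → ℕ → ℕ
  | [], m => m
  | pr :: rest, m => if m.testBit pr.1 = true then redS rest (m ^^^ pr.2) else redS rest m

theorem redS_eq (acc : List (ℕ × ℕ)) (m : ℕ) : redS acc m = SE.red acc m := by
  induction acc generalizing m with
  | nil => rfl
  | cons pr acc ih =>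
    have h1 : SE.red (pr :: acc) m
        = SE.red acc (if m.testBit pr.1 = true then m ^^^ pr.2 else m) := rfl
    rw [h1]
    show (if m.testBit pr.1 = true then redS acc (m ^^^ pr.2) else redS acc m) = _
    split_ifs
    · exact ih _
    · exact ih _

/-- the leading bits of the rows decrease by one from `i` down to `P` -/
def leadsOK (P : ℕ) : List (ℕ × ℕ) → ℕ → Bool
  | [], i => i == P
  | pr :: rest, i => (pr.1 + 1 == i) && SE.isLead pr.2 pr.1 && leadsOK P rest pr.1

theorem leadsOK_spec (P : ℕ) (acc : List (ℕ × ℕ)) (i : ℕ) (h : leadsOK P acc i = true) :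
    ∀ v, P ≤ v → v < i → ∃ pr ∈ acc, pr.1 = v ∧ SE.isLead pr.2 v = true := by
  induction acc generalizing i with
  | nil =>
    intro v h1 h2
    have h3 : (i == P) = true := h
    have h4 := eq_of_beq h3
    omega
  | cons pr acc ih =>
    have h' : ((pr.1 + 1 == i) && SE.isLead pr.2 pr.1 && leadsOK P acc pr.1) = true := h
    rw [Bool.and_eq_true, Bool.and_eq_true] at h'
    obtain ⟨⟨h1, h2⟩, h3⟩ := h'
    have e := eq_of_beq h1
    intro v hv1 hv2
    by_cases hv : v = pr.1
    · exact ⟨pr, List.mem_cons_self, hv.symm, hv ▸ h2⟩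
    · obtain ⟨pr', hpr', h4⟩ := ih pr.1 h3 v hv1 (by omega)
      exact ⟨pr', List.mem_cons_of_mem _ hpr', h4⟩

theorem dot_of_lt (x : ℕ → ZMod 2) {n P m : ℕ} (hP : P ≤ n) (hm : m < 2 ^ P) :
    SE.dot x n m = SE.dot x P m := by
  unfold SE.dot
  symm
  apply Finset.sum_subset
  · intro i hi
    rw [Finset.mem_range] at hi ⊢
    omega
  · intro i _ hi
    rw [Finset.mem_range] at hi
    have h2 : m < 2 ^ i := lt_of_lt_of_le hm (Nat.pow_le_pow_right (by norm_num) (by omega))
    rw [Nat.testBit_lt_two_pow h2]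
    simp

/-- two-stage elimination -/
theorem elimC (x : ℕ → ZMod 2) (n P : ℕ) (hP : P ≤ n) (accD : List (ℕ × ℕ))
    (hD : ∀ pr ∈ accD, SE.dot x n pr.2 = 0) (hlead : leadsOK P accD n = true)
    (rowsP : List (ℕ × ℕ)) (hPv : ∀ pr ∈ rowsP, SE.dot x n pr.2 = 0)
    (hPlt : ∀ pr ∈ rowsP, pr.2 < 2 ^ P)
    (hchk : SE.check P (rowsP.map (fun pr => (true, pr.1, pr.2))) = true) :
    ∀ i < n, x i = 0 := by
  have h0 : ∀ i < P, x i = 0 := by
    apply SE.elim_sound x P _ _ hchk
    intro r hr
    obtain ⟨pr, hpr, rfl⟩ := List.mem_map.mp hr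
    show SE.dot x P pr.2 = 0
    rw [← dot_of_lt x hP (hPlt pr hpr)]
    exact hPv pr hpr
  intro i
  induction i using Nat.strong_induction_on with
  | _ i ih =>
    intro hi
    by_cases hiP : i < P
    · exact h0 i hiP
    · obtain ⟨pr, hpr, h1, h2⟩ := leadsOK_spec P accD n hlead i (by omega) hi
      have h3 := SE.dot_lead x h2 hi (fun j hj => ih j hj (by omega))
      rw [← h3]
      exact hD pr hpr

section Table

variable {Y : Type*} [Group Y] {S : Subgroup Y} {z : Y} {y : ℕ → Y}
variable {n : ℕ} {nx : ℕ → ℕ → ℕ} {par plet : ℕ → ℕ} {vt it : ℕ → ℕ} {nvar : ℕ}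

/-- the leading bit and the mask of a row -/
def accRow (nx : ℕ → ℕ → ℕ) (vt : ℕ → ℕ) (rels : List (List ℕ)) (code : ℕ) : ℕ × ℕ :=
  (code / 16777216, wm nx vt (rels.getD (code / 16384 % 1024) []) (code / 2 % 8192) 0)

/-- check of a row given with its reduction -/
def flagOK (n : ℕ) (nx : ℕ → ℕ → ℕ) (vt : ℕ → ℕ) (rels : List (List ℕ)) (P : ℕ)
    (rowsD : List ℕ) (cr : ℕ × ℕ) : Bool :=
  rowOKB n nx rels cr.1 && decide (cr.2 < 2 ^ P) &&
    (redS (rowsD.map (accRow nx vt rels)) (accRow nx vt rels cr.1).2 == cr.2)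

theorem dot_accRow (H : Hyp S z y n nx par plet) (V : VHyp n nx par plet vt it nvar)
    (rels : List (List ℕ)) (hrels : ∀ r ∈ rels, (∀ l ∈ r, l < 6) ∧ evY y r = 1)
    (code : ℕ) (h1 : rowOKB n nx rels code = true) :
    SE.dot (xv S z y nx par plet it) nvar (accRow nx vt rels code).2 = 0 := by
  unfold rowOKB at h1
  rw [Bool.and_eq_true] at h1
  have hc : code / 2 % 8192 < n := of_decide_eq_true h1.1
  have hend := eq_of_beq h1.2
  obtain ⟨hl, h1r⟩ := getD_relB rels hrels (code / 16384 % 1024)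
  show SE.dot _ nvar (wm nx vt (rels.getD (code / 16384 % 1024) []) (code / 2 % 8192) 0) = 0
  rw [H.dot_wm V _ hl _ hc, SE.dot_zero, zero_add]
  exact H.relator _ hl h1r hc hend

/-- **Main theorem**: if the linear system passes the check, the table is exactly right. -/
theorem exactC (H : Hyp S z y n nx par plet) (V : VHyp n nx par plet vt it nvar)
    (rels : List (List ℕ)) (hrels : ∀ r ∈ rels, (∀ l ∈ r, l < 6) ∧ evY y r = 1)
    (P : ℕ) (hP : P ≤ nvar)
    (rowsD : List ℕ) (hokD : rowsD.all (rowOKB n nx rels) = true)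
    (hlead : leadsOK P (rowsD.map (accRow nx vt rels)) nvar = true)
    (rowsF : List (ℕ × ℕ))
    (hokF : ∀ cr ∈ rowsF, flagOK n nx vt rels P rowsD cr = true)
    (hchk : SE.check P (rowsF.map (fun cr => (true, cr.1 / 16777216, cr.2))) = true) :
    ∀ c < n, ∀ j < 3,
      rho y par plet c * y j * (rho y par plet (nx c (2 * j)))⁻¹ ∈ S := by
  have hDv : ∀ pr ∈ rowsD.map (accRow nx vt rels),
      SE.dot (xv S z y nx par plet it) nvar pr.2 = 0 := by
    intro pr hpr
    obtain ⟨code, hcode, rfl⟩ := List.mem_map.mp hpr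
    exact dot_accRow H V rels hrels code (List.all_eq_true.mp hokD code hcode)
  have hx : ∀ k < nvar, xv S z y nx par plet it k = 0 := by
    apply elimC _ nvar P hP (rowsD.map (accRow nx vt rels)) hDv hlead
      (rowsF.map (fun cr => (cr.1 / 16777216, cr.2)))
    · intro pr hpr
      obtain ⟨cr, hcr, rfl⟩ := List.mem_map.mp hpr
      have h := hokF cr hcr
      unfold flagOK at h
      rw [Bool.and_eq_true, Bool.and_eq_true] at h
      have h3 := eq_of_beq h.2
      show SE.dot _ nvar cr.2 = 0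
      rw [← h3, redS_eq, SE.dot_red _ _ _ hDv]
      exact dot_accRow H V rels hrels cr.1 h.1.1
    · intro pr hpr
      obtain ⟨cr, hcr, rfl⟩ := List.mem_map.mp hpr
      have h := hokF cr hcr
      unfold flagOK at h
      rw [Bool.and_eq_true, Bool.and_eq_true] at h
      exact of_decide_eq_true h.1.2
    · rw [List.map_map]
      exact hchk
  intro c hc j hj
  have h1 := H.eps_spec hc hj
  have h2 : eps S z y nx par plet c j = 0 := by
    rcases Nat.eq_zero_or_pos (vt (3 * c + j)) with h0 | hpos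
    · exact H.eps_zero hc hj (V.hzero c hc j hj h0)
    · have h3 := V.hinv c hc j hj (by omega)
      have h4 := hx _ h3.1
      unfold xv at h4
      rw [h3.2] at h4
      have e1 : (3 * c + j) / 3 = c := by omega
      have e2 : (3 * c + j) % 3 = j := by omega
      rw [e1, e2] at h4
      exact h4
  rw [h2] at h1
  exact (M_zero_iff S z _).mp h1

end Table

section Core

variable {Y P : Type*} [Group Y] [Group P]

/-- **The sign method.** -/
theorem sign_coreC (τ : Y →* P) (z : Y) (hz1 : z ≠ 1)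
    (hker : ∀ k : Y, τ k = 1 → k = 1 ∨ k = z) (hzk : τ z = 1)
    (S : Subgroup Y) (hS : ∀ s ∈ S, τ s = 1 → s = 1) (H : Subgroup P) (hSH : S.map τ = H)
    (γ : ℕ → P) (hγ0 : γ 0 ∈ H) (hγ1 : γ 1 ∈ H) (hγ2 : γ 2 ∈ τ.range) (hγ3 : γ 2 ^ 3 = 1)
    (hγ : ∀ j, 3 ≤ j → γ j = 1)
    (n : ℕ) (nx : ℕ → ℕ → ℕ) (par plet vt it : ℕ → ℕ) (nvar : ℕ) (hn : 0 < n)
    (htab : ∀ c < n, ∀ j < 3, nx c (2 * j) < n ∧ nx c (2 * j + 1) < n ∧
      nx (nx c (2 * j)) (2 * j + 1) = c ∧ nx (nx c (2 * j + 1)) (2 * j) = c)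
    (htree : ∀ c, 0 < c → c < n → par c < c ∧ plet c < 6 ∧ nx (par c) (plet c) = c)
    (V : VHyp n nx par plet vt it nvar)
    (hex : ∀ c < n, ∀ j < 3,
      rho γ par plet c * γ j * (rho γ par plet (nx c (2 * j)))⁻¹ ∈ H)
    (hne : ∀ c, 0 < c → c < n → rho γ par plet c ∉ H)
    (rels : List (List ℕ)) (hrels : ∀ r ∈ rels, (∀ l ∈ r, l < 6) ∧ GoodR γ r)
    (P : ℕ) (hP : P ≤ nvar)
    (rowsD : List ℕ) (hokD : rowsD.all (rowOKB n nx rels) = true)
    (hlead : leadsOK P (rowsD.map (accRow nx vt rels)) nvar = true)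
    (rowsF : List (ℕ × ℕ))
    (hokF : ∀ cr ∈ rowsF, flagOK n nx vt rels P rowsD cr = true)
    (hchk : SE.check P (rowsF.map (fun cr => (true, cr.1 / 16777216, cr.2))) = true)
    (hgen : τ.range ≤ Subgroup.closure {γ 0, γ 1, γ 2}) :
    z ∉ commutator Y := by
  classical
  have hz2 : z * z = 1 := by
    rcases hker (z * z) (by rw [map_mul, hzk, one_mul]) with h | h
    · exact h
    · exfalso
      apply hz1
      exact mul_left_cancel (a := z) (b := z) (c := 1) (by rw [mul_one]; exact h)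
  have hzc : ∀ u : Y, u * z = z * u := by
    intro u
    rcases hker (u * z * u⁻¹)
      (by rw [map_mul, map_mul, hzk, mul_one, map_inv, mul_inv_cancel]) with h | h
    · exfalso
      apply hz1
      have h2 : z = u⁻¹ * (u * z * u⁻¹) * u := by group
      rw [h2, h]
      group
    · calc u * z = (u * z * u⁻¹) * u := by group
        _ = z * u := by rw [h]
  have hzS : z ∉ S := fun h => hz1 (hS z h hzk)
  obtain ⟨y0, hy0S, hy0⟩ : ∃ s ∈ S, τ s = γ 0 := by
    have h : γ 0 ∈ S.map τ := by rw [hSH]; exact hγ0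
    exact h
  obtain ⟨y1, hy1S, hy1⟩ : ∃ s ∈ S, τ s = γ 1 := by
    have h : γ 1 ∈ S.map τ := by rw [hSH]; exact hγ1
    exact h
  obtain ⟨y2', hy2'⟩ := hγ2
  obtain ⟨y2, hy2, hy23⟩ : ∃ y2, τ y2 = γ 2 ∧ y2 ^ 3 = 1 := by
    rcases hker (y2' ^ 3) (by rw [map_pow, hy2', hγ3]) with h | h
    · exact ⟨y2', hy2', h⟩
    · refine ⟨y2' * z, by rw [map_mul, hzk, mul_one, hy2'], ?_⟩
      have hc : Commute y2' z := hzc y2'
      rw [hc.mul_pow, h]
      have h4 : z * z ^ 3 = (z * z) * (z * z) := by
        simp only [pow_succ, pow_zero, one_mul, mul_assoc]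
      rw [h4, hz2, one_mul]
  let y : ℕ → Y := fun j => if j = 0 then y0 else if j = 1 then y1 else if j = 2 then y2 else 1
  have hy_0 : y 0 = y0 := rfl
  have hy_1 : y 1 = y1 := rfl
  have hy_2 : y 2 = y2 := rfl
  have hτy : (fun j => τ (y j)) = γ := by
    funext j
    show τ (if j = 0 then y0 else if j = 1 then y1 else if j = 2 then y2 else 1) = γ j
    by_cases h0 : j = 0
    · rw [if_pos h0, h0]; exact hy0
    by_cases h1 : j = 1
    · rw [if_neg h0, if_pos h1, h1]; exact hy1
    by_cases h2 : j = 2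
    · rw [if_neg h0, if_neg h1, if_pos h2, h2]; exact hy2
    · rw [if_neg h0, if_neg h1, if_neg h2, map_one]
      exact (hγ j (by omega)).symm
  have hτj : ∀ j, τ (y j) = γ j := fun j => congrFun hτy j
  have hev : ∀ w, τ (evY y w) = evY γ w := fun w => by rw [map_evY, hτy]
  have hrho : ∀ c, τ (rho y par plet c) = rho γ par plet c := fun c => by rw [map_rho, hτy]
  have hfib : ∀ e : Y, τ e ∈ H → ∃ b, M S z b e := by
    intro e he
    rw [← hSH] at he
    obtain ⟨s, hs, hse⟩ := he
    rcases hker (e * s⁻¹) (by rw [map_mul, map_inv, hse, mul_inv_cancel]) with h | h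
    · refine ⟨0, (M_zero_iff S z e).mpr ?_⟩
      have h2 : e = s := mul_inv_eq_one.mp h
      rw [h2]
      exact hs
    · refine ⟨1, ?_⟩
      show e * zp z 1 ∈ S
      have hzp : zp z (1 : ZMod 2) = z := by
        unfold zp
        rw [if_neg (by decide)]
      rw [hzp]
      have he2 : e = z * s := by rw [← h]; group
      have h3 : e * z = s := by
        rw [he2, mul_assoc, hzc s, ← mul_assoc, hz2, one_mul]
      rw [h3]
      exact hs
  have Hy : Hyp S z y n nx par plet :=
    { hz2 := hz2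
      hzc := hzc
      hzS := hzS
      hy0 := hy0S
      hy1 := hy1S
      hn := hn
      htab := htab
      htree := htree
      hP := fun c hc j hj => hfib _ (by
        rw [map_mul, map_mul, map_inv, hrho, hrho, hτj]
        exact hex c hc j hj) }
  have hH : ∀ w : List ℕ, (∀ l ∈ w, l < 4) → evY γ w = 1 → evY y w = 1 := fun w hw h1 =>
    hS _ (evY_mem S y hy0S hy1S w hw) (by rw [hev, h1])
  have hcub : ∀ Z, Cub γ Z → evY y Z ^ 3 = 1 := by
    rintro Z (⟨hl, h3⟩ | rfl | rfl)
    · exact hS _ (S.pow_mem (evY_mem S y hy0S hy1S Z hl) 3) (by rw [map_pow, hev, h3])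
    · have h4 : evY y [4] = y2 := by
        rw [evY_cons, evY_nil, mul_one]
        exact letY_even y 2
      rw [h4]
      exact hy23
    · have h5 : evY y [5] = y2⁻¹ := by
        rw [evY_cons, evY_nil, mul_one]
        exact letY_odd y 2
      rw [h5, inv_pow, hy23, inv_one]
  have hodd : ∀ a b : Y, a ^ 3 = 1 → b ^ 3 = 1 → τ a = τ b → a = b := by
    intro a b ha hb hab
    rcases hker (b⁻¹ * a) (by rw [map_mul, map_inv, hab, inv_mul_cancel]) with h | h
    · exact (inv_mul_eq_one.mp h).symm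
    · exfalso
      apply hz1
      have hab' : a = b * z := by rw [← h]; group
      have hc : Commute b z := hzc b
      have h3 : (b * z) ^ 3 = 1 := by rw [← hab']; exact ha
      rw [hc.mul_pow, hb, one_mul] at h3
      have h4 : z ^ 3 = z * z * z := by
        simp only [pow_succ, pow_zero, one_mul]
      rw [h4, hz2, one_mul] at h3
      exact h3
  have hconj3 : ∀ u x : Y, x ^ 3 = 1 → (u⁻¹ * x * u) ^ 3 = 1 := by
    intro u x hx
    have h1 := conj_pow (a := u⁻¹) (b := x) (i := 3)
    rw [inv_inv] at h1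
    rw [h1, hx, mul_one, inv_mul_cancel]
  have hrelsY : ∀ r ∈ rels, (∀ l ∈ r, l < 6) ∧ evY y r = 1 := by
    intro r hr
    obtain ⟨hl, hg⟩ := hrels r hr
    refine ⟨hl, ?_⟩
    rcases hg with ⟨h4, h1⟩ | rfl | ⟨U, Z, U2, Z2, rfl, hZ, hZ2, he⟩
    · exact hH r h4 h1
    · rw [evY_cons, evY_cons, evY_cons, evY_nil, mul_one]
      have h4 : letY y 4 = y2 := letY_even y 2
      rw [h4, ← hy23]
      simp only [pow_succ, pow_zero, one_mul, mul_assoc]
    · rw [evY_append, evY_winv]
      have key : evY y (winv U ++ Z ++ U) = evY y (winv U2 ++ Z2 ++ U2) := by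
        apply hodd
        · rw [evY_append, evY_append, evY_winv]
          exact hconj3 _ _ (hcub Z hZ)
        · rw [evY_append, evY_append, evY_winv]
          exact hconj3 _ _ (hcub Z2 hZ2)
        · rw [hev, hev, he]
      rw [key, mul_inv_cancel]
  have hexY := exactC Hy V rels hrelsY P hP rowsD hokD hlead rowsF hokF hchk
  have hneY : ∀ c, 0 < c → c < n → rho y par plet c * z ∉ S := by
    intro c h0 hc hmem
    apply hne c h0 hc
    rw [← hSH]
    exact ⟨_, hmem, by rw [map_mul, hzk, mul_one, hrho]⟩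
  have hzC := Hy.z_not_mem hexY hneY
  intro hzcomm
  apply hzC
  have hCmap : (Subgroup.closure ({y 0, y 1, y 2} : Set Y)).map τ
      = Subgroup.closure {γ 0, γ 1, γ 2} := by
    rw [MonoidHom.map_closure]
    congr 1
    rw [Set.image_insert_eq, Set.image_insert_eq, Set.image_singleton, hτj, hτj, hτj]
  have hdec : ∀ a : Y, ∃ a' ∈ Subgroup.closure ({y 0, y 1, y 2} : Set Y),
      ∃ k : Y, (k = 1 ∨ k = z) ∧ a = a' * k := by
    intro a
    have h1 : τ a ∈ (Subgroup.closure ({y 0, y 1, y 2} : Set Y)).map τ := by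
      rw [hCmap]
      exact hgen ⟨a, rfl⟩
    obtain ⟨a', ha', hτa⟩ := h1
    exact ⟨a', ha', a'⁻¹ * a, hker _ (by rw [map_mul, map_inv, hτa, inv_mul_cancel]),
      by group⟩
  have hcen : ∀ k : Y, (k = 1 ∨ k = z) → ∀ u : Y, u * k = k * u := by
    rintro k (rfl | rfl) u
    · rw [mul_one, one_mul]
    · exact hzc u
  have hle : commutator Y ≤ Subgroup.closure ({y 0, y 1, y 2} : Set Y) := by
    rw [commutator_def, Subgroup.commutator_le]
    intro a _ b _
    obtain ⟨a', ha', ka, hka, rfl⟩ := hdec a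
    obtain ⟨b', hb', kb, hkb, rfl⟩ := hdec b
    rw [comm_central a' b' ka kb (hcen ka hka) (hcen kb hkb), commutatorElement_def]
    exact Subgroup.mul_mem _ (Subgroup.mul_mem _ (Subgroup.mul_mem _ ha' hb')
      (Subgroup.inv_mem _ ha')) (Subgroup.inv_mem _ hb')
  exact hle hzcomm

end Core

end Cfsg.Agent.Lib.Helper7.CSC
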