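import Mathlib
import Cfsg.Agent.Lib.Helper35.He27
import Cfsg.Agent.Lib.Helper35.SchurLocal
import Cfsg.Agent.Lib.Helper35.Schur

set_option autoImplicit false

/-! # Auxiliary lemmas on stem extensions, perfect groups and fibre products -/

namespace Cfsg.Agent.Lib.Helper7.SA

open Cfsg Cfsg.Agent.Lib.Helper35
open scoped commutatorElement

section Perfect

variable {Y G Q : Type*} [Group Y] [Group G] [Group Q]

/-- a group generated by commutator products is perfect -/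
theorem perfect_of_closure (S : Set G) (hS : Subgroup.closure S = ⊤)
    (h : ∀ s ∈ S, s ∈ commutator G) : commutator G = ⊤ := by
  rw [eq_top_iff, ← hS, Subgroup.closure_le]
  exact h

/-- an extension of a perfect group with kernel inside the commutator subgroup is perfect -/
theorem perfect_of_stem (τ : Y →* G) (hs : Function.Surjective τ)
    (hk : τ.ker ≤ commutator Y) (hG : commutator G = ⊤) : commutator Y = ⊤ := by
  rw [eq_top_iff]
  intro y _
  have h1 : τ y ∈ (commutator Y).map τ := by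
    rw [map_commutator_of_surjective τ hs, hG]
    trivial
  obtain ⟨y', hy', he⟩ := h1
  have h2 : y'⁻¹ * y ∈ τ.ker := by
    rw [MonoidHom.mem_ker, map_mul, map_inv, he, inv_mul_cancel]
  have h3 := Subgroup.mul_mem _ hy' (hk h2)
  rwa [mul_inv_cancel_left] at h3

/-- the image of a perfect group is perfect -/
theorem perfect_of_surj (τ : Y →* G) (hs : Function.Surjective τ) (hY : commutator Y = ⊤) :
    commutator G = ⊤ := by
  rw [← map_commutator_of_surjective τ hs, hY, Subgroup.map_top_of_surjective τ hs]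

/-- in a perfect central extension, lifts of central elements are central -/
theorem central_of_perfect (τ : Y →* G) (hc : τ.ker ≤ Subgroup.center Y)
    (hY : commutator Y = ⊤) (k : Y) (hk : τ k ∈ Subgroup.center G) : k ∈ Subgroup.center Y := by
  have hz : ∀ y, ⁅k, y⁆ ∈ Subgroup.center Y := by
    intro y
    apply hc
    rw [MonoidHom.mem_ker, map_commutatorElement, commutatorElement_eq_one_iff_mul_comm]
    exact (Subgroup.mem_center_iff.mp hk (τ y)).symm
  let f : Y →* Y :=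
    { toFun := fun y => ⁅k, y⁆
      map_one' := by simp
      map_mul' := by
        intro y₁ y₂
        have h := Subgroup.mem_center_iff.mp (hz y₂) y₁
        calc ⁅k, y₁ * y₂⁆ = ⁅k, y₁⁆ * (y₁ * ⁅k, y₂⁆) * y₁⁻¹ := by
              simp only [commutatorElement_def]; group
          _ = ⁅k, y₁⁆ * (⁅k, y₂⁆ * y₁) * y₁⁻¹ := by rw [h]
          _ = ⁅k, y₁⁆ * ⁅k, y₂⁆ := by group }
  have hle : commutator Y ≤ f.ker := by
    rw [commutator_def, Subgroup.commutator_le]
    intro a _ b _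
    rw [MonoidHom.mem_ker, map_commutatorElement, commutatorElement_eq_one_iff_mul_comm]
    exact (Subgroup.mem_center_iff.mp (hz a) (f b)).symm
  rw [Subgroup.mem_center_iff]
  intro g
  have h1 : g ∈ f.ker := hle (by rw [hY]; trivial)
  have h2 : ⁅k, g⁆ = 1 := h1
  exact (commutatorElement_eq_one_iff_mul_comm.mp h2).symm

/-- a perfect central extension followed by a central extension is a stem extension -/
theorem stem_comp (τ : Y →* G) (σ : G →* Q) (hτs : Function.Surjective τ)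
    (hτc : τ.ker ≤ Subgroup.center Y) (hσs : Function.Surjective σ)
    (hσc : σ.ker ≤ Subgroup.center G) (hY : commutator Y = ⊤) :
    IsStemExtension (σ.comp τ) := by
  refine ⟨hσs.comp hτs, ?_, ?_⟩
  · intro k hk
    exact central_of_perfect τ hτc hY k (hσc hk)
  · rw [hY]
    exact le_top

end Perfect

/-- a finite commutative group of even order has a subgroup of index two -/
theorem exists_index_two {B : Type*} [Group B] [Finite B] (hcomm : ∀ a b : B, a * b = b * a)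
    (h2 : 2 ∣ Nat.card B) : ∃ K : Subgroup B, K.index = 2 := by
  classical
  haveI : Fact (Nat.Prime 2) := ⟨Nat.prime_two⟩
  let sq : B →* B :=
    { toFun := fun b => b * b
      map_one' := by simp
      map_mul' := by
        intro a b
        calc a * b * (a * b) = a * (b * a) * b := by group
          _ = a * (a * b) * b := by rw [hcomm b a]
          _ = a * a * (b * b) := by group }
  haveI hn : sq.range.Normal :=
    ⟨fun n hn g => by rw [hcomm g n, mul_inv_cancel_right]; exact hn⟩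
  obtain ⟨t, ht⟩ := exists_prime_orderOf_dvd_card' 2 h2
  have hns : ¬ Function.Injective sq := by
    intro hinj
    have h1 : sq t = sq 1 := by
      show t * t = 1 * 1
      rw [one_mul, ← pow_two, ← ht, pow_orderOf_eq_one]
    have h3 := hinj h1
    rw [h3, orderOf_one] at ht
    omega
  have hR : sq.range ≠ ⊤ := by
    intro h
    exact hns (Finite.injective_iff_surjective.mpr (MonoidHom.range_eq_top.mp h))
  have hP : IsPGroup 2 (B ⧸ sq.range) := by
    intro q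
    obtain ⟨b, rfl⟩ := QuotientGroup.mk_surjective q
    refine ⟨1, ?_⟩
    rw [pow_one, ← QuotientGroup.mk_pow, QuotientGroup.eq_one_iff, pow_two]
    exact ⟨b, rfl⟩
  obtain ⟨k, hk⟩ := IsPGroup.iff_card.mp hP
  have hk0 : k ≠ 0 := by
    rintro rfl
    rw [pow_zero] at hk
    exact hR (Subgroup.index_eq_one.mp hk)
  obtain ⟨k', rfl⟩ := Nat.exists_eq_succ_of_ne_zero hk0
  obtain ⟨K₁, hK₁⟩ := Sylow.exists_subgroup_card_pow_prime 2 (n := k') (G := B ⧸ sq.range)
    (by rw [hk]; exact pow_dvd_pow 2 (Nat.le_succ k'))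
  have hidx : K₁.index = 2 := by
    have h1 := Subgroup.card_mul_index K₁
    rw [hK₁, hk, pow_succ] at h1
    exact Nat.eq_of_mul_eq_mul_left (pow_pos (by norm_num) k') h1
  refine ⟨K₁.comap (QuotientGroup.mk' sq.range), ?_⟩
  rw [Subgroup.index_comap_of_surjective _ (QuotientGroup.mk'_surjective _), hidx]

/-- orbit counting: `k` elements of `S` moving a point fixed by `T ≤ S` to distinct points -/
theorem card_mul_le {G α : Type*} [Group G] [Finite G] (f : G →* Equiv.Perm α) (S T : Subgroup G)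
    (p : α) (hTS : T ≤ S) (hT : ∀ t ∈ T, f t p = p) (k : ℕ) (w : Fin k → G)
    (hw : ∀ i, w i ∈ S) (hinj : Function.Injective fun i => f (w i) p) :
    k * Nat.card T ≤ Nat.card S := by
  have h : Nat.card (Fin k × ↥T) ≤ Nat.card ↥S := by
    apply Nat.card_le_card_of_injective
      (fun x : Fin k × ↥T => (⟨w x.1 * x.2.1, S.mul_mem (hw x.1) (hTS x.2.2)⟩ : ↥S))
    rintro ⟨i, t⟩ ⟨i', t'⟩ hx
    have h1 : w i * t.1 = w i' * t'.1 := congrArg Subtype.val hx
    have h2 : f (w i) p = f (w i') p := by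
      have h3 := congrArg (fun g => f g p) h1
      simp only [map_mul, Equiv.Perm.mul_apply] at h3
      rwa [hT t.1 t.2, hT t'.1 t'.2] at h3
    have h4 : i = i' := hinj h2
    subst h4
    have h5 : t.1 = t'.1 := mul_left_cancel h1
    rw [Subtype.ext h5]
  rwa [Nat.card_prod, Nat.card_fin] at h

section Lift

variable {Y G : Type*} [Group Y] [Group G]

/-- if the commutator of lifts of `u`, `v` commutes with the lifts and its order is that of
`[u, v]`, then the commutator subgroup of the preimage of `⟨u, v⟩` meets the kernel trivially -/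
theorem comm_eq_one_of_lift (τ : Y →* G) (hc : τ.ker ≤ Subgroup.center Y) {u v : G} (a b : Y)
    (ha : τ a = u) (hb : τ b = v) (hca : Commute a ⁅a, b⁆) (hcb : Commute b ⁅a, b⁆) (p : ℕ)
    (hp : ⁅a, b⁆ ^ p = 1) (hord : ∀ i : ℤ, ⁅u, v⁆ ^ i = 1 → (p : ℤ) ∣ i)
    (w : (Subgroup.closure ({u, v} : Set G)).comap τ)
    (hw : w ∈ commutator ((Subgroup.closure ({u, v} : Set G)).comap τ))
    (hw1 : τ (w : Y) = 1) : (w : Y) = 1 := by
  obtain ⟨c', hc'⟩ : ∃ c', c' = ⁅a, b⁆ := ⟨_, rfl⟩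
  have hba : ⁅b, a⁆ = c'⁻¹ := by rw [hc', commutatorElement_inv]
  rw [← hc'] at hca hcb hp
  have hτc : τ c' = ⁅u, v⁆ := by rw [hc', map_commutatorElement, ha, hb]
  let S : Set Y := {a, b} ∪ (τ.ker : Set Y)
  have hHle : (Subgroup.closure ({u, v} : Set G)).comap τ ≤ Subgroup.closure S := by
    have h1 : Subgroup.closure ({u, v} : Set G) ≤ (Subgroup.closure S).map τ := by
      rw [Subgroup.closure_le]
      intro x hx
      rcases hx with hx | hx
      · exact ⟨a, Subgroup.subset_closure (Or.inl (Or.inl rfl)), by rw [ha, hx]⟩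
      · exact ⟨b, Subgroup.subset_closure (Or.inl (Or.inr rfl)), by rw [hb, hx]⟩
    have h2 : τ.ker ≤ Subgroup.closure S := fun k hk => Subgroup.subset_closure (Or.inr hk)
    intro y hy
    have h3 : y ∈ ((Subgroup.closure S).map τ).comap τ := h1 hy
    rw [Subgroup.comap_map_eq] at h3
    exact (sup_le le_rfl h2) h3
  have hN : ∀ n ∈ Subgroup.zpowers c', ∀ s ∈ S, s * n = n * s := by
    intro n hn s hs
    obtain ⟨i, rfl⟩ := Subgroup.mem_zpowers_iff.mp hn
    rcases hs with (hs | hs) | hs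
    · rw [hs]; exact (hca.zpow_right i).eq
    · rw [hs]; exact (hcb.zpow_right i).eq
    · exact (Subgroup.mem_center_iff.mp (hc hs) _).symm
  have hS : ∀ x ∈ S, ∀ y ∈ S, ⁅x, y⁆ ∈ Subgroup.zpowers c' := by
    intro x hx y hy
    rcases hx with hx | hx
    · rcases hy with hy | hy
      · rcases hx with hx | hx <;> rcases hy with hy | hy
        · rw [hx, hy, commutatorElement_self]; exact Subgroup.one_mem _
        · rw [hx, hy, ← hc']; exact Subgroup.mem_zpowers c'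
        · rw [hx, hy, hba]; exact Subgroup.inv_mem _ (Subgroup.mem_zpowers c')
        · rw [hx, hy, commutatorElement_self]; exact Subgroup.one_mem _
      · have h : ⁅x, y⁆ = 1 :=
          commutatorElement_eq_one_iff_mul_comm.mpr (Subgroup.mem_center_iff.mp (hc hy) x)
        rw [h]; exact Subgroup.one_mem _
    · have h : ⁅x, y⁆ = 1 :=
        commutatorElement_eq_one_iff_mul_comm.mpr (Subgroup.mem_center_iff.mp (hc hx) y).symm
      rw [h]; exact Subgroup.one_mem _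
  have hcomm := comm_mem_of_closure S (Subgroup.zpowers c') hN hS
  have hwmem : (w : Y) ∈ Subgroup.zpowers c' := by
    have hle : commutator ((Subgroup.closure ({u, v} : Set G)).comap τ) ≤
        (Subgroup.zpowers c').comap (Subgroup.subtype _) := by
      rw [commutator_def, Subgroup.commutator_le]
      intro x _ y _
      rw [Subgroup.mem_comap, map_commutatorElement]
      exact hcomm _ (hHle x.2) _ (hHle y.2)
    exact hle hw
  obtain ⟨i, hi⟩ := Subgroup.mem_zpowers_iff.mp hwmem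
  have hi1 : ⁅u, v⁆ ^ i = 1 := by rw [← hτc, ← map_zpow, hi, hw1]
  obtain ⟨m, hm⟩ := hord i hi1
  rw [← hi, hm, zpow_mul]
  have e : c' ^ (p : ℤ) = 1 := by
    rw [zpow_natCast, hp]
  rw [e, one_zpow]

/-- a perfect stem extension of a group with a subgroup `⟨u, v⟩` of type `3^(1+2)` whose
commutator `[u, v]` is central: the kernel has exponent prime to `3` -/
theorem stem_pow_eq_one_of_central_he27 [Finite G] (τ : Y →* G) (hτ : IsStemExtension τ)
    (hY : commutator Y = ⊤) {z : Y} (hz : z ∈ τ.ker) {u v : G} (hu3 : u ^ 3 = 1)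
    (hv3 : v ^ 3 = 1) (hc1 : ⁅u, v⁆ ≠ 1) (hcc : ⁅u, v⁆ ∈ Subgroup.center G) (n : ℕ)
    (hG : Nat.card G = 27 * n) : z ^ n = 1 := by
  have huc : u * ⁅u, v⁆ = ⁅u, v⁆ * u := Subgroup.mem_center_iff.mp hcc u
  have hvc : v * ⁅u, v⁆ = ⁅u, v⁆ * v := Subgroup.mem_center_iff.mp hcc v
  obtain ⟨a, ha⟩ := hτ.1 u
  obtain ⟨b, hb⟩ := hτ.1 v
  have hcen : ⁅a, b⁆ ∈ Subgroup.center Y := by
    apply central_of_perfect τ hτ.2.1 hY
    rw [map_commutatorElement, ha, hb]
    exact hcc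
  have hca : Commute a ⁅a, b⁆ := Subgroup.mem_center_iff.mp hcen a
  have hcb : Commute b ⁅a, b⁆ := Subgroup.mem_center_iff.mp hcen b
  have hp : ⁅a, b⁆ ^ 3 = 1 := by
    have ha3 : a ^ 3 ∈ Subgroup.center Y := by
      apply hτ.2.1
      show τ _ = 1
      rw [map_pow, ha, hu3]
    have h := comm_pow_left_of_commute (a := a) (b := b) hca 3
    rw [← h, commutatorElement_eq_one_iff_mul_comm]
    exact (Subgroup.mem_center_iff.mp ha3 b).symm
  have huv3 : ⁅u, v⁆ ^ 3 = 1 := by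
    rw [← ha, ← hb, ← map_commutatorElement, ← map_pow, hp, map_one]
  have hp3 : Fact (Nat.Prime 3) := ⟨Nat.prime_three⟩
  have hordc : orderOf ⁅u, v⁆ = 3 := orderOf_eq_prime huv3 hc1
  have hord : ∀ i : ℤ, ⁅u, v⁆ ^ i = 1 → ((3 : ℕ) : ℤ) ∣ i := by
    intro i hi
    have h := (orderOf_dvd_iff_zpow_eq_one (x := ⁅u, v⁆) (i := i)).mpr hi
    rwa [hordc] at h
  have hidx := pow_index_eq_one_of_comap τ hτ.1 (hτ.2.1 hz) (hτ.2.2 hz) hz
    (Subgroup.closure ({u, v} : Set G))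
    (fun w hw hw1 => comm_eq_one_of_lift τ hτ.2.1 a b ha hb hca hcb 3 hp hord w hw hw1)
  exact pow_eq_one_of_index _ hidx 27 n (by norm_num) hG
    (he27_dvd_card hu3 hv3 hc1 huc hvc)

/-- transfer into a subgroup `D ≤ H` inside the preimage of `H` -/
theorem pow_relIndex_eq_one {P : Type*} [Group P] (H D : Subgroup P) [Finite H] (τ : Y →* P)
    (hr : H ≤ τ.range) (hc : τ.ker ≤ Subgroup.center Y)
    (hDc : ∀ w ∈ ⁅D.comap τ, D.comap τ⁆, τ w = 1 → w = 1)
    (w : Y) (hw : w ∈ ⁅H.comap τ, H.comap τ⁆) (hw1 : τ w = 1) : w ^ D.relIndex H = 1 := by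
  let ξ : ↥(H.comap τ) →* ↥H := τ.subgroupComap H
  have hξs : Function.Surjective ξ := by
    rintro ⟨h, hh⟩
    obtain ⟨y, rfl⟩ := hr hh
    exact ⟨⟨y, hh⟩, rfl⟩
  rw [← Subgroup.map_subtype_commutator] at hw
  obtain ⟨x, hx, rfl⟩ := hw
  have hxc : x ∈ Subgroup.center ↥(H.comap τ) := by
    rw [Subgroup.mem_center_iff]
    intro g
    have h1 : (x : Y) ∈ τ.ker := hw1
    have h2 := Subgroup.mem_center_iff.mp (hc h1) (g : Y)
    exact Subtype.ext h2
  have hxk : ξ x = 1 := Subtype.ext hw1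
  have key := pow_index_eq_one_of_comap ξ hξs hxc hx hxk (D.subgroupOf H) (by
    intro u hu hu1
    apply Subtype.ext
    show ((u : ↥(H.comap τ)) : Y) = 1
    apply hDc _ ?_ (congrArg Subtype.val hu1)
    have h1 : (u : ↥(H.comap τ)) ∈ ⁅(D.subgroupOf H).comap ξ, (D.subgroupOf H).comap ξ⁆ := by
      rw [← Subgroup.map_subtype_commutator]
      exact ⟨u, hu, rfl⟩
    have h2 : ((u : ↥(H.comap τ)) : Y) ∈
        (⁅(D.subgroupOf H).comap ξ, (D.subgroupOf H).comap ξ⁆).map (H.comap τ).subtype :=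
      ⟨_, h1, rfl⟩
    rw [Subgroup.map_commutator] at h2
    have hle : ((D.subgroupOf H).comap ξ).map (H.comap τ).subtype ≤ D.comap τ := by
      rintro _ ⟨v, hv, rfl⟩
      exact hv
    exact Subgroup.commutator_mono hle hle h2)
  have h3 := congrArg Subtype.val key
  rw [Subgroup.coe_pow] at h3
  exact h3

end Lift

section Fiber

variable {G₁ G₂ Q : Type*} [Group G₁] [Group G₂] [Group Q] (σ₁ : G₁ →* Q) (σ₂ : G₂ →* Q)

/-- the fibre product of two groups over a common quotient -/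
def fib : Subgroup (G₁ × G₂) :=
  (σ₁.comp (MonoidHom.fst G₁ G₂)).eqLocus (σ₂.comp (MonoidHom.snd G₁ G₂))

theorem mem_fib {g : G₁ × G₂} : g ∈ fib σ₁ σ₂ ↔ σ₁ g.1 = σ₂ g.2 := Iff.rfl

/-- the projection of the fibre product to the common quotient -/
def fibHom : ↥(fib σ₁ σ₂) →* Q := (σ₁.comp (MonoidHom.fst G₁ G₂)).comp (fib σ₁ σ₂).subtype

/-- the first projection -/
def fibFst : ↥(fib σ₁ σ₂) →* G₁ := (MonoidHom.fst G₁ G₂).comp (fib σ₁ σ₂).subtype

/-- the second projection -/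
def fibSnd : ↥(fib σ₁ σ₂) →* G₂ := (MonoidHom.snd G₁ G₂).comp (fib σ₁ σ₂).subtype

theorem fibHom_apply (g : ↥(fib σ₁ σ₂)) : fibHom σ₁ σ₂ g = σ₁ g.1.1 := rfl

theorem fibHom_apply' (g : ↥(fib σ₁ σ₂)) : fibHom σ₁ σ₂ g = σ₂ g.1.2 := g.2

theorem fibHom_eq_fst : fibHom σ₁ σ₂ = σ₁.comp (fibFst σ₁ σ₂) := rfl

theorem fibHom_eq_snd : fibHom σ₁ σ₂ = σ₂.comp (fibSnd σ₁ σ₂) :=
  MonoidHom.ext fun g => g.2

variable {σ₁ σ₂}

theorem fibFst_surj (h₂ : Function.Surjective σ₂) : Function.Surjective (fibFst σ₁ σ₂) := by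
  intro g₁
  obtain ⟨g₂, hg₂⟩ := h₂ (σ₁ g₁)
  exact ⟨⟨(g₁, g₂), hg₂.symm⟩, rfl⟩

theorem fibSnd_surj (h₁ : Function.Surjective σ₁) : Function.Surjective (fibSnd σ₁ σ₂) := by
  intro g₂
  obtain ⟨g₁, hg₁⟩ := h₁ (σ₂ g₂)
  exact ⟨⟨(g₁, g₂), hg₁⟩, rfl⟩

theorem fibHom_surj (h₁ : Function.Surjective σ₁) (h₂ : Function.Surjective σ₂) :
    Function.Surjective (fibHom σ₁ σ₂) := by
  rw [fibHom_eq_fst]
  exact h₁.comp (fibFst_surj h₂)

theorem fibFst_ker_le (hc₂ : σ₂.ker ≤ Subgroup.center G₂) :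
    (fibFst σ₁ σ₂).ker ≤ Subgroup.center ↥(fib σ₁ σ₂) := by
  intro g hg
  have h1 : g.1.1 = 1 := hg
  have h2 : g.1.2 ∈ σ₂.ker := by
    have hge : σ₁ g.1.1 = σ₂ g.1.2 := g.2
    rw [MonoidHom.mem_ker, ← hge, h1, map_one]
  rw [Subgroup.mem_center_iff]
  intro x
  apply Subtype.ext
  apply Prod.ext
  · show x.1.1 * g.1.1 = g.1.1 * x.1.1
    rw [h1, mul_one, one_mul]
  · exact Subgroup.mem_center_iff.mp (hc₂ h2) x.1.2

theorem fibSnd_ker_le (hc₁ : σ₁.ker ≤ Subgroup.center G₁) :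
    (fibSnd σ₁ σ₂).ker ≤ Subgroup.center ↥(fib σ₁ σ₂) := by
  intro g hg
  have h1 : g.1.2 = 1 := hg
  have h2 : g.1.1 ∈ σ₁.ker := by
    have hge : σ₁ g.1.1 = σ₂ g.1.2 := g.2
    rw [MonoidHom.mem_ker, hge, h1, map_one]
  rw [Subgroup.mem_center_iff]
  intro x
  apply Subtype.ext
  apply Prod.ext
  · exact Subgroup.mem_center_iff.mp (hc₁ h2) x.1.1
  · show x.1.2 * g.1.2 = g.1.2 * x.1.2
    rw [h1, mul_one, one_mul]

theorem fibHom_ker_le_center (hc₁ : σ₁.ker ≤ Subgroup.center G₁)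
    (hc₂ : σ₂.ker ≤ Subgroup.center G₂) :
    (fibHom σ₁ σ₂).ker ≤ Subgroup.center ↥(fib σ₁ σ₂) := by
  intro g hg
  have h1 : g.1.1 ∈ σ₁.ker := hg
  have h2 : g.1.2 ∈ σ₂.ker := by
    have hge : σ₁ g.1.1 = σ₂ g.1.2 := g.2
    have hg1' : σ₁ g.1.1 = 1 := h1
    rw [MonoidHom.mem_ker, ← hge, hg1']
  rw [Subgroup.mem_center_iff]
  intro x
  apply Subtype.ext
  apply Prod.ext
  · exact Subgroup.mem_center_iff.mp (hc₁ h1) x.1.1
  · exact Subgroup.mem_center_iff.mp (hc₂ h2) x.1.2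

/-- the kernel of the fibre product of two stem extensions with kernels of exponents `4` and
`3` lies in the commutator subgroup -/
theorem fibHom_ker_le_commutator (h₁ : Function.Surjective σ₁) (h₂ : Function.Surjective σ₂)
    (hk₁ : σ₁.ker ≤ commutator G₁) (hk₂ : σ₂.ker ≤ commutator G₂)
    (e₁ : ∀ k ∈ σ₁.ker, k ^ 4 = 1) (e₂ : ∀ k ∈ σ₂.ker, k ^ 3 = 1) :
    (fibHom σ₁ σ₂).ker ≤ commutator ↥(fib σ₁ σ₂) := by
  intro g hg
  have hg1 : g.1.1 ∈ σ₁.ker := hg
  have hg2 : g.1.2 ∈ σ₂.ker := by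
    have hge : σ₁ g.1.1 = σ₂ g.1.2 := g.2
    have hg1' : σ₁ g.1.1 = 1 := hg1
    rw [MonoidHom.mem_ker, ← hge, hg1']
  -- lift of the first component
  have a1 : g.1.1 ∈ (commutator ↥(fib σ₁ σ₂)).map (fibFst σ₁ σ₂) := by
    rw [map_commutator_of_surjective _ (fibFst_surj h₂)]
    exact hk₁ hg1
  obtain ⟨x, hx, hx1⟩ := a1
  have hx1' : x.1.1 = g.1.1 := hx1
  have hx2 : x.1.2 ∈ σ₂.ker := by
    have hxe : σ₁ x.1.1 = σ₂ x.1.2 := x.2
    have hg1' : σ₁ g.1.1 = 1 := hg1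
    rw [MonoidHom.mem_ker, ← hxe, hx1', hg1']
  have a2 : g.1.2 ∈ (commutator ↥(fib σ₁ σ₂)).map (fibSnd σ₁ σ₂) := by
    rw [map_commutator_of_surjective _ (fibSnd_surj h₁)]
    exact hk₂ hg2
  obtain ⟨y, hy, hy2⟩ := a2
  have hy2' : y.1.2 = g.1.2 := hy2
  have hy1 : y.1.1 ∈ σ₁.ker := by
    have hye : σ₁ y.1.1 = σ₂ y.1.2 := y.2
    have hg2' : σ₂ g.1.2 = 1 := hg2
    rw [MonoidHom.mem_ker, hye, hy2', hg2']
  have hprod : g = x ^ 9 * y ^ 4 := by
    apply Subtype.ext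
    apply Prod.ext
    · show g.1.1 = x.1.1 ^ 9 * y.1.1 ^ 4
      rw [e₁ _ hy1, mul_one, hx1']
      have h := e₁ _ hg1
      calc g.1.1 = (g.1.1 ^ 4) ^ 2 * g.1.1 := by rw [h, one_pow, one_mul]
        _ = g.1.1 ^ 9 := by rw [← pow_mul, ← pow_succ]
    · show g.1.2 = x.1.2 ^ 9 * y.1.2 ^ 4
      have h9 : x.1.2 ^ 9 = 1 := by
        rw [show 9 = 3 * 3 from rfl, pow_mul, e₂ _ hx2, one_pow]
      rw [h9, one_mul, hy2']
      have h := e₂ _ hg2
      calc g.1.2 = g.1.2 ^ 3 * g.1.2 := by rw [h, one_mul]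
        _ = g.1.2 ^ 4 := by rw [← pow_succ]
  rw [hprod]
  exact Subgroup.mul_mem _ (Subgroup.pow_mem _ hx 9) (Subgroup.pow_mem _ hy 4)

/-- the kernel of the fibre product is in bijection with the product of the kernels -/
def fibKerEquiv : ↥(fibHom σ₁ σ₂).ker ≃ ↥σ₁.ker × ↥σ₂.ker where
  toFun g := (⟨g.1.1.1, g.2⟩, ⟨g.1.1.2, by
    have hge : σ₁ g.1.1.1 = σ₂ g.1.1.2 := g.1.2
    have hg1 : σ₁ g.1.1.1 = 1 := g.2
    rw [MonoidHom.mem_ker, ← hge, hg1]⟩)
  invFun k := ⟨⟨(k.1.1, k.2.1), by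
    show σ₁ k.1.1 = σ₂ k.2.1
    rw [MonoidHom.mem_ker.mp k.1.2, MonoidHom.mem_ker.mp k.2.2]⟩, k.1.2⟩
  left_inv _ := rfl
  right_inv _ := rfl

end Fiber

end Cfsg.Agent.Lib.Helper7.SA
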