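import Mathlib
import Cfsg.Agent.Lib.Helper7.M22Cover4
import Cfsg.Agent.Lib.Helper7.M22Cert4
import Cfsg.Agent.Lib.Helper7.StemAux
import Cfsg.Agent.Lib.Helper7.SignCoreC

set_option autoImplicit false
set_option maxRecDepth 100000

/-! # The fourfold cover of `M22`: order, point stabiliser, generation, the sign method -/

namespace Cfsg.Agent.Lib.Helper7.M22Q

open Cfsg Cfsg.Agent.Lib.Helper7 Cfsg.Agent.Lib.Helper7.Mono Cfsg.Agent.Lib.Helper7.MTab
open Cfsg.Agent.Lib.Helper35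
open scoped commutatorElement

/-- the base point -/
def P0 : ℕ := 800

theorem P0_lt : P0 < 4928 := by decide

/-- the stabiliser of the base point -/
def Hh : Subgroup (PP 4928) where
  carrier := {g | g ∈ Gam MM ∧ ap g.1 P0 = P0}
  mul_mem' := by
    rintro a b ⟨ha, ha'⟩ ⟨hb, hb'⟩
    refine ⟨(Gam MM).mul_mem ha hb, ?_⟩
    show ap (a.1 * b.1) P0 = P0
    rw [ap_mul, hb', ha']
  one_mem' := ⟨(Gam MM).one_mem, ap_one P0⟩
  inv_mem' := by
    rintro a ⟨ha, ha'⟩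
    refine ⟨(Gam MM).inv_mem ha, ?_⟩
    show ap a.1⁻¹ P0 = P0
    exact ap_inv_of a.1 P0_lt ha'

theorem Hh_le : Hh ≤ Gam MM := fun _ h => h.1

theorem ap_γ (j : ℕ) (hj : j < 3) (x : ℕ) (hx : x < 4928) : ap (γ j).1 x = tb (2 * j) x := by
  have h := ap_letY (2 * j) (by omega) x hx
  rw [CS.letY_even] at h
  exact h

theorem γ0_mem : γ 0 ∈ Hh :=
  ⟨γ_mem 0, (ap_γ 0 (by norm_num) P0 P0_lt).trans (by decide +kernel)⟩

theorem γ1_mem : γ 1 ∈ Hh :=
  ⟨γ_mem 1, (ap_γ 1 (by norm_num) P0 P0_lt).trans (by decide +kernel)⟩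

/-- an element of the stabiliser with trivial Golay part is trivial -/
theorem eq_one_of_Hh {h : PP 4928} (hh : h ∈ Hh) (h2 : h.2 = 1) : h = 1 :=
  Gam_ext hh.1 (Gam MM).one_mem h2 P0 P0_lt (hh.2.trans (ap_one P0).symm)

/-! ### cosets and points -/

theorem dm_ok : allN2 64 77 (fun c => allN 6 (fun l =>
    tb l (M22C.dm (M22C.nx c l)) == M22C.dm c)) = true := by
  decide +kernel

theorem dm_step (c : ℕ) (hc : c < 4928) (l : ℕ) (hl : l < 6) :
    tb l (M22C.dm (M22C.nx c l)) = M22C.dm c :=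
  eq_of_beq (allN_spec _ _ (allN2_spec _ _ _ dm_ok c hc) l hl)

/-- the coset representatives -/
noncomputable abbrev rhoG (c : ℕ) : PP 4928 := CS.rho γ M22C.par M22C.plet c

theorem rhoG_succ (c : ℕ) (h0 : 0 < c) (hc : c < 4928) :
    rhoG c = rhoG (M22C.par c) * CS.letY γ (M22C.plet c) :=
  CS.rho_succ γ M22C.par M22C.plet 4928 (fun c h0 hc => (M22C.htree c h0 hc).1) c h0 hc

/-- the subgroup generated by the three generators -/
abbrev CC : Subgroup (PP 4928) := Subgroup.closure {γ 0, γ 1, γ 2}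

/-- the subgroup generated by the first two generators -/
abbrev TT : Subgroup (PP 4928) := Subgroup.closure {γ 0, γ 1}

theorem CC_le : CC ≤ Gam MM := by
  rw [Subgroup.closure_le]
  rintro x (rfl | rfl | rfl)
  · exact γ_mem 0
  · exact γ_mem 1
  · exact γ_mem 2

theorem TT_le_Hh : TT ≤ Hh := by
  rw [Subgroup.closure_le]
  rintro x (rfl | rfl)
  · exact γ0_mem
  · exact γ1_mem

theorem TT_le_CC : TT ≤ CC := by
  apply Subgroup.closure_mono
  rintro x (rfl | rfl)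
  · exact Set.mem_insert _ _
  · exact Set.mem_insert_of_mem _ (Set.mem_insert _ _)

theorem letY_mem_CC (l : ℕ) (hl : l < 6) : CS.letY γ l ∈ CC := by
  have h := CS.evY_mem_closure γ [l] (fun l' hl' => by rw [List.mem_singleton.mp hl']; exact hl)
  rw [CS.evY_cons, CS.evY_nil, mul_one] at h
  exact h

theorem rho_mem_CC : ∀ c, c < 4928 → rhoG c ∈ CC := by
  intro c
  induction c using Nat.strong_induction_on with
  | _ c ih =>
    intro hc
    rcases Nat.eq_zero_or_pos c with rfl | hpos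
    · exact Subgroup.one_mem _
    · rw [rhoG_succ c hpos hc]
      obtain ⟨hp, hl, -⟩ := M22C.htree c hpos hc
      exact Subgroup.mul_mem _ (ih _ hp (by omega)) (letY_mem_CC _ hl)

theorem rho_mem (c : ℕ) (hc : c < 4928) : rhoG c ∈ Gam MM := CC_le (rho_mem_CC c hc)

theorem dm0 : M22C.dm 0 = P0 := M22C.dm_zero

theorem rho_dm : ∀ c, c < 4928 → ap (rhoG c).1 (M22C.dm c) = P0 := by
  intro c
  induction c using Nat.strong_induction_on with
  | _ c ih =>
    intro hc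
    rcases Nat.eq_zero_or_pos c with rfl | hpos
    · rw [dm0]
      exact ap_one P0
    · obtain ⟨hpar, hplet, hnx⟩ := M22C.htree c hpos hc
      rw [rhoG_succ c hpos hc]
      show ap ((rhoG (M22C.par c)).1 * (CS.letY γ (M22C.plet c)).1) (M22C.dm c) = P0
      have h := dm_step (M22C.par c) (by omega) (M22C.plet c) hplet
      rw [hnx] at h
      rw [ap_mul, ap_letY _ hplet _ (M22C.dm_lt c hc), h]
      exact ih _ hpar (by omega)

theorem rho_inv_pt (c : ℕ) (hc : c < 4928) : ap (rhoG c).1⁻¹ P0 = M22C.dm c :=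
  ap_inv_of _ (M22C.dm_lt c hc) (rho_dm c hc)

theorem hexG : ∀ c < 4928, ∀ j < 3,
    rhoG c * γ j * (rhoG (M22C.nx c (2 * j)))⁻¹ ∈ Hh := by
  intro c hc j hj
  have hc' : M22C.nx c (2 * j) < 4928 := (M22C.htab c hc j hj).1
  refine ⟨(Gam MM).mul_mem ((Gam MM).mul_mem (rho_mem c hc) (γ_mem j))
    ((Gam MM).inv_mem (rho_mem _ hc')), ?_⟩
  show ap ((rhoG c).1 * (γ j).1 * (rhoG (M22C.nx c (2 * j))).1⁻¹) P0 = P0
  rw [ap_mul, ap_mul, rho_inv_pt _ hc', ap_γ j hj _ (M22C.dm_lt _ hc'),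
    dm_step c hc (2 * j) (by omega)]
  exact rho_dm c hc

theorem hneG : ∀ c, 0 < c → c < 4928 → rhoG c ∉ Hh := by
  intro c h0 hc hmem
  have h1 : ap (rhoG c).1 P0 = P0 := hmem.2
  have h3 : M22C.dm c = P0 :=
    ap_inj (rhoG c).1 (M22C.dm_lt c hc) P0_lt ((rho_dm c hc).trans h1.symm)
  have h4 := M22C.pos_dm c hc
  have h5 := M22C.pos_dm 0 (by norm_num)
  rw [h3] at h4
  rw [dm0] at h5
  omega

/-! ### the order of the cover -/

theorem card_le : Nat.card ↥(Gam MM) ≤ 1774080 := by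
  rw [card_Gam MM]
  have h1 : orderOf MM.zeta = 4 := orderOf_zeta
  have h2 : Nat.card ↥(sig MM).range ≤ 443520 := by
    rw [← Cfsg.Agent.Lib.Helper86.card_M22]
    exact Subgroup.card_le_card_group _
  rw [h1]
  omega

/-- the orbit of the base point has `4928` elements -/
theorem orbit_card (S T : Subgroup (PP 4928)) (hTS : T ≤ S) (hT : T ≤ Hh) (hS : CC ≤ S) :
    4928 * Nat.card ↥T ≤ Nat.card ↥S := by
  apply SA.card_mul_le (MonoidHom.fst (Equiv.Perm (Fin 4928)) (Equiv.Perm GolayPt)) S T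
    (⟨P0, P0_lt⟩ : Fin 4928) hTS ?_ 4928 (fun c => (rhoG c)⁻¹) ?_ ?_
  · intro t ht
    apply Fin.ext
    show ((t.1 ⟨P0, P0_lt⟩ : Fin 4928) : ℕ) = P0
    rw [← ap_of_lt t.1 P0_lt]
    exact (hT ht).2
  · intro c
    exact S.inv_mem (hS (rho_mem_CC c c.2))
  · intro c c' h
    have h' : ((rhoG c).1⁻¹ ⟨P0, P0_lt⟩ : Fin 4928) = (rhoG c').1⁻¹ ⟨P0, P0_lt⟩ := h
    have h2 := congrArg Fin.val h'
    rw [← ap_of_lt _ P0_lt, ← ap_of_lt _ P0_lt, rho_inv_pt c c.2, rho_inv_pt c' c'.2] at h2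
    have h3 := M22C.pos_dm c c.2
    rw [h2, M22C.pos_dm c' c'.2] at h3
    exact Fin.ext h3.symm

/-- elements fixing a list of Golay points -/
def fixL (L : List ℕ) : Subgroup (PP 4928) where
  carrier := {g | ∀ b ∈ L, g.2 (pt b) = pt b}
  mul_mem' := by
    intro a b ha hb c hc
    show a.2 (b.2 (pt c)) = pt c
    rw [hb c hc, ha c hc]
  one_mem' := fun _ _ => rfl
  inv_mem' := by
    intro a ha c hc
    show a.2⁻¹ (pt c) = pt c
    rw [Equiv.Perm.inv_eq_iff_eq]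
    exact (ha c hc).symm

/-- check of one level of a stabiliser chain -/
def lvlOK (L : List ℕ) (p : ℕ) (W : List (List ℕ)) (I : List ℕ) (k : ℕ) : Bool :=
  allN k (fun j => (W.getD j []).all (fun l => decide (l < 4)) &&
    L.all (fun b => nlane (evalT tabs6p (W.getD j [])) b == b) &&
    (nlane (evalT tabs6p (W.getD j [])) p == I.getD j 0)) &&
  allN k (fun i => allN k (fun j => i == j || I.getD i 0 != I.getD j 0))

theorem lvl_card (L : List ℕ) (p : ℕ) (W : List (List ℕ)) (I : List ℕ) (k : ℕ)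
    (hL : ∀ b ∈ L, b < 24) (hp : p < 24) (h : lvlOK L p W I k = true) :
    k * Nat.card ↥(TT ⊓ fixL (p :: L)) ≤ Nat.card ↥(TT ⊓ fixL L) := by
  unfold lvlOK at h
  rw [Bool.and_eq_true] at h
  obtain ⟨h1, h2⟩ := h
  have key : ∀ j < k, (∀ l ∈ W.getD j [], l < 4) ∧
      (∀ b ∈ L, nlane (evalT tabs6p (W.getD j [])) b = b) ∧
      nlane (evalT tabs6p (W.getD j [])) p = I.getD j 0 := by
    intro j hj
    have hj' := allN_spec _ _ h1 j hj
    rw [Bool.and_eq_true, Bool.and_eq_true] at hj'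
    obtain ⟨⟨ha, hb⟩, hc⟩ := hj'
    exact ⟨fun l hl => of_decide_eq_true (List.all_eq_true.mp ha l hl),
      fun b hb' => eq_of_beq (List.all_eq_true.mp hb b hb'), eq_of_beq hc⟩
  apply SA.card_mul_le (MonoidHom.snd (Equiv.Perm (Fin 4928)) (Equiv.Perm GolayPt))
    (TT ⊓ fixL L) (TT ⊓ fixL (p :: L)) (pt p) ?_ ?_ k (fun j => CS.evY γ (W.getD j [])) ?_ ?_
  · intro g hg
    exact ⟨hg.1, fun b hb => hg.2 b (List.mem_cons_of_mem _ hb)⟩
  · intro t ht
    exact ht.2 p List.mem_cons_self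
  · intro j
    obtain ⟨ha, hb, -⟩ := key j j.2
    refine ⟨CS.evY_mem TT γ (Subgroup.subset_closure (Set.mem_insert _ _))
      (Subgroup.subset_closure (Set.mem_insert_of_mem _ (Set.mem_singleton _))) _ ha, ?_⟩
    intro b hb'
    show (CS.evY γ (W.getD j [])).2 (pt b) = pt b
    rw [(repT_evY _).apply_pt (hL b hb'), hb b hb']
  · intro i j hij
    have hij' : (CS.evY γ (W.getD i [])).2 (pt p) = (CS.evY γ (W.getD j [])).2 (pt p) := hij
    obtain ⟨-, -, hi⟩ := key i i.2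
    obtain ⟨-, -, hj⟩ := key j j.2
    rw [(repT_evY _).apply_pt hp, (repT_evY _).apply_pt hp] at hij'
    have e := congrArg idx hij'
    rw [idx_pt (nlane_lt _ _), idx_pt (nlane_lt _ _), hi, hj] at e
    have h3 := allN_spec _ _ (allN_spec _ _ h2 i i.2) j j.2
    rw [Bool.or_eq_true] at h3
    rcases h3 with h3 | h3
    · exact Fin.ext (eq_of_beq h3)
    · rw [e] at h3
      simp at h3

theorem card_TT_ge : 360 ≤ Nat.card ↥TT := by
  have h1 := lvl_card [] 1 [[], [2], [2, 0, 2], [0, 3], [3], [0, 2]]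
    [1, 5, 10, 12, 16, 19] 6 (by decide) (by norm_num) (by decide +kernel)
  have h2 := lvl_card [1] 5 [[], [2, 2, 0, 3, 0], [2, 2, 0, 3], [2, 0, 2, 2], [0]]
    [5, 10, 12, 16, 19] 5 (by decide) (by norm_num) (by decide +kernel)
  have h3 := lvl_card [5, 1] 10 [[], [3, 0, 3, 0, 2, 0, 2], [2, 0, 2, 0, 3, 0, 3, 0, 2], [0, 2, 2, 0, 2, 0, 3]]
    [10, 12, 16, 19] 4 (by decide) (by norm_num) (by decide +kernel)
  have h4 := lvl_card [10, 5, 1] 12 [[], [2, 0, 3, 0, 2, 0, 2, 2, 0, 2, 0], [0, 3, 0, 2, 2, 0, 3, 0, 2, 0, 3]]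
    [12, 16, 19] 3 (by decide) (by norm_num) (by decide +kernel)
  have h5 : 0 < Nat.card ↥(TT ⊓ fixL [12, 10, 5, 1]) := Nat.card_pos
  have h6 : Nat.card ↥(TT ⊓ fixL []) ≤ Nat.card ↥TT := Subgroup.card_le_of_le inf_le_left
  omega

theorem card_Gam4 : Nat.card ↥(Gam MM) = 1774080 := by
  have h1 := orbit_card (Gam MM) TT (TT_le_CC.trans CC_le) TT_le_Hh CC_le
  have h2 := card_TT_ge
  have h3 := card_le
  omega

theorem card_CC : Nat.card ↥CC = 1774080 := by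
  have h1 := orbit_card CC TT TT_le_CC TT_le_Hh le_rfl
  have h2 := card_TT_ge
  have h3 := card_le
  have h4 : Nat.card ↥CC ≤ Nat.card ↥(Gam MM) := Subgroup.card_le_of_le CC_le
  omega

theorem CC_eq : CC = Gam MM :=
  Subgroup.eq_of_le_of_card_ge CC_le (by rw [card_CC, card_Gam4])

theorem card_Hh : Nat.card ↥Hh = 360 := by
  have h1 := orbit_card (Gam MM) Hh Hh_le le_rfl CC_le
  have h2 := card_TT_ge
  have h3 : Nat.card ↥TT ≤ Nat.card ↥Hh := Subgroup.card_le_of_le TT_le_Hh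
  rw [card_Gam4] at h1
  omega

theorem TT_eq : TT = Hh :=
  Subgroup.eq_of_le_of_card_ge TT_le_Hh (by
    rw [card_Hh]
    exact card_TT_ge)

theorem sig_surj : Function.Surjective (sig MM) := by
  have h := card_Gam MM
  have h1 : orderOf MM.zeta = 4 := orderOf_zeta
  rw [card_Gam4, h1] at h
  have h2 : Nat.card ↥(sig MM).range = Nat.card ↥Spor.M22 := by
    rw [Cfsg.Agent.Lib.Helper86.card_M22]
    omega
  exact MonoidHom.range_eq_top.mp (Subgroup.eq_top_of_card_eq _ h2)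

/-! ### perfectness -/

theorem ker_le_comm : (sig MM).ker ≤ commutator ↥(Gam MM) :=
  ker_le_comm_of (u := [0, 4, 0, 5, 0, 2, 0, 4]) (v := [3, 0, 5, 2, 2, 4, 2]) (by decide +kernel)

theorem γ_eq_comm (j : ℕ) (hj : j < 3) : ∃ a b : PP 4928, a ∈ Gam MM ∧ b ∈ Gam MM ∧
    (j < 2 → a ∈ Hh ∧ b ∈ Hh) ∧ γ j = ⁅a, b⁆ := by
  have hH : ∀ w : List ℕ, (∀ l ∈ w, l < 4) → CS.evY γ w ∈ Hh := fun w hw =>
    CS.evY_mem Hh γ γ0_mem γ1_mem w hw
  have hl : ∀ j, γ j = CS.evY γ [2 * j] := by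
    intro j
    rw [CS.evY_cons, CS.evY_nil, mul_one, CS.letY_even]
  interval_cases j
  · refine ⟨CS.evY γ [2, 0, 2], CS.evY γ [2, 0, 2, 2, 0, 3, 0, 2, 2, 0], evY_mem _, evY_mem _,
      fun _ => ⟨hH _ (by decide), hH _ (by decide)⟩, ?_⟩
    rw [comm_evY, hl 0]
    exact evY_eq_of_weq (by decide +kernel)
  · refine ⟨CS.evY γ [0, 2, 0], CS.evY γ [0, 2, 0, 3, 0, 2, 2, 0, 3], evY_mem _, evY_mem _,
      fun _ => ⟨hH _ (by decide), hH _ (by decide)⟩, ?_⟩
    rw [comm_evY, hl 1]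
    exact evY_eq_of_weq (by decide +kernel)
  · refine ⟨CS.evY γ [2, 4, 0, 2, 2, 0, 5, 3], CS.evY γ [4], evY_mem _, evY_mem _,
      fun h => absurd h (by norm_num), ?_⟩
    rw [comm_evY, hl 2]
    exact evY_eq_of_weq (by decide +kernel)

/-- the stabiliser is perfect -/
theorem Hh_perfect : ⁅Hh, Hh⁆ = Hh := by
  apply le_antisymm
  · rw [Subgroup.commutator_le]
    intro a ha b hb
    rw [commutatorElement_def]
    exact Hh.mul_mem (Hh.mul_mem (Hh.mul_mem ha hb) (Hh.inv_mem ha)) (Hh.inv_mem hb)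
  rw [← TT_eq, Subgroup.closure_le]
  rw [TT_eq]
  rintro x (rfl | rfl)
  · obtain ⟨a, b, -, -, hab, e⟩ := γ_eq_comm 0 (by norm_num)
    rw [e]
    exact Subgroup.commutator_mem_commutator (hab (by norm_num)).1 (hab (by norm_num)).2
  · obtain ⟨a, b, -, -, hab, e⟩ := γ_eq_comm 1 (by norm_num)
    rw [e]
    exact Subgroup.commutator_mem_commutator (hab (by norm_num)).1 (hab (by norm_num)).2

/-- the cover is perfect -/
theorem Gam_perfect : commutator ↥(Gam MM) = ⊤ := by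
  rw [eq_top_iff]
  intro g _
  have hg : (g : PP 4928) ∈ CC := by
    rw [CC_eq]
    exact g.2
  have hle : CC ≤ (commutator ↥(Gam MM)).map (Gam MM).subtype := by
    rw [Subgroup.closure_le]
    intro x hx
    have hx' : ∃ j < 3, x = γ j := by
      rcases hx with rfl | rfl | rfl
      · exact ⟨0, by norm_num, rfl⟩
      · exact ⟨1, by norm_num, rfl⟩
      · exact ⟨2, by norm_num, rfl⟩
    obtain ⟨j, hj, rfl⟩ := hx'
    obtain ⟨a, b, ha, hb, -, e⟩ := γ_eq_comm j hj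
    refine ⟨⁅(⟨a, ha⟩ : ↥(Gam MM)), ⟨b, hb⟩⁆, ?_, ?_⟩
    · rw [commutator_def]
      exact Subgroup.commutator_mem_commutator (Subgroup.mem_top _) (Subgroup.mem_top _)
    · rw [e]
      rfl
  obtain ⟨g', hg', hgg⟩ := hle hg
  have e : g' = g := Subtype.ext hgg
  rw [← e]
  exact hg'

/-! ### the relators -/

/-- relators in the generators of the stabiliser -/
def hrels : List (List ℕ) := [[0, 0], [2, 2, 2, 2], [0, 2, 0, 2, 0, 2, 0, 2, 0, 2], [0, 2, 2, 0, 2, 2, 0, 2, 2, 0, 2, 2, 0, 2, 2]]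

/-- data `(U, Z, U2, Z2)` of the relators `U⁻¹ Z U = U2⁻¹ Z2 U2` between elements of order three -/
def r3 : List (List ℕ × List ℕ × List ℕ × List ℕ) :=
  [([3], [0, 2, 0, 2, 0, 3, 0, 2, 2], [], [0, 3, 0, 2, 2, 0, 2]),
   ([3, 0, 5, 2], [5], [3, 0, 5, 3], [4]),
   ([4, 0, 2], [0, 2, 0, 3, 0, 2, 2, 0, 2], [0, 5], [5]),
   ([4, 3, 5], [3, 0, 3, 0, 2, 0, 2, 2, 0], [2, 2], [5]),
   ([4, 0, 2], [3, 0, 2, 2, 0, 2, 0, 3, 0], [0, 5], [4]),
   ([4, 3, 5], [0, 2, 2, 0, 3, 0, 2, 0, 2], [2, 2], [4]),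
   ([0, 4, 0], [4], [4, 0, 2], [2, 0, 2, 0, 3, 0, 2]),
   ([3], [2, 0, 2, 0, 3, 0, 2, 2, 0], [], [2, 0, 3, 0, 2, 0, 2, 2, 0, 2]),
   ([3], [2, 0, 2, 2, 0, 2, 0, 3, 0, 2], [], [0, 2, 2, 0, 3, 0, 2, 0, 2]),
   ([3], [2, 2, 0, 3, 0, 2, 0, 2, 2, 0], [], [0, 2, 0, 3, 0, 2, 2, 0, 2]),
   ([2], [2, 2, 0, 2, 0, 3, 0, 2, 2, 0], [], [0, 3, 0, 2, 0, 2, 2, 0, 3]),
   ([3], [2, 0, 2, 2, 0, 3, 0, 2, 0], [], [0, 2, 2, 0, 2, 0, 3, 0, 2, 2]),
   ([2], [3, 0, 2, 2, 0, 2, 0, 3, 0], [], [0, 2, 2, 0, 3, 0, 2, 0, 2, 2]),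
   ([2], [0, 2, 0, 3, 0, 2, 0, 2, 2, 0, 2], [], [0, 3, 0, 2, 2, 0, 2, 0, 3])]

/-- the relator of a quadruple -/
def r3word (d : List ℕ × List ℕ × List ℕ × List ℕ) : List ℕ :=
  CS.winv d.1 ++ d.2.1 ++ d.1 ++ CS.winv (CS.winv d.2.2.1 ++ d.2.2.2 ++ d.2.2.1)

theorem rels_eq : M22C.rels = hrels ++ [[4, 4, 4]] ++ r3.map r3word := by decide +kernel

/-- check that a word has trivial cube for a reason that lifts -/
def cubOK (Z : List ℕ) : Bool :=
  (Z.all (fun l => decide (l < 4)) && weq (wrep Z 3) []) || Z == [4] || Z == [5]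

theorem cub_of_ok {Z : List ℕ} (h : cubOK Z = true) : CS.Cub γ Z := by
  unfold cubOK at h
  rw [Bool.or_eq_true, Bool.or_eq_true, Bool.and_eq_true] at h
  rcases h with (⟨h1, h2⟩ | h) | h
  · left
    refine ⟨fun l hl => of_decide_eq_true (List.all_eq_true.mp h1 l hl), ?_⟩
    rw [← evY_wrep]
    exact evY_eq_one_of_weq h2
  · right
    left
    exact eq_of_beq h
  · right
    right
    exact eq_of_beq h

/-- check of a relator in the generators of the stabiliser -/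
def hOK (r : List ℕ) : Bool := r.all (fun l => decide (l < 4)) && weq r []

/-- check of a relator between elements of order three -/
def r3OK (d : List ℕ × List ℕ × List ℕ × List ℕ) : Bool :=
  cubOK d.2.1 && cubOK d.2.2.2 &&
    weq (CS.winv d.1 ++ d.2.1 ++ d.1) (CS.winv d.2.2.1 ++ d.2.2.2 ++ d.2.2.1)

theorem hrels_ok : hrels.all hOK = true := by decide +kernel

theorem r3_ok : r3.all r3OK = true := by decide +kernel

theorem goodR : ∀ r ∈ M22C.rels, (∀ l ∈ r, l < 6) ∧ CS.GoodR γ r := by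
  intro r hr
  refine ⟨M22C.rels_lt r hr, ?_⟩
  rw [rels_eq, List.mem_append, List.mem_append] at hr
  rcases hr with (hr | hr) | hr
  · have h := List.all_eq_true.mp hrels_ok r hr
    unfold hOK at h
    rw [Bool.and_eq_true] at h
    left
    exact ⟨fun l hl => of_decide_eq_true (List.all_eq_true.mp h.1 l hl),
      evY_eq_one_of_weq h.2⟩
  · right
    left
    exact List.mem_singleton.mp hr
  · obtain ⟨d, hd, rfl⟩ := List.mem_map.mp hr
    have h := List.all_eq_true.mp r3_ok d hd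
    unfold r3OK at h
    rw [Bool.and_eq_true, Bool.and_eq_true] at h
    right
    right
    exact ⟨d.1, d.2.1, d.2.2.1, d.2.2.2, rfl, cub_of_ok h.1.1, cub_of_ok h.1.2,
      evY_eq_of_weq h.2⟩

theorem γ2_cube : γ 2 ^ 3 = 1 := by
  have h := evY_eq_one_of_weq (w := wrep [4] 3) (by decide +kernel)
  rw [evY_wrep, CS.evY_cons, CS.evY_nil, mul_one] at h
  have e : CS.letY γ 4 = γ 2 := CS.letY_even γ 2
  rw [e] at h
  exact h

end Cfsg.Agent.Lib.Helper7.M22Q
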