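import Mathlib
import Cfsg.Agent.Lib.Helper7.M22RowsB1

set_option autoImplicit false
set_option maxRecDepth 100000

/-! # The sign certificate for the coset table of the fourfold cover of `M22`: reductions

A list of rows (a relator read from a coset) whose leading unknowns decrease by one, and a list
of rows given with their reductions modulo the former, for which the remaining linear system over
`ZMod 2` has only the trivial solution.  Everything here is checked by kernel computation. -/

namespace Cfsg.Agent.Lib.Helper7.M22C

open Cfsg.Agent.Lib.Helper7 Cfsg.Agent.Lib.Helper7.Mono Cfsg.Agent.Lib.Helper7.MTab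

theorem fb_ok_8 : FB8.all (CSC.flagOK 4928 nx vt rels 498 rowsD) = true := by
  decide +kernel

theorem fb_ok_9 : FB9.all (CSC.flagOK 4928 nx vt rels 498 rowsD) = true := by
  decide +kernel

theorem fb_ok_10 : FB10.all (CSC.flagOK 4928 nx vt rels 498 rowsD) = true := by
  decide +kernel

theorem fb_ok_11 : FB11.all (CSC.flagOK 4928 nx vt rels 498 rowsD) = true := by
  decide +kernel

end Cfsg.Agent.Lib.Helper7.M22C
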