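import Mathlib
import Cfsg.Agent.Lib.Helper7.M22Four
import Cfsg.Agent.Lib.Helper7.M22Rows4

set_option autoImplicit false

/-! # The sign method for the fourfold cover of `M22` -/

namespace Cfsg.Agent.Lib.Helper7.M22Q

open Cfsg Cfsg.Agent.Lib.Helper7 Cfsg.Agent.Lib.Helper7.Mono Cfsg.Agent.Lib.Helper7.MTab
open scoped commutatorElement

/-- A central extension of the cover by a group of order two that splits over the stabiliser of
a point does not have its kernel inside the commutator subgroup. -/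
theorem sign_Gam {Y : Type*} [Group Y] (τ : Y →* PP 4928) (z : Y) (hz1 : z ≠ 1)
    (hker : ∀ k : Y, τ k = 1 → k = 1 ∨ k = z) (hzk : τ z = 1)
    (S : Subgroup Y) (hS : ∀ s ∈ S, τ s = 1 → s = 1) (hSH : S.map τ = Hh)
    (hrange : τ.range = Gam MM) : z ∉ commutator Y :=
  CSC.sign_coreC τ z hz1 hker hzk S hS Hh hSH γ γ0_mem γ1_mem
    (by rw [hrange]; exact γ_mem 2) γ2_cube γ_ge
    4928 M22C.nx M22C.par M22C.plet M22C.vt M22C.it 9855 (by norm_num) M22C.htab M22C.htree
    M22C.vhyp hexG hneG M22C.rels goodR 498 (by norm_num) M22C.rowsD M22C.rowsD_ok M22C.lead_ok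
    M22C.rowsF M22C.rowsF_ok M22C.chk_ok
    (by rw [hrange, ← CC_eq])

end Cfsg.Agent.Lib.Helper7.M22Q
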