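import Mathlib
import Cfsg.Agent.Lib.Helper7.M22Sign4
import Cfsg.Agent.Lib.Helper35.SchurLocal

set_option autoImplicit false
set_option maxRecDepth 100000

/-! # The fourfold cover of `M22`: no central extension by a group of order two is a stem extension

A central extension by a group of order two of the cover splits over the stabiliser of a point
(a copy of the alternating group of degree six): its Sylow `2`-subgroup lies in a semidihedral
group of order `16`, whose multiplier is trivial.  The sign method then shows that the central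
involution is not a product of commutators. -/

namespace Cfsg.Agent.Lib.Helper7.M22Q

open Cfsg Cfsg.Agent.Lib.Helper7 Cfsg.Agent.Lib.Helper7.Mono Cfsg.Agent.Lib.Helper7.MTab
open Cfsg.Agent.Lib.Helper35
open scoped commutatorElement

/-! ### a semidihedral subgroup -/

/-- word of an element of order eight normalising the stabiliser -/
def wx : List ℕ := [0, 4, 3, 0, 5, 2, 4, 3, 5, 2, 4]
/-- word of an involution of the stabiliser -/
def wy : List ℕ := [0]
/-- word of the square of the element of order eight -/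
def wv : List ℕ := [0, 2, 0, 3]

/-- the Golay part of the element of order eight -/
noncomputable def rS : ↥Spor.M22 := sig MM (evG wx)
/-- the Golay part of the involution -/
noncomputable def sS : ↥Spor.M22 := sig MM (evG wy)

/-- packed table of `rS` -/
def TR : ℕ := evalT tabs6p wx
/-- packed table of `sS` -/
def TS : ℕ := evalT tabs6p wy

theorem repR : RepT (rS : Equiv.Perm GolayPt) TR := repT_evY wx
theorem repS : RepT (sS : Equiv.Perm GolayPt) TS := repT_evY wy

theorem ne_one_of_rep {σ : Equiv.Perm GolayPt} {T : ℕ} (h : RepT σ T) (i : ℕ) (hi : i < 24)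
    (hne : nlane T i ≠ i) : σ ≠ 1 := by
  intro e
  have h1 := h.apply_pt hi
  rw [e, Equiv.Perm.one_apply] at h1
  have h2 := congrArg idx h1
  rw [idx_pt hi, idx_pt (nlane_lt _ _)] at h2
  exact hne h2.symm

theorem repT_lane_eq {σ : Equiv.Perm GolayPt} {T T' : ℕ} (h : RepT σ T) (h' : RepT σ T') (i : ℕ)
    (hi : i < 24) : nlane T i = nlane T' i := by
  have h1 := h.apply_pt hi
  rw [h'.apply_pt hi] at h1
  have h2 := congrArg idx h1
  rw [idx_pt (nlane_lt _ _), idx_pt (nlane_lt _ _)] at h2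
  exact h2.symm

theorem rS_pow8 : rS ^ 8 = 1 := by
  apply Subtype.ext
  rw [Subgroup.coe_pow]
  have h := repT_pow repR 8
  have e : powT TR 8 = idT := by decide +kernel
  rw [e] at h
  exact h.ext repT_one

theorem rS_pow4 : rS ^ 4 ≠ 1 := by
  intro h
  have h1 := congrArg Subtype.val h
  rw [Subgroup.coe_pow] at h1
  exact ne_one_of_rep (repT_pow repR 4) 1 (by norm_num) (by decide +kernel) h1

theorem sS_sq : sS * sS = 1 := by
  apply Subtype.ext
  show (sS : Equiv.Perm GolayPt) * (sS : Equiv.Perm GolayPt) = 1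
  have h := repS.mul repS
  have e : mulT TS TS = idT := by decide +kernel
  rw [e] at h
  exact h.ext repT_one

theorem sS_rS : sS * rS = rS ^ 3 * sS := by
  apply Subtype.ext
  show (sS : Equiv.Perm GolayPt) * (rS : Equiv.Perm GolayPt)
    = (rS : Equiv.Perm GolayPt) ^ 3 * (sS : Equiv.Perm GolayPt)
  have h := repS.mul repR
  have h' := (repT_pow repR 3).mul repS
  have e : mulT TS TR = mulT (powT TR 3) TS := by decide +kernel
  rw [e] at h
  exact h.ext h'

/-- the element of order four of the stabiliser -/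
noncomputable def aD : PP 4928 := CS.evY γ wv
/-- the involution of the stabiliser -/
noncomputable def bD : PP 4928 := CS.evY γ wy

theorem aD_mem : aD ∈ Hh := CS.evY_mem Hh γ γ0_mem γ1_mem wv (by decide)
theorem bD_mem : bD ∈ Hh := CS.evY_mem Hh γ γ0_mem γ1_mem wy (by decide)

theorem aD_snd : aD.2 = ((rS ^ 2 : ↥Spor.M22) : Equiv.Perm GolayPt) := by
  rw [Subgroup.coe_pow]
  have h := repT_evY wv
  have e : evalT tabs6p wv = powT TR 2 := by decide +kernel
  rw [e] at h
  exact h.ext (repT_pow repR 2)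

theorem bD_snd : bD.2 = (sS : Equiv.Perm GolayPt) := rfl

theorem aD_pow4 : aD ^ 4 = 1 := by
  apply eq_one_of_Hh (Hh.pow_mem aD_mem 4)
  rw [Prod.pow_snd, aD_snd, ← Subgroup.coe_pow, ← pow_mul, rS_pow8]
  rfl

theorem aD_pow2 : aD ^ 2 ≠ 1 := by
  intro h
  have h1 := congrArg Prod.snd h
  rw [Prod.pow_snd, aD_snd, ← Subgroup.coe_pow, ← pow_mul] at h1
  exact rS_pow4 (Subtype.ext h1)

theorem orderOf_aD : orderOf aD = 4 := by
  have h := orderOf_eq_prime_pow (p := 2) (n := 1) (x := aD) (by rw [pow_one]; exact aD_pow2)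
    (by norm_num; exact aD_pow4)
  exact h.trans (by norm_num)

theorem bD_not_mem : bD ∉ Subgroup.zpowers aD := by
  intro h
  obtain ⟨k, hk⟩ := Subgroup.mem_zpowers_iff.mp h
  have hc : Commute aD bD := by
    rw [← hk]
    exact (Commute.refl aD).zpow_right k
  have h1 : aD.2 * bD.2 = bD.2 * aD.2 := congrArg Prod.snd hc.eq
  rw [aD_snd, bD_snd, Subgroup.coe_pow] at h1
  have ha := (repT_pow repR 2).mul repS
  have hb := repS.mul (repT_pow repR 2)
  rw [h1] at ha
  have h2 := repT_lane_eq ha hb 1 (by norm_num)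
  revert h2
  decide +kernel

/-- the intersection of the stabiliser with the semidihedral group -/
noncomputable def DD : Subgroup (PP 4928) :=
  Hh ⊓ ((Subgroup.closure ({rS, sS} : Set ↥Spor.M22)).map Spor.M22.subtype).comap
    (MonoidHom.snd (Equiv.Perm (Fin 4928)) (Equiv.Perm GolayPt))

theorem DD_le : DD ≤ Hh := inf_le_left

theorem mem_DD {g : PP 4928} : g ∈ DD ↔ g ∈ Hh ∧
    ∃ m ∈ Subgroup.closure ({rS, sS} : Set ↥Spor.M22), (m : Equiv.Perm GolayPt) = g.2 := Iff.rfl

theorem aD_mem_DD : aD ∈ DD :=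
  mem_DD.mpr ⟨aD_mem, rS ^ 2, Subgroup.pow_mem _ (Subgroup.subset_closure (Set.mem_insert _ _)) 2,
    aD_snd.symm⟩

theorem bD_mem_DD : bD ∈ DD :=
  mem_DD.mpr ⟨bD_mem, sS,
    Subgroup.subset_closure (Set.mem_insert_of_mem _ (Set.mem_singleton _)), rfl⟩

theorem DD_pgroup : IsPGroup 2 ↥DD := by
  intro g
  obtain ⟨hg1, m, hm, hmg⟩ := mem_DD.mp g.2
  obtain ⟨k, hk⟩ := sd16_isPGroup rS_pow8 sS_sq sS_rS ⟨m, hm⟩
  refine ⟨k, Subtype.ext ?_⟩
  rw [Subgroup.coe_pow]
  apply eq_one_of_Hh (Hh.pow_mem hg1 _)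
  rw [Prod.pow_snd, ← hmg, ← Subgroup.coe_pow]
  have h2 := congrArg Subtype.val hk
  rw [Subgroup.coe_pow] at h2
  rw [h2]
  rfl

theorem card_DD : 8 ∣ Nat.card ↥DD := by
  haveI : Fact (Nat.Prime 2) := ⟨Nat.prime_two⟩
  have h := pow_succ_dvd_card_of_pgroup DD (Subgroup.zpowers aD) DD_pgroup
    (by rw [Subgroup.zpowers_le]; exact aD_mem_DD) 2
    (by rw [Nat.card_zpowers, orderOf_aD]; norm_num) bD_mem_DD bD_not_mem
  exact h

theorem relIndex_odd : ∃ q : ℕ, DD.relIndex Hh = 2 * q + 1 := by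
  have h1 := Subgroup.card_mul_index (DD.subgroupOf Hh)
  rw [Nat.card_congr (Subgroup.subgroupOfEquivOfLe DD_le).toEquiv, card_Hh] at h1
  have h2 : DD.relIndex Hh = (DD.subgroupOf Hh).index := rfl
  rw [← h2] at h1
  obtain ⟨c, hc⟩ := card_DD
  rw [hc] at h1
  refine ⟨DD.relIndex Hh / 2, ?_⟩
  have h3 : DD.relIndex Hh % 2 = 1 := by
    by_contra h4
    have h5 : DD.relIndex Hh % 2 = 0 := by omega
    obtain ⟨d, hd⟩ := Nat.dvd_of_mod_eq_zero h5
    rw [hd] at h1
    have : 16 * (c * d) = 360 := by rw [← h1]; ring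
    omega
  omega

/-- a central extension of the cover by a group of exponent two, with perfect total group,
splits over the commutator subgroup of the preimage of the stabiliser -/
theorem split_Hh {Y : Type*} [Group Y] (τ : Y →* PP 4928) (hrange : τ.range = Gam MM)
    (hc : τ.ker ≤ Subgroup.center Y) (hY : commutator Y = ⊤) (hk2 : ∀ k : Y, τ k = 1 → k * k = 1)
    (s : Y) (hs : s ∈ ⁅Hh.comap τ, Hh.comap τ⁆) (hs1 : τ s = 1) : s = 1 := by
  have hmem : ∀ y : Y, τ y ∈ Gam MM := fun y => by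
    rw [← hrange]
    exact ⟨y, rfl⟩
  obtain ⟨τ', hτ'⟩ : ∃ τ' : Y →* ↥(Gam MM), ∀ y, ((τ' y : ↥(Gam MM)) : PP 4928) = τ y :=
    ⟨τ.codRestrict (Gam MM) hmem, fun y => rfl⟩
  have hτ's : Function.Surjective τ' := by
    intro g
    have hg : (g : PP 4928) ∈ τ.range := by
      rw [hrange]
      exact g.2
    obtain ⟨y, hy⟩ := hg
    exact ⟨y, Subtype.ext (by rw [hτ', hy])⟩
  have hker : ∀ y : Y, τ' y = 1 ↔ τ y = 1 := by
    intro y
    constructor
    · intro h
      rw [← hτ', h]
      rfl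
    · intro h
      exact Subtype.ext (by rw [hτ', h]; rfl)
  have hc' : τ'.ker ≤ Subgroup.center Y := fun y hy => hc ((hker y).mp hy)
  obtain ⟨φ, hφ⟩ : ∃ φ : Y →* ↥Spor.M22, φ = (sig MM).comp τ' := ⟨_, rfl⟩
  have hφs : Function.Surjective φ := by
    rw [hφ]
    exact sig_surj.comp hτ's
  have hφc : φ.ker ≤ Subgroup.center Y := by
    intro k hk
    apply SA.central_of_perfect τ' hc' hY k
    apply ker_le_center MM
    rw [hφ] at hk
    exact hk
  have hφv : ∀ y : Y, ((φ y : ↥Spor.M22) : Equiv.Perm GolayPt) = (τ y).2 := by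
    intro y
    rw [hφ, ← hτ']
    rfl
  have hle : DD.comap τ ≤ (Subgroup.closure ({rS, sS} : Set ↥Spor.M22)).comap φ := by
    intro y hy
    obtain ⟨-, m, hm, hmy⟩ := mem_DD.mp hy
    have e : φ y = m := Subtype.ext (by rw [hφv, hmy])
    show φ y ∈ Subgroup.closure ({rS, sS} : Set ↥Spor.M22)
    rw [e]
    exact hm
  have hDc : ∀ w ∈ ⁅DD.comap τ, DD.comap τ⁆, τ w = 1 → w = 1 := by
    intro w hw hw1
    have hw2 := Subgroup.commutator_mono hle hle hw
    rw [← Subgroup.map_subtype_commutator] at hw2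
    obtain ⟨w', hw', hww⟩ := hw2
    have hww' : (w' : Y) = w := hww
    rw [← hww']
    apply sd16_eq_one_of_mem_commutator φ hφs hφc rS_pow8 rS_pow4 sS_sq sS_rS w' hw'
    rw [hww', hφ]
    show sig MM (τ' w) = 1
    rw [(hker w).mpr hw1, map_one]
  have hpow := SA.pow_relIndex_eq_one Hh DD τ (by rw [hrange]; exact Hh_le) hc hDc s hs hs1
  obtain ⟨q, hq⟩ := relIndex_odd
  rw [hq, pow_succ, pow_mul, pow_two, hk2 s hs1, one_pow, one_mul] at hpow
  exact hpow

/-- no subgroup of index two in the kernel of a finite stem extension of the fourfold cover -/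
theorem core4 (Y : Type) [Group Y] [Finite Y] (τ : Y →* ↥(Gam MM)) (hτ : IsStemExtension τ)
    (K' : Subgroup ↥τ.ker) (hidx : K'.index = 2) : False := by
  classical
  have hker' : ∀ y : Y, ((Gam MM).subtype.comp τ) y = 1 ↔ τ y = 1 := fun y =>
    ⟨fun h => Subtype.ext h, fun h => by rw [MonoidHom.comp_apply, h]; rfl⟩
  have hYp : commutator Y = ⊤ := SA.perfect_of_stem τ hτ.1 hτ.2.2 Gam_perfect
  have hK₁A : K'.map τ.ker.subtype ≤ τ.ker := by
    rintro _ ⟨x, -, rfl⟩
    exact x.2
  have hmemK₁ : ∀ a : ↥τ.ker, (a : Y) ∈ K'.map τ.ker.subtype ↔ a ∈ K' := by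
    intro a
    constructor
    · rintro ⟨x, hx, hxa⟩
      have h2 : x = a := Subtype.ext hxa
      rw [← h2]
      exact hx
    · intro h
      exact ⟨a, h, rfl⟩
  haveI hK₁n : (K'.map τ.ker.subtype).Normal := by
    constructor
    intro n hn g
    have hc := Subgroup.mem_center_iff.mp (hτ.2.1 (hK₁A hn)) g
    rw [hc, mul_inv_cancel_right]
    exact hn
  obtain ⟨z₀, hz₀⟩ : ∃ a : ↥τ.ker, a ∉ K' := by
    by_contra hall
    push_neg at hall
    have h2 : K' = ⊤ := eq_top_iff.mpr fun a _ => hall a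
    rw [h2, Subgroup.index_top] at hidx
    omega
  have hz1 : (QuotientGroup.mk (z₀ : Y) : Y ⧸ K'.map τ.ker.subtype) ≠ 1 := by
    intro h
    rw [QuotientGroup.eq_one_iff] at h
    exact hz₀ ((hmemK₁ z₀).mp h)
  have hτmk : ∀ y : Y, ((Gam MM).subtype.comp
      (QuotientGroup.lift (K'.map τ.ker.subtype) τ (fun x hx => hK₁A hx)))
        (QuotientGroup.mk y) = ((Gam MM).subtype.comp τ) y := fun y => rfl
  have hkerq : ∀ q : Y ⧸ K'.map τ.ker.subtype, ((Gam MM).subtype.comp
      (QuotientGroup.lift (K'.map τ.ker.subtype) τ (fun x hx => hK₁A hx))) q = 1 →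
      q = 1 ∨ q = QuotientGroup.mk (z₀ : Y) := by
    intro q hq
    obtain ⟨y, rfl⟩ := QuotientGroup.mk_surjective q
    have hy : y ∈ τ.ker := (hker' y).mp hq
    by_cases hyK : (⟨y, hy⟩ : ↥τ.ker) ∈ K'
    · left
      exact (QuotientGroup.eq_one_iff y).mpr ((hmemK₁ ⟨y, hy⟩).mpr hyK)
    · right
      rw [QuotientGroup.eq]
      have h1 : (⟨y, hy⟩ : ↥τ.ker)⁻¹ * z₀ ∈ K' := by
        rw [Subgroup.mul_mem_iff_of_index_two hidx]
        constructor
        · intro h
          exact absurd (K'.inv_mem_iff.mp h) hyK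
        · intro h
          exact absurd h hz₀
      exact (hmemK₁ _).mpr h1
  have hzk : ((Gam MM).subtype.comp
      (QuotientGroup.lift (K'.map τ.ker.subtype) τ (fun x hx => hK₁A hx)))
        (QuotientGroup.mk (z₀ : Y)) = 1 := (hker' _).mpr z₀.2
  have hzcomm : (QuotientGroup.mk (z₀ : Y) : Y ⧸ K'.map τ.ker.subtype)
      ∈ commutator (Y ⧸ K'.map τ.ker.subtype) := by
    rw [← map_commutator_of_surjective (QuotientGroup.mk' (K'.map τ.ker.subtype))
      (QuotientGroup.mk'_surjective _)]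
    exact ⟨z₀, hτ.2.2 z₀.2, rfl⟩
  have hrange : ((Gam MM).subtype.comp
      (QuotientGroup.lift (K'.map τ.ker.subtype) τ (fun x hx => hK₁A hx))).range
        = Gam MM := by
    ext σ
    constructor
    · rintro ⟨q, rfl⟩
      exact (QuotientGroup.lift (K'.map τ.ker.subtype) τ (fun x hx => hK₁A hx) q).2
    · intro hσ
      obtain ⟨y, hy⟩ := hτ.1 ⟨σ, hσ⟩
      exact ⟨QuotientGroup.mk y, by rw [hτmk, MonoidHom.comp_apply, hy]; rfl⟩
  have hcen : ((Gam MM).subtype.comp
      (QuotientGroup.lift (K'.map τ.ker.subtype) τ (fun x hx => hK₁A hx))).ker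
        ≤ Subgroup.center (Y ⧸ K'.map τ.ker.subtype) := by
    intro q hq
    rw [Subgroup.mem_center_iff]
    intro g
    obtain ⟨y, rfl⟩ := QuotientGroup.mk_surjective q
    obtain ⟨g', rfl⟩ := QuotientGroup.mk_surjective g
    have hy : y ∈ τ.ker := (hker' y).mp (MonoidHom.mem_ker.mp hq)
    have hc := Subgroup.mem_center_iff.mp (hτ.2.1 hy) g'
    rw [← QuotientGroup.mk_mul, ← QuotientGroup.mk_mul, hc]
  have hYq : commutator (Y ⧸ K'.map τ.ker.subtype) = ⊤ :=
    SA.perfect_of_surj (QuotientGroup.mk' (K'.map τ.ker.subtype))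
      (QuotientGroup.mk'_surjective _) hYp
  have hzz : (QuotientGroup.mk (z₀ : Y) : Y ⧸ K'.map τ.ker.subtype)
      * QuotientGroup.mk (z₀ : Y) = 1 := by
    rw [← QuotientGroup.mk_mul, QuotientGroup.eq_one_iff]
    have h1 : z₀ * z₀ ∈ K' := Subgroup.mul_self_mem_of_index_two hidx z₀
    exact (hmemK₁ (z₀ * z₀)).mpr h1
  have hk2 : ∀ q : Y ⧸ K'.map τ.ker.subtype, ((Gam MM).subtype.comp
      (QuotientGroup.lift (K'.map τ.ker.subtype) τ (fun x hx => hK₁A hx))) q = 1 →
      q * q = 1 := by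
    intro q hq
    rcases hkerq q hq with rfl | rfl
    · exact one_mul 1
    · exact hzz
  refine sign_Gam _ _ hz1 hkerq hzk
    ⁅Hh.comap ((Gam MM).subtype.comp
      (QuotientGroup.lift (K'.map τ.ker.subtype) τ (fun x hx => hK₁A hx))),
     Hh.comap ((Gam MM).subtype.comp
      (QuotientGroup.lift (K'.map τ.ker.subtype) τ (fun x hx => hK₁A hx)))⁆
    ?_ ?_ hrange hzcomm
  · intro s hs h1
    exact split_Hh _ hrange hcen hYq hk2 s hs h1
  · rw [Subgroup.map_commutator, Subgroup.map_comap_eq, hrange,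
      inf_eq_right.mpr Hh_le, Hh_perfect]

end Cfsg.Agent.Lib.Helper7.M22Q
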