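import Mathlib
import Cfsg.Agent.Lib.Helper7.M22Cover3
import Cfsg.Agent.Lib.Helper7.StemAux

set_option autoImplicit false
set_option maxRecDepth 100000

/-! # The triple cover of `M22`: a pair of elements of order three with central commutator -/

namespace Cfsg.Agent.Lib.Helper7.M22T

open Cfsg Cfsg.Agent.Lib.Helper7 Cfsg.Agent.Lib.Helper7.Mono Cfsg.Agent.Lib.Helper7.MTab
open scoped commutatorElement

/-- first element of order three -/
def wu : List ℕ := [4]
/-- second element of order three -/
def wv : List ℕ := [0, 2, 4, 2, 0, 4, 0, 3, 5, 3]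

theorem u_cube : evG wu ^ 3 = 1 := evG_pow_of (by decide +kernel)

theorem v_cube : evG wv ^ 3 = 1 := evG_pow_of (by decide +kernel)

theorem comm_uv : ⁅evG wu, evG wv⁆ = zetaG MM := by
  have h := evG_eq_zeta_of (w := wu ++ wv ++ CS.winv wu ++ CS.winv wv) (k := 1) (by decide +kernel)
  rw [pow_one] at h
  rw [evG_comm, h]

theorem ker_le_comm : (sig MM).ker ≤ commutator ↥(Gam MM) :=
  ker_le_comm_of (u := wu) (v := wv) (by decide +kernel)

/-- the kernel of a stem extension of the triple cover by a perfect group has exponent prime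
to three -/
theorem core3 {Y : Type*} [Group Y] (τ : Y →* ↥(Gam MM)) (hτ : IsStemExtension τ)
    (hY : commutator Y = ⊤) (hcard : Nat.card ↥(Gam MM) = 1330560) {z : Y} (hz : z ∈ τ.ker) :
    z ^ 49280 = 1 := by
  refine SA.stem_pow_eq_one_of_central_he27 τ hτ hY hz u_cube v_cube ?_ ?_ 49280 (by rw [hcard])
  · rw [comm_uv]
    exact zetaG_ne_one
  · rw [comm_uv, Subgroup.mem_center_iff]
    intro g
    exact zetaG_central MM g

end Cfsg.Agent.Lib.Helper7.M22T
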