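import Mathlib
import Cfsg.Agent.Lib.Helper7.M22Schur4
import Cfsg.Agent.Lib.Helper7.M22Three
import Cfsg.Agent.Lib.Helper35.SchurPSL
import Cfsg.Agent.Lib.Helper35.Schur
import Cfsg.Agent.Lib.Helper27.M12Tab

set_option autoImplicit false
set_option maxRecDepth 100000

/-! # The Schur multiplier of `M22` is cyclic of order twelve

The fibre product over `M22` of the fourfold cover `M22Q` and the triple cover `M22T` is a stem
extension of `M22` with cyclic kernel of order `12`, and it has trivial multiplier: the kernel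
of a stem extension of it is a `2`-group (elements of order `5`, `7`, `11` of `M22`, and the
extraspecial Sylow `3`-subgroup of the triple cover), and a nontrivial `2`-group would give a
central extension of the fourfold cover by a group of order two inside the commutator subgroup,
which the sign method excludes. -/

namespace Cfsg.Agent.Lib.Helper7.M22S

open Cfsg Cfsg.Agent.Lib.Helper7 Cfsg.Agent.Lib.Helper7.Mono Cfsg.Agent.Lib.Helper35
open Cfsg.Agent.Lib.Helper6.M12 (tabPermD)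
open scoped commutatorElement

/-! ### elements of order five, seven and eleven -/

/-- an element of order five -/
def t5 : List ℕ := [0, 21, 12, 3, 13, 22, 11, 7, 18, 5, 6, 19, 9, 17, 15, 8, 10, 1, 20, 16, 14, 4, 2, 23]
/-- an element of order seven -/
def t7 : List ℕ := [0, 10, 2, 14, 1, 8, 12, 13, 3, 5, 11, 18, 19, 9, 7, 6, 15, 16, 22, 21, 4, 17, 20, 23]
/-- an element of order eleven -/
def t11 : List ℕ := [0, 11, 5, 18, 12, 14, 21, 9, 3, 4, 6, 8, 16, 17, 19, 10, 15, 7, 22, 1, 2, 13, 20, 23]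

/-- an element of order five -/
noncomputable def x5 : ↥Spor.M22 :=
  ⟨tabPermD t5, (Cfsg.Agent.Lib.Helper86.m22Tab_spec t5 (by decide +kernel)).2⟩
/-- an element of order seven -/
noncomputable def x7 : ↥Spor.M22 :=
  ⟨tabPermD t7, (Cfsg.Agent.Lib.Helper86.m22Tab_spec t7 (by decide +kernel)).2⟩
/-- an element of order eleven -/
noncomputable def x11 : ↥Spor.M22 :=
  ⟨tabPermD t11, (Cfsg.Agent.Lib.Helper86.m22Tab_spec t11 (by decide +kernel)).2⟩

theorem order_x5 : orderOf x5 = 5 :=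
  haveI : Fact (Nat.Prime 5) := ⟨by norm_num⟩
  Cfsg.Agent.Lib.Helper27.MT.orderOf_tab x5 t5 rfl 5 (by decide +kernel) (by decide +kernel)
    (by decide +kernel) 1 (by norm_num) (by decide)

theorem order_x7 : orderOf x7 = 7 :=
  haveI : Fact (Nat.Prime 7) := ⟨by norm_num⟩
  Cfsg.Agent.Lib.Helper27.MT.orderOf_tab x7 t7 rfl 7 (by decide +kernel) (by decide +kernel)
    (by decide +kernel) 1 (by norm_num) (by decide)

theorem order_x11 : orderOf x11 = 11 :=
  haveI : Fact (Nat.Prime 11) := ⟨by norm_num⟩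
  Cfsg.Agent.Lib.Helper27.MT.orderOf_tab x11 t11 rfl 11 (by decide +kernel) (by decide +kernel)
    (by decide +kernel) 1 (by norm_num) (by decide)

/-- the kernel of a stem extension of `M22` has exponent dividing `1152` -/
theorem core22 {Y : Type*} [Group Y] (τ : Y →* ↥Spor.M22) (hτ : IsStemExtension τ) {z : Y}
    (hz : z ∈ τ.ker) : z ^ 1152 = 1 := by
  have e5 : z ^ 88704 = 1 :=
    stem_pow_eq_one_of_orderOf τ hτ hz x5 5 88704 (by norm_num) order_x5
      (by rw [Cfsg.Agent.Lib.Helper86.card_M22])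
  have e7 : z ^ 63360 = 1 :=
    stem_pow_eq_one_of_orderOf τ hτ hz x7 7 63360 (by norm_num) order_x7
      (by rw [Cfsg.Agent.Lib.Helper86.card_M22])
  have e11 : z ^ 40320 = 1 :=
    stem_pow_eq_one_of_orderOf τ hτ hz x11 11 40320 (by norm_num) order_x11
      (by rw [Cfsg.Agent.Lib.Helper86.card_M22])
  have d1 := orderOf_dvd_of_pow_eq_one e5
  have d2 := orderOf_dvd_of_pow_eq_one e7
  have d3 := orderOf_dvd_of_pow_eq_one e11
  have d4 : orderOf z ∣ Nat.gcd (Nat.gcd 88704 63360) 40320 :=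
    Nat.dvd_gcd (Nat.dvd_gcd d1 d2) d3
  have d5 : Nat.gcd (Nat.gcd 88704 63360) 40320 = 1152 := by norm_num
  rw [d5] at d4
  exact orderOf_dvd_iff_pow_eq_one.mp d4

/-! ### the two covers -/

theorem tp_eq : M22T.tp0 = M22Q.tp0 ∧ M22T.tp1 = M22Q.tp1 ∧ M22T.tp2 = M22Q.tp2 := by
  decide

theorem sig3_surj : Function.Surjective (sig M22T.MM) := by
  intro m
  obtain ⟨g4, hg4⟩ := M22Q.sig_surj m
  have h1 : (g4 : PP 4928) ∈ M22Q.CC := by
    rw [M22Q.CC_eq]
    exact g4.2
  have h2 := M22Q.snd_mem_closure _ h1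
  rw [← tp_eq.1, ← tp_eq.2.1, ← tp_eq.2.2] at h2
  obtain ⟨g3, hg3, hg3m⟩ := M22T.exists_of_closure _ h2
  refine ⟨⟨g3, hg3⟩, Subtype.ext ?_⟩
  show g3.2 = (m : Equiv.Perm GolayPt)
  rw [hg3m, ← hg4]
  rfl

theorem card_Gam3 : Nat.card ↥(Gam M22T.MM) = 1330560 := by
  rw [card_Gam M22T.MM, MonoidHom.range_eq_top.mpr sig3_surj, Subgroup.card_top,
    Cfsg.Agent.Lib.Helper86.card_M22]
  have h : orderOf M22T.MM.zeta = 3 := M22T.orderOf_zeta
  rw [h]

theorem stem4 : IsStemExtension (sig M22Q.MM) :=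
  ⟨M22Q.sig_surj, ker_le_center M22Q.MM, M22Q.ker_le_comm⟩

theorem stem3 : IsStemExtension (sig M22T.MM) :=
  ⟨sig3_surj, ker_le_center M22T.MM, M22T.ker_le_comm⟩

theorem M22_perfect : commutator ↥Spor.M22 = ⊤ :=
  SA.perfect_of_surj (sig M22Q.MM) M22Q.sig_surj M22Q.Gam_perfect

/-! ### the twelvefold cover -/

/-- the twelvefold cover -/
abbrev Gam12 : Subgroup (↥(Gam M22Q.MM) × ↥(Gam M22T.MM)) :=
  SA.fib (sig M22Q.MM) (sig M22T.MM)

/-- the projection of the twelvefold cover -/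
abbrev sig12 : ↥Gam12 →* ↥Spor.M22 := SA.fibHom (sig M22Q.MM) (sig M22T.MM)

theorem stem12 : IsStemExtension sig12 :=
  ⟨SA.fibHom_surj M22Q.sig_surj sig3_surj,
    SA.fibHom_ker_le_center (ker_le_center M22Q.MM) (ker_le_center M22T.MM),
    SA.fibHom_ker_le_commutator M22Q.sig_surj sig3_surj M22Q.ker_le_comm M22T.ker_le_comm
      (fun k hk => M22Q.ker_pow k hk) (fun k hk => M22T.ker_pow k hk)⟩

theorem card_ker12 : Nat.card ↥sig12.ker = 12 := by
  rw [Nat.card_congr (SA.fibKerEquiv (σ₁ := sig M22Q.MM) (σ₂ := sig M22T.MM)), Nat.card_prod,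
    M22Q.card_ker', M22T.card_ker']

/-- a generator of the kernel -/
noncomputable def z12 : ↥sig12.ker :=
  ⟨⟨(zetaG M22Q.MM, zetaG M22T.MM), by
    show sig M22Q.MM (zetaG M22Q.MM) = sig M22T.MM (zetaG M22T.MM)
    rw [sig_zetaG, sig_zetaG]⟩, by
    show sig M22Q.MM (zetaG M22Q.MM) = 1
    exact sig_zetaG _⟩

theorem order_z12 : orderOf z12 = 12 := by
  rw [← Subgroup.orderOf_coe, ← Subgroup.orderOf_coe]
  show orderOf ((zetaG M22Q.MM, zetaG M22T.MM) : ↥(Gam M22Q.MM) × ↥(Gam M22T.MM)) = 12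
  rw [Prod.orderOf_mk, M22Q.orderOf_zetaG', M22T.orderOf_zetaG']
  rfl

/-- every finite stem extension of the twelvefold cover is injective -/
theorem core12 (Y : Type) [Group Y] [Finite Y] (τ : Y →* ↥Gam12) (hτ : IsStemExtension τ) :
    τ.ker = ⊥ := by
  have hΓp : commutator ↥Gam12 = ⊤ :=
    SA.perfect_of_stem sig12 stem12.1 stem12.2.2 M22_perfect
  have hY : commutator Y = ⊤ := SA.perfect_of_stem τ hτ.1 hτ.2.2 hΓp
  have h22 : IsStemExtension (sig12.comp τ) :=
    SA.stem_comp τ sig12 hτ.1 hτ.2.1 stem12.1 stem12.2.1 hY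
  have h3 : IsStemExtension ((SA.fibSnd (sig M22Q.MM) (sig M22T.MM)).comp τ) :=
    SA.stem_comp τ _ hτ.1 hτ.2.1 (SA.fibSnd_surj M22Q.sig_surj)
      (SA.fibSnd_ker_le (ker_le_center M22Q.MM)) hY
  have h4 : IsStemExtension ((SA.fibFst (sig M22Q.MM) (sig M22T.MM)).comp τ) :=
    SA.stem_comp τ _ hτ.1 hτ.2.1 (SA.fibFst_surj sig3_surj)
      (SA.fibFst_ker_le (ker_le_center M22T.MM)) hY
  have h128 : ∀ z ∈ τ.ker, z ^ 128 = 1 := by
    intro z hz
    have hz' : τ z = 1 := hz
    have e1 : z ^ 1152 = 1 := core22 (sig12.comp τ) h22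
      (by rw [MonoidHom.mem_ker, MonoidHom.comp_apply, hz', map_one])
    have e2 : z ^ 49280 = 1 := M22T.core3 _ h3 hY card_Gam3
      (by rw [MonoidHom.mem_ker, MonoidHom.comp_apply, hz', map_one])
    have d1 := orderOf_dvd_of_pow_eq_one e1
    have d2 := orderOf_dvd_of_pow_eq_one e2
    have d4 : orderOf z ∣ Nat.gcd 1152 49280 := Nat.dvd_gcd d1 d2
    have d5 : Nat.gcd 1152 49280 = 128 := by norm_num
    rw [d5] at d4
    exact orderOf_dvd_iff_pow_eq_one.mp d4
  by_contra hne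
  obtain ⟨z, hz, hz1⟩ : ∃ z ∈ τ.ker, z ≠ 1 := by
    by_contra hall
    push_neg at hall
    exact hne ((Subgroup.eq_bot_iff_forall _).mpr hall)
  have hz' : τ z = 1 := hz
  have hz4 : z ∈ ((SA.fibFst (sig M22Q.MM) (sig M22T.MM)).comp τ).ker := by
    rw [MonoidHom.mem_ker, MonoidHom.comp_apply, hz', map_one]
  have hdvd : 2 ∣ Nat.card ↥((SA.fibFst (sig M22Q.MM) (sig M22T.MM)).comp τ).ker := by
    have ho : orderOf z ∣ 2 ^ 7 := orderOf_dvd_of_pow_eq_one (h128 z hz)
    obtain ⟨k, -, hk⟩ := (Nat.dvd_prime_pow Nat.prime_two).mp ho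
    have hk0 : k ≠ 0 := by
      rintro rfl
      rw [pow_zero, orderOf_eq_one_iff] at hk
      exact hz1 hk
    have h2 : 2 ∣ orderOf z := by
      rw [hk]
      exact dvd_pow_self 2 hk0
    have h3' : orderOf (⟨z, hz4⟩ : ↥((SA.fibFst (sig M22Q.MM) (sig M22T.MM)).comp τ).ker)
        = orderOf z := Subgroup.orderOf_mk _ _
    exact h2.trans (h3' ▸ orderOf_dvd_natCard _)
  have hcomm : ∀ a b : ↥((SA.fibFst (sig M22Q.MM) (sig M22T.MM)).comp τ).ker, a * b = b * a := by
    intro a b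
    apply Subtype.ext
    exact Subgroup.mem_center_iff.mp (h4.2.1 b.2) a.1
  obtain ⟨K', hK'⟩ := SA.exists_index_two hcomm hdvd
  exact M22Q.core4 Y _ h4 K' hK'

/-- the Schur multiplier of the twelvefold cover is trivial -/
theorem mult_Gam12 : HasCyclicSchurMultiplier ↥Gam12 1 :=
  hasCyclicSchurMultiplier_one_of core12

/-- the Schur multiplier of `M22` is cyclic of order twelve -/
theorem mult_M22 : HasCyclicSchurMultiplier ↥Spor.M22 12 := by
  have hcard' : Nat.card (Multiplicative (ZMod 12)) = 12 := by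
    rw [Nat.card_eq_fintype_card, Fintype.card_multiplicative, ZMod.card]
  have : IsCyclic ↥sig12.ker :=
    isCyclic_of_orderOf_eq_card z12 (by rw [order_z12, card_ker12])
  exact hasSchurMultiplier_of_stem_of_trivial sig12 stem12 mult_Gam12
    (mulEquivOfCyclicCardEq (card_ker12.trans hcard'.symm))

end Cfsg.Agent.Lib.Helper7.M22S
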