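import Mathlib
import Cfsg.Agent.Lib.Helper7.SignCore

set_option autoImplicit false

/-! # Central extensions of triply transitive groups

Let `G` act triply transitively on a set with at least four points, and let `τ : Y →* G` be a
surjective homomorphism with central kernel.  If the point stabilisers and the stabilisers of
two points are perfect, and the commutator subgroups of the preimages of the point stabilisers
meet the kernel trivially (as happens when the point stabilisers have trivial Schur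
multiplier), then the kernel meets the commutator subgroup of `Y` trivially.

The proof glues the canonical sections over the point stabilisers: with `S` the section over
the stabiliser of `a` and `t` a lift (inside the section over the stabiliser of a third point)
of an element exchanging `a` and `b`, the set `S ∪ S t S` is a subgroup mapped isomorphically
onto `G`. -/

namespace Cfsg.Agent.Lib.Helper7.TT

open scoped commutatorElement

section

variable {G Ω Y : Type*} [Group G] [MulAction G Ω] [Group Y] (τ : Y →* G)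

/-- preimage of a point stabiliser -/
def Kp (a : Ω) : Subgroup Y := (MulAction.stabilizer G a).comap τ

/-- commutator subgroup of the preimage of a point stabiliser -/
def Sp (a : Ω) : Subgroup Y := ⁅Kp τ a, Kp τ a⁆

theorem mem_Kp {a : Ω} {y : Y} : y ∈ Kp τ a ↔ τ y • a = a := Iff.rfl

theorem Sp_le_Kp (a : Ω) : Sp τ a ≤ Kp τ a := by
  unfold Sp
  rw [Subgroup.commutator_le]
  intro g₁ h₁ g₂ h₂
  rw [commutatorElement_def]
  exact Subgroup.mul_mem _ (Subgroup.mul_mem _ (Subgroup.mul_mem _ h₁ h₂)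
    (Subgroup.inv_mem _ h₁)) (Subgroup.inv_mem _ h₂)

theorem Sp_fix {a : Ω} {s : Y} (hs : s ∈ Sp τ a) : τ s • a = a := Sp_le_Kp τ a hs

theorem conj_mem_Kp (y : Y) {a : Ω} {k : Y} (hk : k ∈ Kp τ a) :
    y * k * y⁻¹ ∈ Kp τ (τ y • a) := by
  have h1 : τ k • a = a := hk
  show τ (y * k * y⁻¹) • τ y • a = τ y • a
  rw [map_mul, map_mul, map_inv, mul_smul, mul_smul, inv_smul_smul, h1]

theorem conj_mem_Sp (y : Y) {a : Ω} {s : Y} (hs : s ∈ Sp τ a) :
    y * s * y⁻¹ ∈ Sp τ (τ y • a) := by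
  have hle : Sp τ a ≤ (Sp τ (τ y • a)).comap (MulAut.conj y).toMonoidHom := by
    unfold Sp
    rw [Subgroup.commutator_le]
    intro g₁ h₁ g₂ h₂
    rw [Subgroup.mem_comap, map_commutatorElement]
    exact Subgroup.commutator_mem_commutator (conj_mem_Kp τ y h₁) (conj_mem_Kp τ y h₂)
  exact hle hs

theorem exists_lift (hτ : Function.Surjective τ)
    (hperf : ∀ a : Ω, ⁅MulAction.stabilizer G a, MulAction.stabilizer G a⁆
      = MulAction.stabilizer G a) (a : Ω) {g : G} (hg : g • a = a) :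
    ∃ s ∈ Sp τ a, τ s = g := by
  have h1 : (Sp τ a).map τ = MulAction.stabilizer G a := by
    unfold Sp Kp
    rw [Subgroup.map_commutator, Subgroup.map_comap_eq_self_of_surjective hτ, hperf a]
  have h2 : g ∈ (Sp τ a).map τ := by
    rw [h1]
    exact hg
  exact h2

theorem lift_inj (hsec : ∀ (a : Ω) (s : Y), s ∈ Sp τ a → τ s = 1 → s = 1) {a : Ω} {s s' : Y}
    (hs : s ∈ Sp τ a) (hs' : s' ∈ Sp τ a) (h : τ s = τ s') : s = s' := by
  have h1 : s'⁻¹ * s = 1 :=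
    hsec a _ (Subgroup.mul_mem _ (Subgroup.inv_mem _ hs') hs)
      (by rw [map_mul, map_inv, h, inv_mul_cancel])
  exact (inv_mul_eq_one.mp h1).symm

theorem Sp_switch (hτ : Function.Surjective τ)
    (hsec : ∀ (a : Ω) (s : Y), s ∈ Sp τ a → τ s = 1 → s = 1)
    (hperf : ∀ a : Ω, ⁅MulAction.stabilizer G a, MulAction.stabilizer G a⁆
      = MulAction.stabilizer G a)
    (hperf2 : ∀ a b : Ω, a ≠ b →
      ⁅MulAction.stabilizer G a ⊓ MulAction.stabilizer G b,
        MulAction.stabilizer G a ⊓ MulAction.stabilizer G b⁆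
        = MulAction.stabilizer G a ⊓ MulAction.stabilizer G b)
    {a b : Ω} (hab : a ≠ b) {s : Y} (hs : s ∈ Sp τ a) (hb : τ s • b = b) : s ∈ Sp τ b := by
  have hle : MulAction.stabilizer G a ⊓ MulAction.stabilizer G b ≤ (Sp τ a ⊓ Sp τ b).map τ := by
    rw [← hperf2 a b hab, Subgroup.commutator_le]
    intro g₁ h₁ g₂ h₂
    obtain ⟨s₁, hs₁, rfl⟩ := exists_lift τ hτ hperf a (Subgroup.mem_inf.mp h₁).1
    obtain ⟨s₂, hs₂, rfl⟩ := exists_lift τ hτ hperf a (Subgroup.mem_inf.mp h₂).1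
    refine ⟨⁅s₁, s₂⁆, Subgroup.mem_inf.mpr ⟨?_, ?_⟩, map_commutatorElement τ s₁ s₂⟩
    · exact Subgroup.commutator_mem_commutator (Sp_le_Kp τ a hs₁) (Sp_le_Kp τ a hs₂)
    · exact Subgroup.commutator_mem_commutator (Subgroup.mem_inf.mp h₁).2
        (Subgroup.mem_inf.mp h₂).2
  obtain ⟨s', hs', hss'⟩ := hle (Subgroup.mem_inf.mpr ⟨Sp_fix τ hs, hb⟩)
  have h1 := lift_inj τ hsec (Subgroup.mem_inf.mp hs').1 hs hss'
  rw [← h1]
  exact (Subgroup.mem_inf.mp hs').2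

/-- **Gluing sections over point stabilisers.** -/
theorem eq_one_of_three_trans (hτ : Function.Surjective τ) (hc : τ.ker ≤ Subgroup.center Y)
    (hsec : ∀ (a : Ω) (s : Y), s ∈ Sp τ a → τ s = 1 → s = 1)
    (hperf : ∀ a : Ω, ⁅MulAction.stabilizer G a, MulAction.stabilizer G a⁆
      = MulAction.stabilizer G a)
    (hperf2 : ∀ a b : Ω, a ≠ b →
      ⁅MulAction.stabilizer G a ⊓ MulAction.stabilizer G b,
        MulAction.stabilizer G a ⊓ MulAction.stabilizer G b⁆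
        = MulAction.stabilizer G a ⊓ MulAction.stabilizer G b)
    (h2 : ∀ x₁ x₂ y₁ y₂ : Ω, x₁ ≠ x₂ → y₁ ≠ y₂ → ∃ g : G, g • x₁ = y₁ ∧ g • x₂ = y₂)
    (h3 : ∀ x₁ x₂ x₃ y₁ y₂ y₃ : Ω, x₁ ≠ x₂ → x₁ ≠ x₃ → x₂ ≠ x₃ → y₁ ≠ y₂ → y₁ ≠ y₃ → y₂ ≠ y₃ →
      ∃ g : G, g • x₁ = y₁ ∧ g • x₂ = y₂ ∧ g • x₃ = y₃)
    (a b c d : Ω) (hab : a ≠ b) (hac : a ≠ c) (had : a ≠ d) (hbc : b ≠ c) (hbd : b ≠ d)
    (hcd : c ≠ d) (z : Y) (hz : τ z = 1) (hzc : z ∈ commutator Y) : z = 1 := by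
  have sw : ∀ {x y : Ω}, x ≠ y → ∀ {s : Y}, s ∈ Sp τ x → τ s • y = y → s ∈ Sp τ y :=
    fun hxy _ hs hy => Sp_switch τ hτ hsec hperf hperf2 hxy hs hy
  have lift : ∀ (x : Ω) {g : G}, g • x = x → ∃ s ∈ Sp τ x, τ s = g :=
    fun x _ hg => exists_lift τ hτ hperf x hg
  have inj : ∀ {x : Ω} {s s' : Y}, s ∈ Sp τ x → s' ∈ Sp τ x → τ s = τ s' → s = s' :=
    fun hs hs' h => lift_inj τ hsec hs hs' h
  obtain ⟨t, hta, htb, htc⟩ := h3 a b c b a c hab hac hbc hab.symm hbc hac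
  obtain ⟨tt, htt, rfl⟩ := lift c htc
  obtain ⟨h₁, h₁a, h₁c, h₁b⟩ := h3 a c b a c d hac hab hbc.symm hac had hcd
  obtain ⟨h, hh, rfl⟩ := lift a h₁a
  have hhc : h ∈ Sp τ c := sw hac hh h₁c
  have hL1 : ∀ x ∈ Sp τ a, τ x • b = b →
      tt * x * tt⁻¹ ∈ Sp τ a ∧ τ (tt * x * tt⁻¹) • b = b := by
    intro x hx hxb
    have hxb' : x ∈ Sp τ b := sw hab hx hxb
    constructor
    · have h5 := conj_mem_Sp τ tt hxb'
      rw [htb] at h5
      exact h5
    · have h5 := conj_mem_Sp τ tt hx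
      rw [hta] at h5
      exact Sp_fix τ h5
  have htinv_a : τ tt⁻¹ • a = b := by rw [map_inv, inv_smul_eq_iff, htb]
  have htinv_b : τ tt⁻¹ • b = a := by rw [map_inv, inv_smul_eq_iff, hta]
  have hL2 : ∀ x ∈ Sp τ a, τ x • b = b →
      tt⁻¹ * x * tt ∈ Sp τ a ∧ τ (tt⁻¹ * x * tt) • b = b := by
    intro x hx hxb
    have hxb' : x ∈ Sp τ b := sw hab hx hxb
    constructor
    · have h5 := conj_mem_Sp τ tt⁻¹ hxb'
      rw [htinv_b, inv_inv] at h5
      exact h5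
    · have h5 := conj_mem_Sp τ tt⁻¹ hx
      rw [htinv_a, inv_inv] at h5
      exact Sp_fix τ h5
  have htt2 : tt * tt ∈ Sp τ a := by
    have h5 : τ (tt * tt) • a = a := by rw [map_mul, mul_smul, hta, htb]
    exact sw hac.symm (Subgroup.mul_mem _ htt htt) h5
  have hC3 : ∀ s ∈ Sp τ a, τ s • b ≠ b → ∃ l₁ ∈ Sp τ a, ∃ l₂ ∈ Sp τ a,
      τ l₁ • b = b ∧ τ l₂ • b = b ∧ s = l₁ * h * l₂ := by
    intro s hs hsb
    have hsa : τ s • a = a := Sp_fix τ hs
    have hne : a ≠ τ s • b := by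
      intro e
      have h5 : τ s • a = τ s • b := by
        rw [hsa]
        exact e
      exact hab (MulAction.injective (τ s) h5)
    obtain ⟨l, hla, hlb, hld⟩ := h3 a b d a b (τ s • b) hab had hbd hab hne (Ne.symm hsb)
    obtain ⟨l₁, hl₁, hl₁τ⟩ := lift a hla
    have hl'a : ((l * τ h)⁻¹ * τ s) • a = a := by
      rw [mul_smul, hsa, inv_smul_eq_iff, mul_smul, h₁a, hla]
    have hl'b : ((l * τ h)⁻¹ * τ s) • b = b := by
      rw [mul_smul, inv_smul_eq_iff, mul_smul, h₁b, hld]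
    obtain ⟨l₂, hl₂, hl₂τ⟩ := lift a hl'a
    refine ⟨l₁, hl₁, l₂, hl₂, by rw [hl₁τ]; exact hlb, by rw [hl₂τ]; exact hl'b, ?_⟩
    apply inj hs (Subgroup.mul_mem _ (Subgroup.mul_mem _ hl₁ hh) hl₂)
    rw [map_mul, map_mul, hl₁τ, hl₂τ]
    group
  have hC4 : ∃ m₁ ∈ Sp τ a, ∃ m₂ ∈ Sp τ a, tt * h * tt = m₁ * tt * m₂ := by
    have huc : (τ tt * τ h * τ tt) • c = c := by
      rw [mul_smul, mul_smul, htc, h₁c, htc]
    have hua : (τ tt * τ h * τ tt) • a = τ tt • d := by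
      rw [mul_smul, mul_smul, hta, h₁b]
    have he1 : a ≠ τ tt • d := by
      intro e
      have h5 : τ tt • b = τ tt • d := by
        rw [htb]
        exact e
      exact hbd (MulAction.injective (τ tt) h5)
    have he2 : c ≠ τ tt • d := by
      intro e
      have h5 : τ tt • c = τ tt • d := by
        rw [htc]
        exact e
      exact hcd (MulAction.injective (τ tt) h5)
    obtain ⟨m, hmc, hma, hmb⟩ :=
      h3 c a b c a (τ tt • d) hac.symm hbc.symm hab hac.symm he2 he1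
    have hm'a : ((m * τ tt)⁻¹ * (τ tt * τ h * τ tt)) • a = a := by
      rw [mul_smul, hua, inv_smul_eq_iff, mul_smul, hta, hmb]
    have hm'c : ((m * τ tt)⁻¹ * (τ tt * τ h * τ tt)) • c = c := by
      rw [mul_smul, huc, inv_smul_eq_iff, mul_smul, htc, hmc]
    obtain ⟨m₁, hm₁, hm₁τ⟩ := lift c hmc
    obtain ⟨m₂, hm₂, hm₂τ⟩ := lift c hm'c
    refine ⟨m₁, sw hac.symm hm₁ (by rw [hm₁τ]; exact hma), m₂,
      sw hac.symm hm₂ (by rw [hm₂τ]; exact hm'a), ?_⟩
    apply inj (Subgroup.mul_mem _ (Subgroup.mul_mem _ htt hhc) htt)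
      (Subgroup.mul_mem _ (Subgroup.mul_mem _ hm₁ htt) hm₂)
    rw [map_mul, map_mul, map_mul, map_mul, hm₁τ, hm₂τ]
    group
  obtain ⟨m₁, hm₁, m₂, hm₂, hC4e⟩ := hC4
  have hC5 : ∀ s ∈ Sp τ a, tt * s * tt ∈ Sp τ a ∨
      ∃ s₁ ∈ Sp τ a, ∃ s₂ ∈ Sp τ a, tt * s * tt = s₁ * tt * s₂ := by
    intro s hs
    by_cases hsb : τ s • b = b
    · left
      have h5 := (hL1 s hs hsb).1
      have h6 : tt * s * tt = (tt * s * tt⁻¹) * (tt * tt) := by group
      rw [h6]
      exact Subgroup.mul_mem _ h5 htt2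
    · right
      obtain ⟨l₁, hl₁, l₂, hl₂, hl₁b, hl₂b, rfl⟩ := hC3 s hs hsb
      refine ⟨(tt * l₁ * tt⁻¹) * m₁, Subgroup.mul_mem _ (hL1 l₁ hl₁ hl₁b).1 hm₁,
        m₂ * (tt⁻¹ * l₂ * tt), Subgroup.mul_mem _ hm₂ (hL2 l₂ hl₂ hl₂b).1, ?_⟩
      have h6 : tt * (l₁ * h * l₂) * tt
          = (tt * l₁ * tt⁻¹) * (tt * h * tt) * (tt⁻¹ * l₂ * tt) := by group
      rw [h6, hC4e]
      group
  let Q' : Subgroup Y :=
    { carrier := {q | q ∈ Sp τ a ∨ ∃ s₁ ∈ Sp τ a, ∃ s₂ ∈ Sp τ a, q = s₁ * tt * s₂}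
      one_mem' := Or.inl (Subgroup.one_mem _)
      mul_mem' := by
        rintro x y (hx | ⟨s₁, hs₁, s₂, hs₂, rfl⟩) (hy | ⟨s₃, hs₃, s₄, hs₄, rfl⟩)
        · exact Or.inl (Subgroup.mul_mem _ hx hy)
        · exact Or.inr ⟨x * s₃, Subgroup.mul_mem _ hx hs₃, s₄, hs₄, by group⟩
        · exact Or.inr ⟨s₁, hs₁, s₂ * y, Subgroup.mul_mem _ hs₂ hy, by group⟩
        · rcases hC5 (s₂ * s₃) (Subgroup.mul_mem _ hs₂ hs₃) with h5 | ⟨s₅, hs₅, s₆, hs₆, h5⟩
          · left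
            have e : s₁ * tt * s₂ * (s₃ * tt * s₄) = s₁ * (tt * (s₂ * s₃) * tt) * s₄ := by
              group
            rw [e]
            exact Subgroup.mul_mem _ (Subgroup.mul_mem _ hs₁ h5) hs₄
          · right
            refine ⟨s₁ * s₅, Subgroup.mul_mem _ hs₁ hs₅, s₆ * s₄,
              Subgroup.mul_mem _ hs₆ hs₄, ?_⟩
            have e : s₁ * tt * s₂ * (s₃ * tt * s₄) = s₁ * (tt * (s₂ * s₃) * tt) * s₄ := by
              group
            rw [e, h5]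
            group
      inv_mem' := by
        rintro x (hx | ⟨s₁, hs₁, s₂, hs₂, rfl⟩)
        · exact Or.inl (Subgroup.inv_mem _ hx)
        · right
          refine ⟨s₂⁻¹, Subgroup.inv_mem _ hs₂, (tt * tt)⁻¹ * s₁⁻¹,
            Subgroup.mul_mem _ (Subgroup.inv_mem _ htt2) (Subgroup.inv_mem _ hs₁), ?_⟩
          group }
  have hQker : ∀ q ∈ Q', τ q = 1 → q = 1 := by
    rintro q (hq | ⟨s₁, hs₁, s₂, hs₂, rfl⟩) hq1
    · exact hsec a q hq hq1
    · exfalso
      have h5 : τ (s₁ * tt * s₂) • a = τ s₁ • b := by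
        rw [map_mul, map_mul, mul_smul, mul_smul, Sp_fix τ hs₂, hta]
      rw [hq1, one_smul] at h5
      have h6 : τ s₁ • a = τ s₁ • b := by
        rw [Sp_fix τ hs₁]
        exact h5
      exact hab (MulAction.injective (τ s₁) h6)
  have hQsurj : ∀ g : G, ∃ q ∈ Q', τ q = g := by
    intro g
    by_cases hga : g • a = a
    · obtain ⟨s, hs, hsg⟩ := lift a hga
      exact ⟨s, Or.inl hs, hsg⟩
    · obtain ⟨m, hma, hmb⟩ := h2 a b a (g • a) hab (Ne.symm hga)
      have hm' : ((m * τ tt)⁻¹ * g) • a = a := by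
        rw [mul_smul, inv_smul_eq_iff, mul_smul, hta, hmb]
      obtain ⟨s₁, hs₁, hs₁τ⟩ := lift a hma
      obtain ⟨s₂, hs₂, hs₂τ⟩ := lift a hm'
      refine ⟨s₁ * tt * s₂, Or.inr ⟨s₁, hs₁, s₂, hs₂, rfl⟩, ?_⟩
      rw [map_mul, map_mul, hs₁τ, hs₂τ]
      group
  have hle : commutator Y ≤ Q' := by
    rw [commutator_def, Subgroup.commutator_le]
    intro y₁ _ y₂ _
    obtain ⟨q₁, hq₁, hq₁τ⟩ := hQsurj (τ y₁)
    obtain ⟨q₂, hq₂, hq₂τ⟩ := hQsurj (τ y₂)
    have hk₁ : q₁⁻¹ * y₁ ∈ Subgroup.center Y :=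
      hc (by rw [MonoidHom.mem_ker, map_mul, map_inv, hq₁τ, inv_mul_cancel])
    have hk₂ : q₂⁻¹ * y₂ ∈ Subgroup.center Y :=
      hc (by rw [MonoidHom.mem_ker, map_mul, map_inv, hq₂τ, inv_mul_cancel])
    have e : ⁅y₁, y₂⁆ = ⁅q₁, q₂⁆ := by
      have e1 : ⁅y₁, y₂⁆ = ⁅q₁ * (q₁⁻¹ * y₁), q₂ * (q₂⁻¹ * y₂)⁆ := by
        rw [mul_inv_cancel_left, mul_inv_cancel_left]
      rw [e1]
      exact CS.comm_central q₁ q₂ _ _ (Subgroup.mem_center_iff.mp hk₁)
        (Subgroup.mem_center_iff.mp hk₂)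
    rw [e, commutatorElement_def]
    exact Q'.mul_mem (Q'.mul_mem (Q'.mul_mem hq₁ hq₂) (Q'.inv_mem hq₁)) (Q'.inv_mem hq₂)
  exact hQker z (hle hzc) hz

end

/-- a simple group whose order is not a prime is perfect -/
theorem perfect_of_simple {H : Type*} [Group H] [IsSimpleGroup H] (h : ¬ (Nat.card H).Prime) :
    commutator H = ⊤ := by
  have hn : (commutator H).Normal := by
    rw [commutator_def]
    infer_instance
  rcases hn.eq_bot_or_eq_top with h0 | h0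
  · exfalso
    have hcomm : ∀ a b : H, a * b = b * a := by
      intro a b
      have h1 : ⁅a, b⁆ ∈ commutator H := by
        rw [commutator_def]
        exact Subgroup.commutator_mem_commutator (Subgroup.mem_top _) (Subgroup.mem_top _)
      rw [h0, Subgroup.mem_bot, commutatorElement_eq_one_iff_mul_comm] at h1
      exact h1
    let _i : CommGroup H := { ‹Group H› with mul_comm := hcomm }
    exact h (IsSimpleGroup.prime_card (α := H))
  · exact h0

/-- a perfect subgroup is its own commutator subgroup -/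
theorem comm_self_of_perfect {G : Type*} [Group G] (H : Subgroup G) (h : commutator ↥H = ⊤) :
    ⁅H, H⁆ = H := by
  rw [← Subgroup.map_subtype_commutator, h, ← MonoidHom.range_eq_map, Subgroup.range_subtype]

end Cfsg.Agent.Lib.Helper7.TT
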